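import Mathlib

/-!
# The wreath product `C_p ≀ Q` as a group of permutations of `B × ZMod p`
-/

set_option autoImplicit false

namespace Cfsg.Agent.Lib.Helper89.AW

open Equiv Equiv.Perm

variable {B : Type*}

/-- lift of a permutation of the base. -/
def sH (F : Type*) : Perm B →* Perm (B × F) where
  toFun π := Equiv.prodCongr π (Equiv.refl F)
  map_one' := by ext ⟨b, x⟩ <;> rfl
  map_mul' π π' := by ext ⟨b, x⟩ <;> rfl

@[simp] theorem sH_apply (F : Type*) (π : Perm B) (b : B) (x : F) : sH F π (b, x) = (π b, x) := rfl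

/-- fibrewise permutations. -/
def dH {F : Type*} : (B → Perm F) →* Perm (B × F) where
  toFun τ := Equiv.prodCongrRight τ
  map_one' := by ext ⟨b, x⟩ <;> rfl
  map_mul' π π' := by ext ⟨b, x⟩ <;> rfl

@[simp] theorem dH_apply {F : Type*} (τ : B → Perm F) (b : B) (x : F) :
    dH τ (b, x) = (b, τ b x) := rfl

theorem sH_injective (F : Type*) [Nonempty F] : Function.Injective (sH (B := B) F) := by
  intro π π' h
  obtain ⟨x⟩ := ‹Nonempty F›
  ext b
  have := congrArg (fun g : Perm (B × F) => (g (b, x)).1) h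
  simpa using this

variable (p : ℕ)

/-- fibrewise translations. -/
def e (f : B → ZMod p) : Perm (B × ZMod p) := dH (fun b => Equiv.addRight (f b))

variable {p}

@[simp] theorem e_apply (f : B → ZMod p) (b : B) (x : ZMod p) : e p f (b, x) = (b, x + f b) := rfl

theorem perm_ext {F : Type*} {g g' : Perm (B × F)} (h : ∀ b x, g (b, x) = g' (b, x)) : g = g' := by
  ext1 ⟨b, x⟩
  exact h b x

theorem e_add (f f' : B → ZMod p) : e p (f + f') = e p f * e p f' := by
  apply perm_ext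
  intro b x
  simp only [e_apply, Perm.mul_apply, Pi.add_apply]
  rw [add_comm (f b), add_assoc]

theorem e_zero : e p (0 : B → ZMod p) = 1 := by
  apply perm_ext
  intro b x
  simp

theorem e_neg (f : B → ZMod p) : e p (-f) = (e p f)⁻¹ := by
  rw [eq_inv_iff_mul_eq_one, ← e_add, neg_add_cancel, e_zero]

/-- `e` as a homomorphism. -/
def eH (p : ℕ) (B : Type*) : Multiplicative (B → ZMod p) →* Perm (B × ZMod p) where
  toFun f := e p (Multiplicative.toAdd f)
  map_one' := e_zero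
  map_mul' f f' := e_add _ _

theorem e_nsmul (f : B → ZMod p) (k : ℕ) : e p (k • f) = (e p f) ^ k := by
  induction k with
  | zero => rw [zero_smul, e_zero, pow_zero]
  | succ k ih => rw [succ_nsmul, e_add, ih, pow_succ]

theorem e_pow_p (f : B → ZMod p) : (e p f) ^ p = 1 := by
  rw [← e_nsmul]
  have : p • f = 0 := by
    ext b
    simp
  rw [this, e_zero]

theorem e_injective : Function.Injective (e p (B := B)) := by
  intro f f' h
  ext b
  have := congrArg (fun g : Perm (B × ZMod p) => (g (b, 0)).2) h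
  simpa using this

theorem sH_mul_e (π : Perm B) (f : B → ZMod p) :
    sH (ZMod p) π * e p f = e p (f ∘ ⇑π⁻¹) * sH (ZMod p) π := by
  apply perm_ext
  intro b x
  simp

variable (p)

/-- the wreath product `C_p ≀ Q`. -/
def W (Q : Subgroup (Perm B)) : Subgroup (Perm (B × ZMod p)) where
  carrier := {g | ∃ π ∈ Q, ∃ f : B → ZMod p, ∀ b x, g (b, x) = (π b, x + f b)}
  one_mem' := ⟨1, Q.one_mem, 0, fun b x => by simp⟩
  mul_mem' := by
    rintro g g' ⟨π, hπ, f, h⟩ ⟨π', hπ', f', h'⟩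
    refine ⟨π * π', Q.mul_mem hπ hπ', fun b => f' b + f (π' b), fun b x => ?_⟩
    rw [Perm.mul_apply, h', h, Perm.mul_apply, add_assoc]
  inv_mem' := by
    rintro g ⟨π, hπ, f, h⟩
    refine ⟨π⁻¹, Q.inv_mem hπ, fun b => - f (π⁻¹ b), fun b x => ?_⟩
    rw [Perm.inv_eq_iff_eq, h]
    simp

variable {p}

theorem mem_W {Q : Subgroup (Perm B)} {g : Perm (B × ZMod p)} :
    g ∈ W p Q ↔ ∃ π ∈ Q, ∃ f : B → ZMod p, ∀ b x, g (b, x) = (π b, x + f b) := Iff.rfl

theorem mem_W' {Q : Subgroup (Perm B)} {g : Perm (B × ZMod p)} :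
    g ∈ W p Q ↔ ∃ π ∈ Q, ∃ f : B → ZMod p, g = sH (ZMod p) π * e p f := by
  rw [mem_W]
  constructor
  · rintro ⟨π, hπ, f, h⟩
    exact ⟨π, hπ, f, perm_ext (fun b x => by rw [h]; simp)⟩
  · rintro ⟨π, hπ, f, rfl⟩
    exact ⟨π, hπ, f, fun b x => by simp⟩

theorem e_mem_W (Q : Subgroup (Perm B)) (f : B → ZMod p) : e p f ∈ W p Q :=
  ⟨1, Q.one_mem, f, fun b x => by simp⟩

theorem sH_mem_W {Q : Subgroup (Perm B)} {π : Perm B} (hπ : π ∈ Q) : sH (ZMod p) π ∈ W p Q :=
  ⟨π, hπ, 0, fun b x => by simp⟩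

theorem W_mono {Q Q' : Subgroup (Perm B)} (h : Q ≤ Q') : W p Q ≤ W p Q' := by
  rintro g ⟨π, hπ, f, hg⟩
  exact ⟨π, h hπ, f, hg⟩

theorem card_W [Finite B] [NeZero p] (Q : Subgroup (Perm B)) :
    Nat.card (W p Q) = Nat.card Q * p ^ Nat.card B := by
  let φ : Q × (B → ZMod p) → W p Q := fun x =>
    ⟨sH (ZMod p) x.1 * e p x.2, mem_W'.2 ⟨x.1, x.1.2, x.2, rfl⟩⟩
  have hφ : Function.Bijective φ := by
    constructor
    · rintro ⟨π, f⟩ ⟨π', f'⟩ h
      have h1 : sH (ZMod p) (π : Perm B) * e p f = sH (ZMod p) (π' : Perm B) * e p f' :=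
        congrArg Subtype.val h
      have h2 : ∀ b, ((π : Perm B) b, f b) = ((π' : Perm B) b, f' b) := by
        intro b
        have := congrArg (fun g : Perm (B × ZMod p) => g (b, 0)) h1
        simpa using this
      have h3 : π = π' := by
        ext b
        exact (Prod.ext_iff.1 (h2 b)).1
      have h4 : f = f' := by
        ext b
        exact (Prod.ext_iff.1 (h2 b)).2
      rw [h3, h4]
    · rintro ⟨g, hg⟩
      obtain ⟨π, hπ, f, rfl⟩ := mem_W'.1 hg
      exact ⟨(⟨π, hπ⟩, f), rfl⟩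
  rw [← Nat.card_congr (Equiv.ofBijective φ hφ), Nat.card_prod, Nat.card_fun, Nat.card_zmod]

/-- generation by elements of order dividing `p`. -/
def GenP {Γ : Type*} [Group Γ] (p : ℕ) (Q : Subgroup Γ) : Prop :=
  Q ≤ Subgroup.closure {x | x ∈ Q ∧ x ^ p = 1}

theorem GenP.map {Γ Γ' : Type*} [Group Γ] [Group Γ'] {Q : Subgroup Γ} (h : GenP p Q)
    (φ : Γ →* Γ') : GenP p (Q.map φ) := by
  rintro _ ⟨x, hx, rfl⟩
  have h1 : φ x ∈ (Subgroup.closure {x | x ∈ Q ∧ x ^ p = 1}).map φ := ⟨x, h hx, rfl⟩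
  rw [MonoidHom.map_closure] at h1
  refine Subgroup.closure_mono ?_ h1
  rintro _ ⟨y, ⟨hy, hy'⟩, rfl⟩
  exact ⟨⟨y, hy, rfl⟩, by rw [← map_pow, hy', map_one]⟩

theorem GenP.W {Q : Subgroup (Perm B)} (h : GenP p Q) : GenP p (W p Q) := by
  intro g hg
  obtain ⟨π, hπ, f, rfl⟩ := mem_W'.1 hg
  refine Subgroup.mul_mem _ ?_ (Subgroup.subset_closure ⟨e_mem_W Q f, e_pow_p f⟩)
  have h1 : sH (ZMod p) π ∈ (Subgroup.closure {x | x ∈ Q ∧ x ^ p = 1}).map (sH (ZMod p)) :=
    ⟨π, h hπ, rfl⟩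
  rw [MonoidHom.map_closure] at h1
  refine Subgroup.closure_mono ?_ h1
  rintro _ ⟨y, ⟨hy, hy'⟩, rfl⟩
  exact ⟨sH_mem_W hy, by rw [← map_pow, hy', map_one]⟩

/-- extension of permutations by fixed points. -/
def jH (Y R : Type*) : Perm Y →* Perm (Y ⊕ R) where
  toFun g := Equiv.sumCongr g (Equiv.refl R)
  map_one' := by ext (y | r) <;> rfl
  map_mul' g g' := by ext (y | r) <;> rfl

@[simp] theorem jH_inl {Y R : Type*} (g : Perm Y) (y : Y) : jH Y R g (Sum.inl y) = Sum.inl (g y) :=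
  rfl

@[simp] theorem jH_inr {Y R : Type*} (g : Perm Y) (r : R) : jH Y R g (Sum.inr r) = Sum.inr r :=
  rfl

theorem jH_injective (Y R : Type*) : Function.Injective (jH Y R) := by
  intro g g' h
  ext y
  have := congrArg (fun k : Perm (Y ⊕ R) => k (Sum.inl y)) h
  simpa using this

theorem sign_jH {Y R : Type*} [Fintype Y] [DecidableEq Y] [Fintype R] [DecidableEq R]
    (g : Perm Y) : sign (jH Y R g) = sign g := by
  have : jH Y R g = Perm.sumCongr g 1 := rfl
  rw [this, sign_sumCongr, map_one, mul_one]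

theorem sign_sH {F : Type*} [Fintype B] [DecidableEq B] [Fintype F] [DecidableEq F]
    (π : Perm B) : sign (sH F π) = sign π ^ Fintype.card F := by
  have : sH F π = prodCongrLeft (fun _ : F => π) := by
    ext ⟨b, x⟩ <;> rfl
  rw [this, sign_prodCongrLeft, Finset.prod_const, Finset.card_univ]

/-- a permutation normalizing (the image of) a group without fixed points fixes the extra point. -/
theorem normalizer_jH_le {Y R : Type*} [Finite Y] [Finite R] [Subsingleton R]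
    (Q : Subgroup (Perm Y)) (hQ : ∀ y, ∃ q ∈ Q, q y ≠ y) :
    Subgroup.normalizer ((Q.map (jH Y R) : Subgroup (Perm (Y ⊕ R))) : Set (Perm (Y ⊕ R))) ≤
      (jH Y R).range := by
  intro g hg
  have h1 : ∀ r : R, g (Sum.inr r) = Sum.inr r := by
    intro r
    rcases hy : g (Sum.inr r) with y | r'
    · exfalso
      obtain ⟨q, hq, hqy⟩ := hQ y
      have h2 : g⁻¹ * jH Y R q * g⁻¹⁻¹ ∈ Q.map (jH Y R) :=
        (Subgroup.mem_normalizer_iff.1 (Subgroup.inv_mem _ hg) _).1 ⟨q, hq, rfl⟩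
      obtain ⟨q', -, hq'⟩ := h2
      have h3 := congrArg (fun k : Perm (Y ⊕ R) => k (Sum.inr r)) hq'
      simp only [jH_inr, inv_inv, Perm.mul_apply, hy, jH_inl] at h3
      rw [eq_comm, Perm.inv_eq_iff_eq, hy] at h3
      exact hqy (Sum.inl_injective h3)
    · rw [Subsingleton.elim r' r]
  have h2 : Set.MapsTo g (Set.range (Sum.inl : Y → Y ⊕ R)) (Set.range (Sum.inl : Y → Y ⊕ R)) := by
    rintro _ ⟨y, rfl⟩
    rcases hy : g (Sum.inl y) with y' | r
    · exact ⟨y', rfl⟩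
    · exfalso
      rw [← h1 r] at hy
      exact Sum.inl_ne_inr (g.injective hy)
  obtain ⟨⟨a, b⟩, hab⟩ := mem_sumCongrHom_range_of_perm_mapsTo_inl h2
  refine ⟨a, ?_⟩
  rw [← hab]
  ext (y | r)
  · rfl
  · show Sum.inr r = Sum.inr (b r)
    rw [Subsingleton.elim (b r) r]

end Cfsg.Agent.Lib.Helper89.AW
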