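import Cfsg.Agent.Lib.Helper89.AltCrit
import Cfsg.Agent.Lib.Helper89.AltWr

set_option autoImplicit false

namespace Cfsg.Agent.Lib.Helper89.AW

open Equiv Equiv.Perm

variable {p : ℕ} [Fact p.Prime]

theorem card_mul_eq_of_pow {X : Type*} [Fintype X] [DecidableEq X] {y : Perm X} (hy : y ^ p = 1) :
    y.cycleType.card * p = y.support.card := by
  have h1 := cycleType_of_pow_prime_eq_one hy
  rw [← sum_cycleType]
  conv_rhs => rw [h1]
  rw [Multiset.sum_replicate, smul_eq_mul]

theorem exists_alt_conj {X : Type*} [Fintype X] [DecidableEq X] {y y' : Perm X} (hy : y ^ p = 1)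
    (hy' : y' ^ p = 1) (h1 : y ≠ 1) (hs : y.support.card = y'.support.card)
    (hX : p ^ 2 ≤ Fintype.card X) : ∃ g ∈ alternatingGroup X, g * y * g⁻¹ = y' := by
  have hp : p.Prime := Fact.out
  have e1 := card_mul_eq_of_pow hy
  have e2 := card_mul_eq_of_pow hy'
  have e3 : y.cycleType.card = y'.cycleType.card := by
    apply Nat.eq_of_mul_eq_mul_right hp.pos
    rw [e1, e2, hs]
  have e4 : y.cycleType = y'.cycleType := by
    rw [cycleType_of_pow_prime_eq_one hy, cycleType_of_pow_prime_eq_one hy', e3]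
  obtain ⟨c, hc⟩ := isConj_iff.1 (isConj_iff_cycleType_eq.2 e4)
  by_cases hcs : c ∈ alternatingGroup X
  · exact ⟨c, hcs, hc⟩
  have hnot : ¬ Subgroup.centralizer {y} ≤ alternatingGroup X := by
    intro hle
    obtain ⟨-, h2, h3⟩ := centralizer_le_alternating_iff.1 hle
    have h4 := h3 p
    rw [cycleType_of_pow_prime_eq_one hy, Multiset.count_replicate_self] at h4
    have h5 : y.cycleType.card ≠ 0 := by
      intro h0
      rw [Multiset.card_eq_zero, cycleType_eq_zero] at h0
      exact h1 h0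
    have h6 : y.cycleType.card = 1 := by omega
    rw [sum_cycleType, ← e1, h6, one_mul] at h2
    have h7 : p + 2 ≤ p ^ 2 := by nlinarith [hp.two_le]
    omega
  obtain ⟨d, hd, hd'⟩ := SetLike.not_le_iff_exists.1 hnot
  refine ⟨c * d, ?_, ?_⟩
  · rw [mem_alternatingGroup] at hcs hd' ⊢
    rw [map_mul, (Int.units_eq_one_or _).resolve_left hcs, (Int.units_eq_one_or _).resolve_left hd']
    rfl
  · have h2 : d * y = y * d := (Subgroup.mem_centralizer_singleton_iff.1 hd)
    rw [mul_inv_rev, ← hc]
    calc c * d * y * (d⁻¹ * c⁻¹) = c * (d * y * d⁻¹) * c⁻¹ := by group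
      _ = c * y * c⁻¹ := by rw [h2, mul_inv_cancel_right]


variable {B : Type*} [Fintype B] [DecidableEq B]

theorem support_e (f : B → ZMod p) :
    (e p f).support = (Finset.univ.filter (fun b => f b ≠ 0)) ×ˢ Finset.univ := by
  ext ⟨b, x⟩
  simp [Perm.mem_support]

theorem card_support_e (f : B → ZMod p) :
    (e p f).support.card = (Finset.univ.filter (fun b => f b ≠ 0)).card * p := by
  rw [support_e, Finset.card_product, Finset.card_univ, ZMod.card]

/-- indicator function. -/
def ind (p : ℕ) (K : Finset B) : B → ZMod p := fun b => if b ∈ K then 1 else 0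

theorem ind_mem {K : Finset B} {b : B} (h : b ∈ K) : ind p K b = 1 := if_pos h

theorem ind_not_mem {K : Finset B} {b : B} (h : b ∉ K) : ind p K b = 0 := if_neg h

theorem filter_ind (K : Finset B) : Finset.univ.filter (fun b => ind p K b ≠ 0) = K := by
  ext b
  simp [ind]

theorem exists_ind_card {y : Perm (B × ZMod p)} (hy : y ^ p = 1) :
    ∃ K : Finset B, (e p (ind p K)).support.card = y.support.card := by
  have hp : p.Prime := Fact.out
  have h1 := card_mul_eq_of_pow hy
  have h2 : y.support.card ≤ Fintype.card B * p := by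
    have := y.support.card_le_univ
    rwa [Fintype.card_prod, ZMod.card] at this
  have h3 : y.cycleType.card ≤ (Finset.univ : Finset B).card := by
    rw [← h1] at h2
    rw [Finset.card_univ]
    exact Nat.le_of_mul_le_mul_right h2 hp.pos
  obtain ⟨K, -, hK⟩ := Finset.exists_subset_card_eq h3
  exact ⟨K, by rw [card_support_e, filter_ind, hK, h1]⟩

theorem e_sum_mem {ι : Type*} (H : Subgroup (Perm (B × ZMod p))) (s : Finset ι)
    (F : ι → B → ZMod p) (h : ∀ i ∈ s, e p (F i) ∈ H) : e p (∑ i ∈ s, F i) ∈ H := by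
  classical
  induction s using Finset.induction_on with
  | empty =>
    rw [Finset.sum_empty, e_zero]
    exact H.one_mem
  | insert i s hi ih =>
    rw [Finset.sum_insert hi, e_add]
    exact H.mul_mem (h i (Finset.mem_insert_self i s))
      (ih (fun k hk => h k (Finset.mem_insert_of_mem hk)))

theorem e_mem_of_single (H : Subgroup (Perm (B × ZMod p))) (f : B → ZMod p)
    (h : ∀ b, e p (Pi.single b (f b)) ∈ H) : e p f ∈ H := by
  have := e_sum_mem H Finset.univ (fun b => Pi.single b (f b)) (fun b _ => h b)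
  rwa [Finset.univ_sum_single] at this

theorem isPGroup_W {Q : Subgroup (Perm B)} (hQ : IsPGroup p Q) : IsPGroup p (W p Q) := by
  obtain ⟨a, ha⟩ := IsPGroup.iff_card.1 hQ
  apply IsPGroup.of_card (n := a + Nat.card B)
  rw [card_W, ha, pow_add]

theorem card_support_single (b : B) {a : ZMod p} (ha : a ≠ 0) :
    (e p (Pi.single b a)).support.card = p := by
  rw [card_support_e]
  have : Finset.univ.filter (fun b' => (Pi.single b a : B → ZMod p) b' ≠ 0) = {b} := by
    ext b'
    simp [Pi.single_apply, ha]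
  rw [this, Finset.card_singleton, one_mul]

theorem card_support_pair {b₁ b₂ : B} (hne : b₁ ≠ b₂) :
    (e p (Pi.single b₁ 1 + Pi.single b₂ 1)).support.card = 2 * p := by
  rw [card_support_e]
  have : Finset.univ.filter (fun b' => (Pi.single b₁ 1 + Pi.single b₂ 1 : B → ZMod p) b' ≠ 0)
      = {b₁, b₂} := by
    ext b'
    simp only [Finset.mem_filter, Finset.mem_univ, true_and, Pi.add_apply, Finset.mem_insert,
      Finset.mem_singleton]
    by_cases h1 : b' = b₁
    · subst h1
      simp [Pi.single_eq_of_ne hne]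
    · by_cases h2 : b' = b₂
      · subst h2
        simp [Pi.single_eq_of_ne h1]
      · simp [Pi.single_eq_of_ne h1, Pi.single_eq_of_ne h2, h1, h2]
  rw [this, Finset.card_pair hne]

theorem ne_one_of_card_support {X : Type*} [Fintype X] [DecidableEq X] {y : Perm X}
    (h : y.support.card ≠ 0) : y ≠ 1 := by
  rintro rfl
  exact h (by simp)


theorem step3_odd (hp2 : p ≠ 2) {Q : Subgroup (Perm B)} {T : Subgroup (Perm (B × ZMod p))}
    (hfus : ∀ z ∈ T, z ≠ 1 → z ^ p = 1 → ∀ y ∈ W p Q, y ^ p = 1 →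
      y.support.card = z.support.card → y ∈ T)
    {z : Perm (B × ZMod p)} (hzT : z ∈ T) (hz1 : z ≠ 1) (hzp : z ^ p = 1) (f : B → ZMod p) :
    e p f ∈ T := by
  have hp : p.Prime := Fact.out
  obtain ⟨K, hK⟩ := exists_ind_card hzp
  have hKne : K.Nonempty := by
    rw [Finset.nonempty_iff_ne_empty]
    rintro rfl
    rw [card_support_e, filter_ind, Finset.card_empty, zero_mul] at hK
    exact hz1 (card_support_eq_zero.1 hK.symm)
  obtain ⟨b₁, hb₁⟩ := hKne
  have h1 : e p (ind p K) ∈ T := hfus z hzT hz1 hzp _ (e_mem_W Q _) (e_pow_p _) hK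
  have h22 : (1 + 1 : ZMod p) ≠ 0 := by
    intro h
    have h' : ((2 : ℕ) : ZMod p) = 0 := by
      rw [← h]
      norm_num
    rw [ZMod.natCast_eq_zero_iff] at h'
    exact hp2 ((Nat.prime_dvd_prime_iff_eq hp Nat.prime_two).1 h')
  have h2 : e p (ind p K + Pi.single b₁ 1) ∈ T := by
    refine hfus z hzT hz1 hzp _ (e_mem_W Q _) (e_pow_p _) ?_
    rw [← hK, card_support_e, card_support_e]
    congr 2
    ext b
    simp only [Finset.mem_filter, Finset.mem_univ, true_and, Pi.add_apply]
    by_cases hb : b = b₁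
    · subst hb
      simp [ind, hb₁, h22]
    · simp [Pi.single_eq_of_ne hb]
  have h3 : e p (Pi.single b₁ (1 : ZMod p)) ∈ T := by
    have : e p (Pi.single b₁ (1 : ZMod p)) = (e p (ind p K))⁻¹ * e p (ind p K + Pi.single b₁ 1) := by
      rw [e_add]
      group
    rw [this]
    exact T.mul_mem (T.inv_mem h1) h2
  apply e_mem_of_single
  intro b
  by_cases ha : f b = 0
  · rw [ha, Pi.single_zero, e_zero]
    exact T.one_mem
  · refine hfus _ h3 ?_ (e_pow_p _) _ (e_mem_W Q _) (e_pow_p _)
      (by rw [card_support_single _ ha, card_support_single _ one_ne_zero])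
    apply ne_one_of_card_support
    rw [card_support_single _ one_ne_zero]
    exact hp.ne_zero

theorem sq_eq_one_of_swap (c₁ c₂ : B) (f : B → ZMod 2) (hf : ∀ b, f (swap c₁ c₂ b) = f b) :
    (sH (ZMod 2) (swap c₁ c₂) * e 2 f) ^ 2 = 1 := by
  have hchar : ∀ a : ZMod 2, a + a = 0 := by decide
  apply perm_ext
  intro b x
  rw [pow_two]
  simp only [Perm.mul_apply, e_apply, sH_apply, hf, swap_apply_self, Perm.one_apply]
  rw [add_assoc, hchar, add_zero]

theorem step3_two {Q : Subgroup (Perm B)} {T : Subgroup (Perm (B × ZMod 2))}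
    (hTA : T ≤ alternatingGroup (B × ZMod 2))
    (hfus : ∀ z ∈ T, z ≠ 1 → z ^ 2 = 1 → ∀ y ∈ W 2 Q, y ^ 2 = 1 →
      y.support.card = z.support.card → y ∈ T)
    (htr : ∃ b₁ b₂ : B, b₁ ≠ b₂ ∧ swap b₁ b₂ ∈ Q)
    {z : Perm (B × ZMod 2)} (hzT : z ∈ T) (hz1 : z ≠ 1) (hzp : z ^ 2 = 1) (f : B → ZMod 2)
    (hfA : e 2 f ∈ alternatingGroup (B × ZMod 2)) : e 2 f ∈ T := by
  have hchar : ∀ a : ZMod 2, a + a = 0 := by decide
  have h01 : ∀ a : ZMod 2, a = 0 ∨ a = 1 := by decide
  obtain ⟨z₂, hz₂T, hz₂1, hz₂p, hz₂c⟩ : ∃ z₂ ∈ T, z₂ ≠ 1 ∧ z₂ ^ 2 = 1 ∧ z₂.support.card = 2 * 2 := by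
    obtain ⟨K, hK⟩ := exists_ind_card hzp
    have hKne : K.Nonempty := by
      rw [Finset.nonempty_iff_ne_empty]
      rintro rfl
      rw [card_support_e, filter_ind, Finset.card_empty, zero_mul] at hK
      exact hz1 (card_support_eq_zero.1 hK.symm)
    obtain ⟨b₁, hb₁⟩ := hKne
    have h1 : e 2 (ind 2 K) ∈ T := hfus z hzT hz1 hzp _ (e_mem_W Q _) (e_pow_p _) hK
    by_cases hKu : ∃ b₂, b₂ ∉ K
    · obtain ⟨b₂, hb₂⟩ := hKu
      have hne : b₁ ≠ b₂ := by
        rintro rfl
        exact hb₂ hb₁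
      have h2 : e 2 (ind 2 K + (Pi.single b₁ 1 + Pi.single b₂ 1)) ∈ T := by
        refine hfus z hzT hz1 hzp _ (e_mem_W Q _) (e_pow_p _) ?_
        rw [← hK, card_support_e, card_support_e, filter_ind]
        congr 1
        have : Finset.univ.filter
            (fun b => (ind 2 K + (Pi.single b₁ 1 + Pi.single b₂ 1) : B → ZMod 2) b ≠ 0)
            = insert b₂ (K.erase b₁) := by
          ext b
          simp only [Finset.mem_filter, Finset.mem_univ, true_and, Pi.add_apply, Finset.mem_insert,
            Finset.mem_erase]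
          by_cases h1 : b = b₁
          · subst h1
            simp [ind, hb₁, Pi.single_eq_of_ne hne, hchar, hne]
          · by_cases h2 : b = b₂
            · subst h2
              simp [ind, hb₂, Pi.single_eq_of_ne h1]
            · simp [ind, h1, h2]
        rw [this, Finset.card_insert_of_notMem (by simp [hb₂]), Finset.card_erase_of_mem hb₁]
        have := Finset.card_pos.2 ⟨b₁, hb₁⟩
        omega
      refine ⟨e 2 (Pi.single b₁ 1 + Pi.single b₂ 1), ?_, ?_, e_pow_p _, card_support_pair hne⟩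
      · have : e 2 (Pi.single b₁ 1 + Pi.single b₂ 1 : B → ZMod 2)
            = (e 2 (ind 2 K))⁻¹ * e 2 (ind 2 K + (Pi.single b₁ 1 + Pi.single b₂ 1)) := by
          rw [e_add (ind 2 K)]
          group
        rw [this]
        exact T.mul_mem (T.inv_mem h1) h2
      · apply ne_one_of_card_support
        rw [card_support_pair hne]
        norm_num
    · push Not at hKu
      obtain ⟨c₁, c₂, hne, hc⟩ := htr
      have hKuniv : K = Finset.univ := Finset.eq_univ_iff_forall.2 hKu
      have hinv : ∀ b, swap c₁ c₂ b ∈ ({c₁, c₂} : Finset B) ↔ b ∈ ({c₁, c₂} : Finset B) := by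
        intro b
        by_cases h1 : b = c₁
        · subst h1
          simp
        · by_cases h2 : b = c₂
          · subst h2
            simp
          · rw [swap_apply_of_ne_of_ne h1 h2]
      have hmove : ∀ b ∈ ({c₁, c₂} : Finset B), swap c₁ c₂ b ≠ b := by
        intro b hb
        rw [Finset.mem_insert, Finset.mem_singleton] at hb
        rcases hb with rfl | rfl
        · rw [swap_apply_left]
          exact hne.symm
        · rw [swap_apply_right]
          exact hne
      have hfix : ∀ b ∉ ({c₁, c₂} : Finset B), swap c₁ c₂ b = b := by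
        intro b hb
        rw [Finset.mem_insert, Finset.mem_singleton, not_or] at hb
        exact swap_apply_of_ne_of_ne hb.1 hb.2
      have hy : sH (ZMod 2) (swap c₁ c₂) * e 2 (ind 2 ({c₁, c₂}ᶜ : Finset B)) ∈ T := by
        refine hfus z hzT hz1 hzp _ (mem_W'.2 ⟨_, hc, _, rfl⟩) ?_ ?_
        · apply sq_eq_one_of_swap
          intro b
          simp only [ind, Finset.mem_compl, hinv]
        · rw [← hK, card_support_e, filter_ind, hKuniv]
          have : (sH (ZMod 2) (swap c₁ c₂) * e 2 (ind 2 ({c₁, c₂}ᶜ : Finset B))).support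
              = Finset.univ ×ˢ Finset.univ := by
            ext ⟨b, x⟩
            simp only [Perm.mem_support, Perm.mul_apply, e_apply, sH_apply, Finset.mem_product,
              Finset.mem_univ, and_self, iff_true]
            by_cases hb : b ∈ ({c₁, c₂} : Finset B)
            · intro h
              exact hmove b hb (Prod.ext_iff.1 h).1
            · intro h
              have := (Prod.ext_iff.1 h).2
              rw [ind_mem (Finset.mem_compl.2 hb)] at this
              simp at this
          rw [this, Finset.card_product, Finset.card_univ, Finset.card_univ, ZMod.card]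
      have hz₂ : sH (ZMod 2) (swap c₁ c₂) * e 2 (ind 2 ({c₁, c₂} : Finset B)) =
          (sH (ZMod 2) (swap c₁ c₂) * e 2 (ind 2 ({c₁, c₂}ᶜ : Finset B))) * e 2 (ind 2 K) := by
        apply perm_ext
        intro b x
        simp only [Perm.mul_apply, e_apply, sH_apply]
        congr 1
        by_cases hb : b ∈ ({c₁, c₂} : Finset B)
        · rw [ind_mem hb, ind_mem (hKu b), ind_not_mem (fun h => Finset.mem_compl.1 h hb), add_zero]
        · rw [ind_not_mem hb, ind_mem (hKu b), ind_mem (Finset.mem_compl.2 hb), add_assoc, hchar]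
      refine ⟨sH (ZMod 2) (swap c₁ c₂) * e 2 (ind 2 ({c₁, c₂} : Finset B)), ?_, ?_, ?_, ?_⟩
      · rw [hz₂]
        exact T.mul_mem hy h1
      · intro h
        have := congrArg (fun g : Perm (B × ZMod 2) => (g (c₁, 0)).1) h
        simp only [Perm.mul_apply, e_apply, sH_apply, swap_apply_left, Perm.one_apply] at this
        exact hne this.symm
      · apply sq_eq_one_of_swap
        intro b
        simp only [ind, hinv]
      · have : (sH (ZMod 2) (swap c₁ c₂) * e 2 (ind 2 ({c₁, c₂} : Finset B))).support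
            = ({c₁, c₂} : Finset B) ×ˢ Finset.univ := by
          ext ⟨b, x⟩
          simp only [Perm.mem_support, Perm.mul_apply, e_apply, sH_apply, Finset.mem_product,
            Finset.mem_univ, and_true]
          by_cases hb : b ∈ ({c₁, c₂} : Finset B)
          · simp only [hb, iff_true]
            intro h
            exact hmove b hb (Prod.ext_iff.1 h).1
          · simp only [hb, iff_false, not_not]
            rw [hfix b hb, ind_not_mem hb, add_zero]
        rw [this, Finset.card_product, Finset.card_pair hne, Finset.card_univ, ZMod.card]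
  have hpair : ∀ b₁ b₂ : B, b₁ ≠ b₂ → e 2 (Pi.single b₁ 1 + Pi.single b₂ 1 : B → ZMod 2) ∈ T :=
    fun b₁ b₂ hne => hfus z₂ hz₂T hz₂1 hz₂p _ (e_mem_W Q _) (e_pow_p _)
      (by rw [card_support_pair hne, hz₂c])
  obtain ⟨b₀, -, -, -⟩ := htr
  have hg₁ : e 2 (∑ b, (Pi.single b (f b) + Pi.single b₀ (f b) : B → ZMod 2)) ∈ T := by
    apply e_sum_mem
    intro b _
    rcases h01 (f b) with h | h
    · rw [h, Pi.single_zero, Pi.single_zero, add_zero, e_zero]
      exact T.one_mem
    · rw [h]
      by_cases hb : b = b₀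
      · subst hb
        have : (Pi.single b 1 + Pi.single b 1 : B → ZMod 2) = 0 := by
          ext b'
          exact hchar _
        rw [this, e_zero]
        exact T.one_mem
      · exact hpair b b₀ hb
  have hsum : (∑ b, (Pi.single b (f b) + Pi.single b₀ (f b) : B → ZMod 2))
      = f + Pi.single b₀ (∑ b, f b) := by
    rw [Finset.sum_add_distrib, Finset.univ_sum_single]
    congr 1
    exact (map_sum (AddMonoidHom.single (fun _ : B => ZMod 2) b₀) f Finset.univ).symm
  rw [hsum] at hg₁
  rcases h01 (∑ b, f b) with h | h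
  · rw [h, Pi.single_zero, add_zero] at hg₁
    exact hg₁
  · exfalso
    rw [h] at hg₁
    have h1 : e 2 (Pi.single b₀ (1 : ZMod 2)) ∈ alternatingGroup (B × ZMod 2) := by
      have : e 2 (Pi.single b₀ (1 : ZMod 2)) = (e 2 f)⁻¹ * e 2 (f + Pi.single b₀ 1) := by
        rw [e_add]
        group
      rw [this]
      exact mul_mem (inv_mem hfA) (hTA hg₁)
    have h2 := card_support_single (p := 2) b₀ (one_ne_zero : (1 : ZMod 2) ≠ 0)
    have h3 := (card_support_eq_two.1 h2).sign_eq
    rw [mem_alternatingGroup, h3] at h1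
    exact absurd h1 (by decide)


theorem exists_order_p {Γ : Type*} [Group Γ] {T : Subgroup Γ} (hT : IsPGroup p T) (hT0 : T ≠ ⊥) :
    ∃ z ∈ T, z ≠ 1 ∧ z ^ p = 1 := by
  obtain ⟨t, ht, ht1⟩ : ∃ t ∈ T, t ≠ 1 := by
    by_contra hcon
    push Not at hcon
    exact hT0 ((Subgroup.eq_bot_iff_forall T).2 hcon)
  have hex : ∃ k : ℕ, t ^ p ^ k = 1 := exists_pow_of_isPGroup hT ht
  classical
  have hk := Nat.find_spec hex
  have hk0 : Nat.find hex ≠ 0 := by
    intro h0
    rw [h0, pow_zero, pow_one] at hk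
    exact ht1 hk
  obtain ⟨k, hk'⟩ := Nat.exists_eq_succ_of_ne_zero hk0
  refine ⟨t ^ p ^ k, T.pow_mem ht _, ?_, ?_⟩
  · exact Nat.find_min hex (by omega)
  · rw [← pow_mul, ← pow_succ, ← Nat.succ_eq_add_one, ← hk']
    exact hk

theorem relClosed_W (Q : Subgroup (Perm B)) (hQp : IsPGroup p Q) (hQ : GenP p Q)
    (hB : p ≤ Fintype.card B) (htr : p = 2 → ∃ b₁ b₂ : B, b₁ ≠ b₂ ∧ swap b₁ b₂ ∈ Q) :
    RelClosed (alternatingGroup (B × ZMod p)) (W p Q ⊓ alternatingGroup (B × ZMod p)) := by
  intro T hTS hT hcl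
  have hp : p.Prime := Fact.out
  have hX : p ^ 2 ≤ Fintype.card (B × ZMod p) := by
    rw [Fintype.card_prod, ZMod.card, sq]
    exact Nat.mul_le_mul_right p hB
  obtain ⟨z, hzT, hz1, hzp⟩ := exists_order_p ((isPGroup_W hQp).to_le (hTS.trans inf_le_left)) hT
  have hfus : ∀ z ∈ T, z ≠ 1 → z ^ p = 1 → ∀ y ∈ W p Q, y ^ p = 1 →
      y.support.card = z.support.card → y ∈ T := by
    intro z hz hz1 hzp y hy hyp hc
    obtain ⟨g, hg, hgy⟩ := exists_alt_conj hzp hyp hz1 hc.symm hX
    have hyA : y ∈ alternatingGroup (B × ZMod p) := by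
      rw [← hgy]
      exact mul_mem (mul_mem hg (hTS hz).2) (inv_mem hg)
    rw [← hgy]
    exact hcl z hz g hg (by rw [hgy]; exact ⟨hy, hyA⟩)
  have hE : ∀ f : B → ZMod p, e p f ∈ alternatingGroup (B × ZMod p) → e p f ∈ T := by
    by_cases hp2 : p = 2
    · subst hp2
      intro f hf
      exact step3_two (hTS.trans inf_le_right) hfus (htr rfl) hzT hz1 hzp f hf
    · intro f _
      exact step3_odd hp2 hfus hzT hz1 hzp f
  have hord : ∀ y ∈ W p Q, y ∈ alternatingGroup (B × ZMod p) → y ^ p = 1 → y ∈ T := by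
    intro y hy hyA hyp
    by_cases hy1 : y = 1
    · rw [hy1]
      exact T.one_mem
    obtain ⟨K, hK⟩ := exists_ind_card hyp
    obtain ⟨g, hg, hgy⟩ := exists_alt_conj hyp (e_pow_p (ind p K)) hy1 hK.symm hX
    have hzA : e p (ind p K) ∈ alternatingGroup (B × ZMod p) := by
      rw [← hgy]
      exact mul_mem (mul_mem hg hyA) (inv_mem hg)
    have hz1 : e p (ind p K) ≠ 1 := by
      intro h
      rw [h, support_one, Finset.card_empty] at hK
      exact hy1 (card_support_eq_zero.1 hK.symm)
    exact hfus _ (hE _ hzA) hz1 (e_pow_p _) y hy hyp hK.symm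
  apply le_antisymm hTS
  rintro g ⟨hgW, hgA⟩
  obtain ⟨π, hπ, f, rfl⟩ := mem_W'.1 hgW
  have hsT : sH (ZMod p) π ∈ T := by
    have h1 : sH (ZMod p) π ∈ (Subgroup.closure {x | x ∈ Q ∧ x ^ p = 1}).map (sH (ZMod p)) :=
      ⟨π, hQ hπ, rfl⟩
    rw [MonoidHom.map_closure] at h1
    refine (Subgroup.closure_le T).2 ?_ h1
    rintro _ ⟨c, ⟨hc, hcp⟩, rfl⟩
    refine hord _ (sH_mem_W hc) ?_ (by rw [← map_pow, hcp, map_one])
    rw [mem_alternatingGroup, sign_sH, ZMod.card, ← map_pow, hcp, map_one]
  refine T.mul_mem hsT (hE f ?_)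
  have : e p f = (sH (ZMod p) π)⁻¹ * (sH (ZMod p) π * e p f) := by group
  rw [this]
  exact mul_mem (inv_mem (hTS hsT).2) hgA

end Cfsg.Agent.Lib.Helper89.AW
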