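import Cfsg.Agent.Lib.Helper89.SimpleGen

/-!
# A variant of the simplicity criterion, with non-normal centric subgroups

`GenHyp2 p S`: as `GenHyp p ⊥ S` but the subgroups `R` are not required to be normal in `S`.
Also relative versions (inside a subgroup `A` of an ambient group) and their transfer along
injective homomorphisms.
-/

set_option autoImplicit false

namespace Cfsg.Agent.Lib.Helper89

open Cfsg Cfsg.FusionSystem Cfsg.Agent.Lib.Helper87

variable {G : Type*} [Group G]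

/-- The generators allowed for `N_G(S)`. -/
def pGenSet2 (p : ℕ) (S : Subgroup G) : Set G :=
  {h | h ∈ Subgroup.normalizer (S : Set G) ∧ ∃ R : Subgroup G, R ≤ S ∧
    Subgroup.centralizer (R : Set G) ≤ R ∧
    h ∈ Subgroup.closure {x : G | x ∈ Subgroup.normalizer (R : Set G) ∧ ∃ k : ℕ, x ^ p ^ k = 1}}

structure GenHyp2 (p : ℕ) (S : Subgroup G) : Prop where
  ne_bot : S ≠ ⊥
  closed : ∀ T : Subgroup G, T ≤ S → T ≠ ⊥ →
    (∀ x ∈ T, ∀ g : G, g * x * g⁻¹ ∈ S → g * x * g⁻¹ ∈ T) → T = S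
  gen : Subgroup.normalizer (S : Set G) ≤ Subgroup.closure (pGenSet2 p S)

/-- In a subsystem `E` over `S` invariant in `F_S(G)`, conjugation by a `p`-element of `N_G(R)` is a
map of `E`, for every `R ≤ S`. -/
theorem mor_conj_of_pElement [Finite G] {p : ℕ} [Fact p.Prime] (S : Sylow p G)
    {E : FusionSystem (S : Subgroup G)} (hinv : E.IsInvariantIn (groupFusionSystem (S : Subgroup G)))
    {R : Subgroup G} (hR : R ≤ S) {x : G} (hx : x ∈ Subgroup.normalizer (R : Set G))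
    (hp : ∃ k : ℕ, x ^ p ^ k = 1) : Mor E R (fun y => x * y * x⁻¹) := by
  have hRp : IsPGroup p R := S.2.to_le hR
  have hxp : IsPGroup p (Subgroup.zpowers x) := by
    obtain ⟨k, hk⟩ := hp
    rintro ⟨c, hc⟩
    obtain ⟨n, rfl⟩ := Subgroup.mem_zpowers_iff.mp hc
    refine ⟨k, Subtype.ext ?_⟩
    show (x ^ n) ^ p ^ k = 1
    rw [← zpow_natCast, ← zpow_mul, mul_comm, zpow_mul, zpow_natCast, hk, one_zpow]
  have hle : Subgroup.zpowers x ≤ Subgroup.normalizer (R : Set G) := by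
    rw [Subgroup.zpowers_le]
    exact hx
  have hsup : IsPGroup p (Subgroup.zpowers x ⊔ R : Subgroup G) :=
    IsPGroup.to_sup_of_normal_right' hxp hRp hle
  obtain ⟨Y, hY⟩ := hsup.exists_le_sylow
  obtain ⟨g, hg⟩ := MulAction.exists_smul_eq G Y S
  have hgS : ∀ y ∈ (Y : Subgroup G), g * y * g⁻¹ ∈ (S : Subgroup G) := by
    intro y hy
    rw [← hg]
    show g * y * g⁻¹ ∈ ((g • Y : Sylow p G) : Subgroup G)
    rw [Sylow.coe_subgroup_smul]
    exact ⟨y, hy, rfl⟩
  have hxY : x ∈ (Y : Subgroup G) := hY (Subgroup.mem_sup_left (Subgroup.mem_zpowers x))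
  have hRY : R ≤ (Y : Subgroup G) := le_trans le_sup_right hY
  have hR'S : cj g R ≤ (S : Subgroup G) := cj_le_iff.2 (fun y hy => hgS y (hRY hy))
  have hx'S : g * x * g⁻¹ ∈ (S : Subgroup G) := hgS x hxY
  have h1 : Mor E (cj g R) (fun y => (g * x * g⁻¹) * y * (g * x * g⁻¹)⁻¹) := mor_conj E hR'S hx'S
  have hback : cj g⁻¹ (cj g R) = R := by
    ext y
    rw [mem_cj, mem_cj]
    simp [mul_assoc]
  have h2 : Iso (groupFusionSystem (S : Subgroup G)) (cj g R) (cj g⁻¹ (cj g R))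
      (fun y => g⁻¹ * y * g⁻¹⁻¹) := iso_group_conj g⁻¹ hR'S (by rw [hback]; exact hR)
  have hmem : ∀ y ∈ cj g R, (g * x * g⁻¹) * y * (g * x * g⁻¹)⁻¹ ∈ cj g R := by
    rintro _ ⟨y, hy, rfl⟩
    refine ⟨x * y * x⁻¹, (Subgroup.mem_normalizer_iff.1 hx y).1 hy, ?_⟩
    simp [mul_assoc]
  obtain ⟨γ, hγ, hγ'⟩ := Helper88.invariant_strong hinv le_rfl hR'S h1 hmem h2.1
  rw [h2.img_eq, hback] at hγ
  refine hγ.congr (fun y hy => ?_)
  have h3 := hγ' (g * y * g⁻¹) (conj_mem_cj hy)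
  have e1 : g⁻¹ * (g * y * g⁻¹) * g⁻¹⁻¹ = y := by simp [mul_assoc]
  rw [e1] at h3
  rw [h3]
  simp [mul_assoc]

theorem simple_of_genHyp2 [Finite G] {p : ℕ} [Fact p.Prime] (S : Sylow p G)
    (h : GenHyp2 p (S : Subgroup G)) : (groupFusionSystem (S : Subgroup G)).IsSimple p := by
  have hF := Cfsg.Agent.S5076.result p S
  have hS : IsPGroup p (S : Subgroup G) := S.2
  refine ⟨hF, h.ne_bot, ?_⟩
  intro T E hE
  obtain ⟨⟨hEs, -, hinv⟩, -⟩ := hE
  have hTsc := hinv.2.1
  by_cases hT : T = ⊥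
  · exact Or.inl hT
  right
  have hTS : T = S := h.closed T hTsc.1 hT
    (fun x hx g hg => group_closed_of_stronglyClosed hTsc hx g hg)
  refine ⟨hTS, ?_⟩
  subst hTS
  refine Helper88.hom_eq_of_autGroup_le hinv ?_
  have key : ∀ g ∈ Subgroup.normalizer ((S : Subgroup G) : Set G),
      Mor E (S : Subgroup G) (fun x => g * x * g⁻¹) := by
    let X : Subgroup G := ((E.autGroup (S : Subgroup G)).comap
      (S : Subgroup G).normalizerMonoidHom).map (Subgroup.normalizer ((S : Subgroup G) : Set G)).subtype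
    have hX : ∀ g, g ∈ X → Mor E (S : Subgroup G) (fun x => g * x * g⁻¹) := by
      rintro _ ⟨⟨g, hg⟩, hg', rfl⟩
      exact (nmh_mem_autGroup_iff E le_rfl hg).1 hg'
    have hgen : Subgroup.closure (pGenSet2 p (S : Subgroup G)) ≤ X := by
      rw [Subgroup.closure_le]
      rintro t ⟨htN, R, hRS, hC, ht⟩
      have hcen := isCentric_group_of_centralizer_le hRS hC
      let Y : Subgroup G := ((E.autGroup R).comap R.normalizerMonoidHom).map
        (Subgroup.normalizer (R : Set G)).subtype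
      have hY : Subgroup.closure {x : G | x ∈ Subgroup.normalizer (R : Set G) ∧
          ∃ k : ℕ, x ^ p ^ k = 1} ≤ Y := by
        rw [Subgroup.closure_le]
        rintro x ⟨hxN, hk⟩
        refine ⟨⟨x, hxN⟩, ?_, rfl⟩
        show R.normalizerMonoidHom ⟨x, hxN⟩ ∈ E.autGroup R
        rw [nmh_mem_autGroup_iff _ hRS hxN]
        exact mor_conj_of_pElement S hinv hRS hxN hk
      obtain ⟨⟨t', ht'N⟩, ht', rfl⟩ := hY ht
      replace htN : t' ∈ Subgroup.normalizer ((S : Subgroup G) : Set G) := htN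
      have hRa : Mor E R (fun x => t' * x * t'⁻¹) := (nmh_mem_autGroup_iff E hRS ht'N).1 ht'
      have hiso : Iso (groupFusionSystem (S : Subgroup G)) (S : Subgroup G) (S : Subgroup G)
          (fun x => t' * x * t'⁻¹) := by
        have := iso_group_conj (S := (S : Subgroup G)) (P := (S : Subgroup G)) t' le_rfl
          (by rw [cj_eq_self_of_mem_normalizer htN])
        rwa [cj_eq_self_of_mem_normalizer htN] at this
      have htop := Helper88.mor_top_of_centric hS hEs hF hinv.1 hiso hcen hRa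
      exact ⟨⟨t', htN⟩, (nmh_mem_autGroup_iff E le_rfl htN).2 htop, rfl⟩
    intro g hg
    exact hX g (hgen (h.gen hg))
  intro α hα
  rw [mem_autGroup_iff _ le_rfl] at hα ⊢
  obtain ⟨-, g, hg⟩ := (mor_group_iff _ _ _).1 hα
  have hgN : g ∈ Subgroup.normalizer ((S : Subgroup G) : Set G) :=
    mem_normalizer_of_cj_le (cj_le_iff.2 (fun x hx => (hg x hx).2))
  exact (key g hgN).congr (fun x hx => ((hg x hx).1).symm)

/-! ### Relative versions -/

/-- `S` has no proper nontrivial subgroup closed under `A`-fusion. -/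
def RelClosed (A S : Subgroup G) : Prop :=
  ∀ T : Subgroup G, T ≤ S → T ≠ ⊥ →
    (∀ x ∈ T, ∀ g ∈ A, g * x * g⁻¹ ∈ S → g * x * g⁻¹ ∈ T) → T = S

/-- the `p`-elements of `N_A(R)`. -/
def relP (p : ℕ) (A R : Subgroup G) : Set G :=
  {x | x ∈ A ∧ x ∈ Subgroup.normalizer (R : Set G) ∧ ∃ k : ℕ, x ^ p ^ k = 1}

def relGenSet (p : ℕ) (A S : Subgroup G) (𝓡 : Set (Subgroup G)) : Set G :=
  {h | h ∈ A ∧ h ∈ Subgroup.normalizer (S : Set G) ∧ ∃ R ∈ 𝓡, h ∈ Subgroup.closure (relP p A R)}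

structure RelHyp (p : ℕ) (A S : Subgroup G) (𝓡 : Set (Subgroup G)) : Prop where
  gen : ∀ h ∈ A, h ∈ Subgroup.normalizer (S : Set G) → h ∈ Subgroup.closure (relGenSet p A S 𝓡)
  cent : ∀ R ∈ 𝓡, R ≤ S ∧ ∀ g ∈ A, g ∈ Subgroup.centralizer (R : Set G) → g ∈ R

variable {G' : Type*} [Group G']

theorem RelClosed.map {A S : Subgroup G} {A' : Subgroup G'} (j : G →* G')
    (hj : Function.Injective j) (hA : ∀ x, x ∈ A → j x ∈ A') (h : RelClosed A S) :
    RelClosed A' (S.map j) := by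
  intro T hTS hT hcl
  have h1 : T.comap j ≤ S := by
    intro x hx
    obtain ⟨s, hs, hsx⟩ := hTS (Subgroup.mem_comap.1 hx)
    rw [← hj hsx]
    exact hs
  have h2 : T.comap j ≠ ⊥ := by
    intro hbot
    apply hT
    rw [eq_bot_iff]
    intro t ht
    obtain ⟨s, hs, rfl⟩ := hTS ht
    have : s ∈ T.comap j := ht
    rw [hbot, Subgroup.mem_bot] at this
    rw [this, map_one]
    exact Subgroup.mem_bot.2 rfl
  have h3 := h (T.comap j) h1 h2 (by
    intro x hx g hg hgx
    show j (g * x * g⁻¹) ∈ T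
    rw [map_mul, map_mul, map_inv]
    refine hcl _ hx _ (hA g hg) ?_
    refine ⟨g * x * g⁻¹, hgx, ?_⟩
    rw [map_mul, map_mul, map_inv])
  apply le_antisymm hTS
  rintro _ ⟨s, hs, rfl⟩
  rw [← h3] at hs
  exact hs

theorem mem_normalizer_of_map {S : Subgroup G} (j : G →* G') (hj : Function.Injective j) {x : G}
    (hx : j x ∈ Subgroup.normalizer ((S.map j : Subgroup G') : Set G')) :
    x ∈ Subgroup.normalizer (S : Set G) := by
  rw [Subgroup.mem_normalizer_iff] at hx ⊢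
  intro y
  have h1 := hx (j y)
  rw [← map_inv, ← map_mul, ← map_mul, Subgroup.mem_map_iff_mem hj, Subgroup.mem_map_iff_mem hj]
    at h1
  exact h1

theorem map_mem_normalizer {S : Subgroup G} (j : G →* G') {x : G}
    (hx : x ∈ Subgroup.normalizer (S : Set G)) :
    j x ∈ Subgroup.normalizer ((S.map j : Subgroup G') : Set G') := by
  rw [Subgroup.mem_normalizer_iff_map_conj_eq] at hx ⊢
  conv_rhs => rw [← hx]
  rw [Subgroup.map_map, Subgroup.map_map]
  congr 1
  ext y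
  simp

theorem RelHyp.map {p : ℕ} {A S : Subgroup G} {𝓡 : Set (Subgroup G)} {A' : Subgroup G'}
    (j : G →* G') (hj : Function.Injective j) (hA : ∀ x, j x ∈ A' ↔ x ∈ A)
    (hS : Subgroup.normalizer ((S.map j : Subgroup G') : Set G') ≤ j.range)
    (hR : ∀ R ∈ 𝓡, Subgroup.normalizer ((R.map j : Subgroup G') : Set G') ≤ j.range)
    (h : RelHyp p A S 𝓡) : RelHyp p A' (S.map j) ((fun R => R.map j) '' 𝓡) := by
  constructor
  · intro t htA htN
    obtain ⟨t, rfl⟩ := hS htN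
    have h1 := h.gen t ((hA t).1 htA) (mem_normalizer_of_map j hj htN)
    have h2 : j t ∈ (Subgroup.closure (relGenSet p A S 𝓡)).map j := ⟨t, h1, rfl⟩
    rw [MonoidHom.map_closure] at h2
    refine Subgroup.closure_mono ?_ h2
    rintro _ ⟨u, ⟨huA, huN, R, hRR, hu⟩, rfl⟩
    refine ⟨(hA u).2 huA, map_mem_normalizer j huN, R.map j, ⟨R, hRR, rfl⟩, ?_⟩
    have h3 : j u ∈ (Subgroup.closure (relP p A R)).map j := ⟨u, hu, rfl⟩
    rw [MonoidHom.map_closure] at h3
    refine Subgroup.closure_mono ?_ h3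
    rintro _ ⟨v, ⟨hvA, hvN, k, hk⟩, rfl⟩
    exact ⟨(hA v).2 hvA, map_mem_normalizer j hvN, k, by rw [← map_pow, hk, map_one]⟩
  · rintro _ ⟨R, hRR, rfl⟩
    obtain ⟨h1, h2⟩ := h.cent R hRR
    refine ⟨Subgroup.map_mono h1, ?_⟩
    intro g hgA hgC
    have hgN : g ∈ Subgroup.normalizer ((R.map j : Subgroup G') : Set G') :=
      Subgroup.centralizer_le_normalizer _ hgC
    obtain ⟨g, rfl⟩ := hR R hRR hgN
    refine ⟨g, h2 g ((hA g).1 hgA) ?_, rfl⟩
    rw [Subgroup.mem_centralizer_iff] at hgC ⊢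
    intro y hy
    apply hj
    rw [map_mul, map_mul]
    exact hgC (j y) ⟨y, hy, rfl⟩

/-- From the relative hypotheses to `GenHyp2` in the subgroup `A`. -/
theorem closed_of_relClosed {A S : Subgroup G} (h : RelClosed A S)
    (T : Subgroup A) (hT : T ≤ S.subgroupOf A) (hT0 : T ≠ ⊥)
    (hcl : ∀ x ∈ T, ∀ g : A, g * x * g⁻¹ ∈ S.subgroupOf A → g * x * g⁻¹ ∈ T) :
    T = S.subgroupOf A := by
  have hinj : Function.Injective A.subtype := Subtype.coe_injective
  have h1 : T.map A.subtype = S := by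
    apply h
    · rintro _ ⟨t, ht, rfl⟩
      exact hT ht
    · intro hbot
      apply hT0
      rw [eq_bot_iff]
      intro t ht
      have : A.subtype t ∈ T.map A.subtype := ⟨t, ht, rfl⟩
      rw [hbot, Subgroup.mem_bot] at this
      exact Subgroup.mem_bot.2 (Subtype.ext this)
    · rintro _ ⟨t, ht, rfl⟩ g hg hgS
      exact ⟨⟨g, hg⟩ * t * ⟨g, hg⟩⁻¹, hcl t ht ⟨g, hg⟩ hgS, rfl⟩
  apply le_antisymm hT
  intro x hx
  have h2 : (x : G) ∈ T.map A.subtype := by
    rw [h1]
    exact hx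
  obtain ⟨t, ht, htx⟩ := h2
  rw [← hinj htx]
  exact ht

theorem gen_of_relHyp {p : ℕ} {A S : Subgroup G} {𝓡 : Set (Subgroup G)} (hSA : S ≤ A)
    (h : RelHyp p A S 𝓡) :
    Subgroup.normalizer ((S.subgroupOf A : Subgroup A) : Set A) ≤
      Subgroup.closure (pGenSet2 p (S.subgroupOf A)) := by
  have hinj : Function.Injective A.subtype := Subtype.coe_injective
  have hmapS : ∀ R : Subgroup G, R ≤ A → (R.subgroupOf A).map A.subtype = R := by
    intro R hR
    rw [Subgroup.subgroupOf_map_subtype]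
    exact inf_eq_left.2 hR
  have hN : ∀ R : Subgroup G, R ≤ A → ∀ x : A, (x : G) ∈ Subgroup.normalizer (R : Set G) →
      x ∈ Subgroup.normalizer ((R.subgroupOf A : Subgroup A) : Set A) := by
    intro R hR x hx
    apply mem_normalizer_of_map A.subtype hinj
    rw [hmapS R hR]
    exact hx
  intro t ht
  have htN : (t : G) ∈ Subgroup.normalizer (S : Set G) := by
    have := map_mem_normalizer A.subtype ht
    rwa [hmapS S hSA] at this
  have h1 := h.gen t t.2 htN
  have key : Subgroup.closure (relGenSet p A S 𝓡) ≤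
      (Subgroup.closure (pGenSet2 p (S.subgroupOf A))).map A.subtype := by
    rw [Subgroup.closure_le]
    rintro u ⟨huA, huN, R, hRR, hu⟩
    obtain ⟨hRS, hRC⟩ := h.cent R hRR
    have hRA : R ≤ A := hRS.trans hSA
    refine ⟨⟨u, huA⟩, Subgroup.subset_closure ?_, rfl⟩
    refine ⟨hN S hSA _ huN, R.subgroupOf A, ?_, ?_, ?_⟩
    · intro x hx
      exact hRS hx
    · intro x hx
      refine hRC x x.2 ?_
      rw [Subgroup.mem_centralizer_iff] at hx ⊢
      intro y hy
      exact congrArg Subtype.val (hx ⟨y, hRA hy⟩ hy)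
    · have key2 : Subgroup.closure (relP p A R) ≤
          (Subgroup.closure {x : A | x ∈ Subgroup.normalizer ((R.subgroupOf A : Subgroup A) : Set A) ∧
            ∃ k : ℕ, x ^ p ^ k = 1}).map A.subtype := by
        rw [Subgroup.closure_le]
        rintro v ⟨hvA, hvN, k, hk⟩
        exact ⟨⟨v, hvA⟩, Subgroup.subset_closure ⟨hN R hRA _ hvN, k, Subtype.ext hk⟩, rfl⟩
      obtain ⟨u', hu', hu'u⟩ := key2 hu
      have : u' = ⟨u, huA⟩ := Subtype.ext hu'u
      rw [← this]
      exact hu'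
  obtain ⟨t', ht', ht't⟩ := key h1
  rw [← hinj ht't]
  exact ht'

end Cfsg.Agent.Lib.Helper89
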