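import Cfsg.Agent.Lib.Helper89.AltWr

/-!
# Sylow `p`-subgroups of symmetric groups: the model, and generation by elements of order `p`
-/

set_option autoImplicit false

namespace Cfsg.Agent.Lib.Helper89.AW

open Equiv Equiv.Perm

variable {p : ℕ} [Fact p.Prime]

/-- `Q` has the order of a Sylow `p`-subgroup of `Perm Y`. -/
def FullCard (p : ℕ) {Y : Type*} (Q : Subgroup (Perm Y)) : Prop :=
  Nat.card Q = p ^ padicValNat p (Nat.card Y).factorial

theorem FullCard.step {B R : Type*} [Finite B] [Finite R] {Q : Subgroup (Perm B)}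
    (h : FullCard p Q) (hR : Nat.card R < p) :
    FullCard p ((W p Q).map (jH (B × ZMod p) R)) := by
  have : NeZero p := ⟨(Fact.out : p.Prime).ne_zero⟩
  unfold FullCard at h ⊢
  rw [Subgroup.card_map_of_injective (jH_injective _ _), card_W, h, Nat.card_sum, Nat.card_prod,
    Nat.card_zmod, mul_comm (Nat.card B) p, padicValNat_factorial_mul_add _ hR,
    padicValNat_factorial_mul, pow_add]

theorem sylow_fullCard {Y : Type*} [Finite Y] (Q : Sylow p (Perm Y)) :
    FullCard p (Q : Subgroup (Perm Y)) := by
  unfold FullCard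
  rw [Q.card_eq_multiplicity, Nat.card_perm, Nat.factorization_def _ Fact.out]

/-- every Sylow subgroup is the image of a given subgroup of full order under a sign-preserving
isomorphism. -/
theorem exists_model {Y Z : Type*} [Fintype Y] [DecidableEq Y] [Fintype Z] [DecidableEq Z]
    (ε : Y ≃ Z) {P : Subgroup (Perm Y)} (hP : FullCard p P) (Q : Sylow p (Perm Z)) :
    ∃ φ : Perm Y ≃* Perm Z, (∀ g, sign (φ g) = sign g) ∧
      (Q : Subgroup (Perm Z)) = P.map φ.toMonoidHom := by
  have h1 : Nat.card (P.map ε.permCongrHom.toMonoidHom) =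
      p ^ (Nat.card (Perm Z)).factorization p := by
    rw [Subgroup.card_map_of_injective ε.permCongrHom.injective, hP, Nat.card_perm,
      Nat.factorization_def _ Fact.out, Nat.card_congr ε]
  obtain ⟨g, hg⟩ := MulAction.exists_smul_eq (Perm Z) (Sylow.ofCard _ h1) Q
  refine ⟨ε.permCongrHom.trans (MulAut.conj g), fun x => ?_, ?_⟩
  · show sign (g * ε.permCongr x * g⁻¹) = sign x
    rw [map_mul, map_mul, map_inv, sign_permCongr, mul_comm, ← mul_assoc, inv_mul_cancel, one_mul]
  · rw [← hg, Sylow.coe_subgroup_smul, Sylow.coe_ofCard]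
    ext y
    constructor
    · rintro ⟨_, ⟨x, hx, rfl⟩, rfl⟩
      exact ⟨x, hx, rfl⟩
    · rintro ⟨x, hx, rfl⟩
      exact ⟨_, ⟨x, hx, rfl⟩, rfl⟩

theorem genP_sylow : ∀ (n : ℕ) (Q : Sylow p (Perm (Fin n))), GenP p (Q : Subgroup (Perm (Fin n))) := by
  intro n
  induction n using Nat.strong_induction_on with
  | _ n ih =>
    intro Q
    have hp : p.Prime := Fact.out
    have : NeZero p := ⟨hp.ne_zero⟩
    by_cases hn : n = 0
    · subst hn
      intro x _
      rw [Subsingleton.elim x 1]
      exact Subgroup.one_mem _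
    · have hm : n / p < n := Nat.div_lt_self (Nat.pos_of_ne_zero hn) hp.one_lt
      let Q₀ : Sylow p (Perm (Fin (n / p))) := Classical.arbitrary _
      have h0 := ih _ hm Q₀
      have hc : Fintype.card ((Fin (n / p) × ZMod p) ⊕ Fin (n % p)) = Fintype.card (Fin n) := by
        rw [Fintype.card_sum, Fintype.card_prod, ZMod.card, Fintype.card_fin, Fintype.card_fin,
          Fintype.card_fin]
        exact Nat.div_add_mod' n p
      have hF : FullCard p ((W p (Q₀ : Subgroup (Perm (Fin (n / p))))).map
          (jH (Fin (n / p) × ZMod p) (Fin (n % p)))) := by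
        apply FullCard.step (sylow_fullCard Q₀)
        rw [Nat.card_eq_fintype_card, Fintype.card_fin]
        exact Nat.mod_lt _ hp.pos
      obtain ⟨φ, -, hφ⟩ := exists_model (Fintype.equivOfCardEq hc) hF Q
      rw [hφ]
      exact (h0.W.map _).map _

end Cfsg.Agent.Lib.Helper89.AW
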