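import Cfsg.Agent.Lib.Helper89.AltTwo
import Cfsg.Agent.Lib.Helper89.AltSyl
import Cfsg.Agent.Lib.Helper11.AltSylow

set_option autoImplicit false

namespace Cfsg.Agent.Lib.Helper89.AW

open Equiv Equiv.Perm

variable {p : ℕ} [Fact p.Prime]

omit [Fact p.Prime] in
theorem zmod2_cases : ∀ y : ZMod 2, y = 0 ∨ y = 1 := by decide

theorem exists_swap_mem {B' R' : Type*} [DecidableEq B'] [DecidableEq R'] (hp2 : p = 2)
    (Q' : Subgroup (Perm B')) [Nonempty B'] :
    ∃ b₁ b₂ : (B' × ZMod p) ⊕ R', b₁ ≠ b₂ ∧ swap b₁ b₂ ∈ Q2 p R' Q' := by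
  subst hp2
  obtain ⟨b₀⟩ := ‹Nonempty B'›
  refine ⟨Sum.inl (b₀, 0), Sum.inl (b₀, 1), by simp, ⟨e 2 (Pi.single b₀ 1), e_mem_W _ _, ?_⟩⟩
  ext1 (⟨b', y⟩ | r)
  · rw [jH_inl, e_apply]
    by_cases hb : b' = b₀
    · subst hb
      rw [Pi.single_eq_same]
      rcases zmod2_cases y with rfl | rfl
      · rw [swap_apply_left, zero_add]
      · rw [swap_apply_right]
        rfl
    · rw [Pi.single_eq_of_ne hb, add_zero, swap_apply_of_ne_of_ne] <;> simp [hb]
  · rw [jH_inr, swap_apply_of_ne_of_ne] <;> simp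

theorem normalizer_J_le {X R Γ : Type*} [Finite X] [Finite R] [Subsingleton R] [Group Γ]
    (φ : Perm (X ⊕ R) ≃* Γ) (Q₀ : Subgroup (Perm X)) (hQ₀ : ∀ y, ∃ q ∈ Q₀, q y ≠ y) :
    Subgroup.normalizer ((Q₀.map (φ.toMonoidHom.comp (jH X R)) : Subgroup Γ) : Set Γ) ≤
      (φ.toMonoidHom.comp (jH X R)).range := by
  intro g hg
  rw [← Subgroup.map_map] at hg
  have h1 : φ.toMonoidHom (φ.symm g) ∈ Subgroup.normalizer
      (((Q₀.map (jH X R)).map φ.toMonoidHom : Subgroup Γ) : Set Γ) := by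
    have : φ.toMonoidHom (φ.symm g) = g := φ.apply_symm_apply g
    rw [this]
    exact hg
  obtain ⟨x, hx⟩ := normalizer_jH_le Q₀ hQ₀ (mem_normalizer_of_map _ φ.injective h1)
  refine ⟨x, ?_⟩
  show φ (jH X R x) = g
  rw [hx]
  exact φ.apply_symm_apply g

theorem dvd_card_alt {n : ℕ} (hnp : p ^ 2 ≤ n) : p ∣ Nat.card (alternatingGroup (Fin n)) := by
  have hp : p.Prime := Fact.out
  have h4 : 4 ≤ p ^ 2 := by nlinarith [hp.two_le]
  have : Nontrivial (Fin n) := Fin.nontrivial_iff_two_le.2 (by omega)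
  have h1 : p ^ 2 ∣ 2 * Nat.card (alternatingGroup (Fin n)) := by
    rw [two_mul_nat_card_alternatingGroup, Nat.card_perm, Nat.card_eq_fintype_card, Fintype.card_fin]
    exact (Nat.dvd_factorial (by omega) le_rfl).trans (Nat.factorial_dvd_factorial hnp)
  by_contra hcon
  have h2 : Nat.Coprime (p ^ 2) (Nat.card (alternatingGroup (Fin n))) :=
    Nat.Coprime.pow_left 2 ((Nat.Prime.coprime_iff_not_dvd hp).2 hcon)
  have h3 := Nat.le_of_dvd (by norm_num) (h2.dvd_of_dvd_mul_right h1)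
  omega

theorem genHyp2_alt (n : ℕ) (hn : 6 ≤ n) (hnp : p ^ 2 ≤ n) (hb : n % p ≤ 1)
    (S : Sylow p (alternatingGroup (Fin n))) :
    GenHyp2 p (S : Subgroup (alternatingGroup (Fin n))) := by
  have hp : p.Prime := Fact.out
  have hm : p ≤ n / p := by
    rw [Nat.le_div_iff_mul_le hp.pos, ← sq]
    exact hnp
  have hm' : 0 < n / p / p := Nat.div_pos hm hp.pos
  have : Nonempty (Fin (n / p / p)) := ⟨⟨0, hm'⟩⟩
  have : Subsingleton (Fin (n % p)) := Fin.subsingleton_iff_le_one.2 hb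
  let Q' : Sylow p (Perm (Fin (n / p / p))) := Classical.arbitrary _
  have hcB : Fintype.card ((Fin (n / p / p) × ZMod p) ⊕ Fin (n / p % p)) = n / p := by
    rw [Fintype.card_sum, Fintype.card_prod, ZMod.card, Fintype.card_fin, Fintype.card_fin]
    exact Nat.div_add_mod' (n / p) p
  have hcY : Fintype.card ((((Fin (n / p / p) × ZMod p) ⊕ Fin (n / p % p)) × ZMod p) ⊕ Fin (n % p)) =
      Fintype.card (Fin n) := by
    rw [Fintype.card_sum, Fintype.card_prod, hcB, ZMod.card, Fintype.card_fin, Fintype.card_fin]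
    exact Nat.div_add_mod' n p
  have hF1 : FullCard p (Q2 p (Fin (n / p % p)) (Q' : Subgroup (Perm (Fin (n / p / p))))) := by
    apply FullCard.step (sylow_fullCard Q')
    rw [Nat.card_eq_fintype_card, Fintype.card_fin]
    exact Nat.mod_lt _ hp.pos
  have hF2 : FullCard p ((W p (Q2 p (Fin (n / p % p)) (Q' : Subgroup (Perm (Fin (n / p / p)))))).map
      (jH (((Fin (n / p / p) × ZMod p) ⊕ Fin (n / p % p)) × ZMod p) (Fin (n % p)))) := by
    apply FullCard.step hF1
    rw [Nat.card_eq_fintype_card, Fintype.card_fin]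
    exact Nat.mod_lt _ hp.pos
  obtain ⟨Qn, hQn⟩ := S.exists_comap_subtype_eq
  obtain ⟨φ, hφs, hφ⟩ := exists_model (Fintype.equivOfCardEq hcY) hF2 Qn
  set Q := Q2 p (Fin (n / p % p)) (Q' : Subgroup (Perm (Fin (n / p / p)))) with hQdef
  set J := φ.toMonoidHom.comp
    (jH (((Fin (n / p / p) × ZMod p) ⊕ Fin (n / p % p)) × ZMod p) (Fin (n % p))) with hJdef
  rw [Subgroup.map_map] at hφ
  have hJinj : Function.Injective J := φ.injective.comp (jH_injective _ _)
  have hJA : ∀ x, J x ∈ alternatingGroup (Fin n) ↔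
      x ∈ alternatingGroup (((Fin (n / p / p) × ZMod p) ⊕ Fin (n / p % p)) × ZMod p) := by
    intro x
    rw [mem_alternatingGroup, mem_alternatingGroup]
    show sign (φ (jH _ _ x)) = 1 ↔ _
    rw [hφs, sign_jH]
  have hQp : IsPGroup p Q := (isPGroup_W Q'.2).map _
  have hS : (S : Subgroup (alternatingGroup (Fin n))) =
      ((W p Q ⊓ alternatingGroup (((Fin (n / p / p) × ZMod p) ⊕ Fin (n / p % p)) × ZMod p)).map
        J).subgroupOf (alternatingGroup (Fin n)) := by
    rw [← hQn, hφ]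
    ext x
    constructor
    · rintro ⟨y, hy, hyx⟩
      refine ⟨y, ⟨hy, (hJA y).1 ?_⟩, hyx⟩
      rw [hyx]
      exact x.2
    · rintro ⟨y, hy, hyx⟩
      exact ⟨y, hy.1, hyx⟩
  have hSA : (W p Q ⊓ alternatingGroup (((Fin (n / p / p) × ZMod p) ⊕ Fin (n / p % p)) × ZMod p)).map
      J ≤ alternatingGroup (Fin n) := by
    rintro _ ⟨y, hy, rfl⟩
    exact (hJA y).2 hy.2
  have hcl : RelClosed (alternatingGroup (Fin n))
      ((W p Q ⊓ alternatingGroup (((Fin (n / p / p) × ZMod p) ⊕ Fin (n / p % p)) × ZMod p)).map J) := by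
    refine RelClosed.map J hJinj (fun x hx => (hJA x).2 hx) ?_
    refine relClosed_W Q hQp (((genP_sylow _ Q').W).map _) (by rw [hcB]; exact hm) ?_
    intro hp2
    exact exists_swap_mem hp2 _
  refine ⟨S.ne_bot_of_dvd_card (dvd_card_alt hnp), ?_, ?_⟩
  · intro T hT hT0 hTcl
    rw [hS] at hT hTcl ⊢
    exact closed_of_relClosed hcl T hT hT0 hTcl
  · by_cases hp2 : p = 2
    · subst hp2
      have hN := Helper11.SymSyl.alt_normalizer_le n hn S
      intro h hh
      apply Subgroup.subset_closure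
      refine ⟨hh, S, le_rfl, (Subgroup.centralizer_le_normalizer _).trans hN, ?_⟩
      apply Subgroup.subset_closure
      exact ⟨hh, exists_pow_of_isPGroup S.2 (hN hh)⟩
    · have hWA : W p Q ⊓ alternatingGroup (((Fin (n / p / p) × ZMod p) ⊕ Fin (n / p % p)) × ZMod p)
          = W p Q := inf_eq_left.2 (W_le_alt hp2 hQp)
      rw [hWA] at hS hSA
      have hmove : ∀ y : ((Fin (n / p / p) × ZMod p) ⊕ Fin (n / p % p)) × ZMod p,
          e p (fun _ => 1) y ≠ y := by
        rintro ⟨b, x⟩ h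
        simp at h
      have hrel := (relHyp_model (R' := Fin (n / p % p)) hp2 Q'.2).map J hJinj hJA
        (normalizer_J_le φ _ (fun y => ⟨_, e_mem_W _ _, hmove y⟩)) (by
          rintro R (rfl | rfl)
          · exact normalizer_J_le φ _ (fun y => ⟨_, e_mem_W _ _, hmove y⟩)
          · exact normalizer_J_le φ _ (fun y => ⟨_, e_mem_RD _ (fun _ _ _ => rfl), hmove y⟩))
      rw [hS]
      exact gen_of_relHyp hSA hrel

end Cfsg.Agent.Lib.Helper89.AW
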