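import Cfsg.Agent.Lib.Helper89.AltClosed

set_option autoImplicit false

namespace Cfsg.Agent.Lib.Helper89.AW

open Equiv Equiv.Perm

variable {p : ℕ} [Fact p.Prime]

theorem zmod_induction {P : ZMod p → Prop} (h0 : P 0) (hs : ∀ x, P x → P (x + 1)) (x : ZMod p) :
    P x := by
  have key : ∀ n : ℕ, P (n : ZMod p) := by
    intro n
    induction n with
    | zero => simpa using h0
    | succ n ih =>
      rw [Nat.cast_succ]
      exact hs _ ih
  have := key x.val
  rwa [ZMod.natCast_zmod_val] at this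

theorem closure_conj_mem {Γ : Type*} [Group Γ] {s : Set Γ} {g : Γ}
    (hs : ∀ x ∈ s, g * x * g⁻¹ ∈ Subgroup.closure s) {y : Γ} (hy : y ∈ Subgroup.closure s) :
    g * y * g⁻¹ ∈ Subgroup.closure s := by
  have : Subgroup.closure s ≤ (Subgroup.closure s).comap (MulAut.conj g).toMonoidHom := by
    rw [Subgroup.closure_le]
    intro x hx
    exact hs x hx
  exact this hy

theorem sign_eq_one_of_pow {X : Type*} [Fintype X] [DecidableEq X] (hp2 : p ≠ 2) {x : Perm X}
    (h : ∃ k : ℕ, x ^ p ^ k = 1) : sign x = 1 := by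
  obtain ⟨k, hk⟩ := h
  have hp : p.Prime := Fact.out
  have hodd : Odd (p ^ k) := (hp.odd_of_ne_two hp2).pow
  rcases Int.units_eq_one_or (sign x) with h1 | h1
  · exact h1
  · have := congrArg sign hk
    rw [map_pow, h1, hodd.neg_one_pow, map_one] at this
    exact absurd this (by decide)

variable {B : Type*}

theorem app_inv' (β : Perm B) (b : B) : β (β⁻¹ b) = b := by simp

theorem inv_app' (β : Perm B) (b : B) : β⁻¹ (β b) = b := by simp

/-- fibrewise multiplications. -/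
def lamH (p : ℕ) (B : Type*) : (B → (ZMod p)ˣ) →* Perm (B × ZMod p) where
  toFun a := dH (fun b => MulAction.toPerm (a b))
  map_one' := by
    apply perm_ext
    intro b x
    simp
  map_mul' a a' := by
    apply perm_ext
    intro b x
    simp [mul_smul]

@[simp] theorem lamH_apply (a : B → (ZMod p)ˣ) (b : B) (x : ZMod p) :
    lamH p B a (b, x) = (b, (a b : ZMod p) * x) := rfl

/-- the shape of the elements normalizing the base group. -/
def IsAff (g : Perm (B × ZMod p)) (β : Perm B) (a : B → (ZMod p)ˣ) (c : B → ZMod p) : Prop :=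
  ∀ b x, g (b, x) = (β b, (a b : ZMod p) * x + c b)

theorem IsAff.eq {g : Perm (B × ZMod p)} {β : Perm B} {a : B → (ZMod p)ˣ} {c : B → ZMod p}
    (h : IsAff g β a c) : g = sH (ZMod p) β * e p c * lamH p B a := by
  apply perm_ext
  intro b x
  rw [h]
  simp

theorem isAff_mk (β : Perm B) (a : B → (ZMod p)ˣ) (c : B → ZMod p) :
    IsAff (sH (ZMod p) β * e p c * lamH p B a) β a c := by
  intro b x
  simp

theorem isAff_sH (β : Perm B) : IsAff (sH (ZMod p) β) β 1 0 := by
  intro b x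
  simp

theorem isAff_e (c : B → ZMod p) : IsAff (e p c) 1 1 c := by
  intro b x
  simp

theorem isAff_lamH (a : B → (ZMod p)ˣ) : IsAff (lamH p B a) 1 a 0 := by
  intro b x
  simp

theorem IsAff.mul {g g' : Perm (B × ZMod p)} {β β' : Perm B} {a a' : B → (ZMod p)ˣ}
    {c c' : B → ZMod p} (h : IsAff g β a c) (h' : IsAff g' β' a' c') :
    IsAff (g * g') (β * β') (fun b => a (β' b) * a' b)
      (fun b => (a (β' b) : ZMod p) * c' b + c (β' b)) := by
  intro b x
  rw [Perm.mul_apply, h', h]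
  simp only [Perm.mul_apply, Units.val_mul]
  congr 1
  ring

theorem IsAff.inv {g : Perm (B × ZMod p)} {β : Perm B} {a : B → (ZMod p)ˣ}
    {c : B → ZMod p} (h : IsAff g β a c) :
    IsAff g⁻¹ β⁻¹ (fun b => (a (β⁻¹ b))⁻¹)
      (fun b => - (((a (β⁻¹ b))⁻¹ : (ZMod p)ˣ) : ZMod p) * c (β⁻¹ b)) := by
  intro b x
  rw [Perm.inv_eq_iff_eq, h]
  rw [app_inv']
  congr 1
  have : ((a (β⁻¹ b) : (ZMod p)ˣ) : ZMod p) * (((a (β⁻¹ b))⁻¹ : (ZMod p)ˣ) : ZMod p) = 1 :=
    Units.mul_inv _
  linear_combination (-x + c (β⁻¹ b)) * this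

/-- the base group. -/
abbrev EE (p : ℕ) (B : Type*) : Subgroup (Perm (B × ZMod p)) := W p (⊥ : Subgroup (Perm B))

theorem mem_EE {g : Perm (B × ZMod p)} : g ∈ EE p B ↔ ∃ f, g = e p f := by
  rw [mem_W']
  constructor
  · rintro ⟨π, hπ, f, rfl⟩
    rw [Subgroup.mem_bot] at hπ
    exact ⟨f, by rw [hπ, map_one, one_mul]⟩
  · rintro ⟨f, rfl⟩
    exact ⟨1, Subgroup.one_mem _, f, by rw [map_one, one_mul]⟩

theorem IsAff.mem_normalizer [Finite B] {g : Perm (B × ZMod p)} {β : Perm B} {a : B → (ZMod p)ˣ}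
    {c : B → ZMod p} (h : IsAff g β a c) :
    g ∈ Subgroup.normalizer ((EE p B : Subgroup (Perm (B × ZMod p))) : Set (Perm (B × ZMod p))) := by
  apply Helper87.mem_normalizer_of_cj_le
  rw [Helper87.cj_le_iff]
  intro y hy
  obtain ⟨f, rfl⟩ := mem_EE.1 hy
  rw [mem_EE]
  refine ⟨fun b => (a (β⁻¹ b) : ZMod p) * f (β⁻¹ b), ?_⟩
  rw [mul_inv_eq_iff_eq_mul]
  apply perm_ext
  intro b x
  simp only [Perm.mul_apply, e_apply, h b, inv_app']
  congr 1
  ring


theorem exists_half [DecidableEq B] {g : Perm (B × ZMod p)}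
    (h : ∀ b, g * e p (Pi.single b 1) * g⁻¹ ∈ EE p B) :
    ∃ (β₀ : B → B) (a c : B → ZMod p), ∀ b x, g (b, x) = (β₀ b, a b * x + c b) := by
  choose F hF using fun b => mem_EE.1 (h b)
  have h1 : ∀ b y, g (e p (Pi.single b 1) y) = e p (F b) (g y) := by
    intro b y
    have := congrArg (fun k : Perm (B × ZMod p) => k (g y)) (hF b)
    simpa using this
  refine ⟨fun b => (g (b, 0)).1, fun b => F b (g (b, 0)).1, fun b => (g (b, 0)).2, fun b x => ?_⟩
  refine zmod_induction (P := fun x => g (b, x) =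
    ((g (b, 0)).1, F b (g (b, 0)).1 * x + (g (b, 0)).2)) ?_ ?_ x
  · simp
  · intro x ih
    have h2 : (b, x + 1) = e p (Pi.single b 1) (b, x) := by simp
    rw [h2, h1, ih, e_apply]
    congr 1
    ring

theorem exists_isAff [DecidableEq B] {g : Perm (B × ZMod p)}
    (h : ∀ b, g * e p (Pi.single b 1) * g⁻¹ ∈ EE p B)
    (h' : ∀ b, g⁻¹ * e p (Pi.single b 1) * g⁻¹⁻¹ ∈ EE p B) : ∃ β a c, IsAff g β a c := by
  obtain ⟨β₀, a, c, hg⟩ := exists_half h
  obtain ⟨β₁, a₁, c₁, hg'⟩ := exists_half h'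
  have h10 : ∀ b, β₁ (β₀ b) = b := by
    intro b
    have := congrArg Prod.fst (inv_app' g (b, 0))
    rw [hg, hg'] at this
    exact this
  have h01 : ∀ b, β₀ (β₁ b) = b := by
    intro b
    have := congrArg Prod.fst (app_inv' g (b, 0))
    rw [hg', hg] at this
    exact this
  have ha : ∀ b, a b ≠ 0 := by
    intro b h0
    have h1 : g (b, 1) = g (b, 0) := by
      rw [hg, hg, h0]
      simp
    have h2 := g.injective h1
    simp at h2
  exact ⟨⟨β₀, β₁, h10, h01⟩, fun b => Units.mk0 (a b) (ha b), c, fun b x => by rw [hg]; rfl⟩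

section fin

variable [Fintype B] [DecidableEq B]

theorem mem_EE_of_card_support {Q : Subgroup (Perm B)} {y : Perm (B × ZMod p)} (hy : y ∈ W p Q)
    (hc : y.support.card < 2 * p) : y ∈ EE p B := by
  obtain ⟨π, hπ, f, h⟩ := hy
  by_cases hπ1 : π = 1
  · exact ⟨1, Subgroup.one_mem _, f, by rw [hπ1] at h; exact h⟩
  · exfalso
    obtain ⟨b, hb⟩ : ∃ b, π b ≠ b := by
      by_contra hcon
      push Not at hcon
      exact hπ1 (Equiv.ext hcon)
    have hsub : ({b, π b} : Finset B) ×ˢ (Finset.univ : Finset (ZMod p)) ⊆ y.support := by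
      rintro ⟨b', x⟩ hb'
      rw [Finset.mem_product, Finset.mem_insert, Finset.mem_singleton] at hb'
      rw [Perm.mem_support, h]
      intro heq
      have h1 : π b' = b' := (Prod.ext_iff.1 heq).1
      rcases hb'.1 with rfl | rfl
      · exact hb h1
      · exact hb (π.injective h1)
    have := Finset.card_le_card hsub
    rw [Finset.card_product, Finset.card_pair (Ne.symm hb), Finset.card_univ, ZMod.card] at this
    omega

theorem conj_single_mem {Q : Subgroup (Perm B)} {g : Perm (B × ZMod p)}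
    (hg : g ∈ Subgroup.normalizer ((W p Q : Subgroup (Perm (B × ZMod p))) : Set (Perm (B × ZMod p))))
    (b : B) : g * e p (Pi.single b 1) * g⁻¹ ∈ EE p B := by
  have hp : p.Prime := Fact.out
  apply mem_EE_of_card_support (Q := Q) ((Subgroup.mem_normalizer_iff.1 hg _).1 (e_mem_W Q _))
  rw [card_support_conj, card_support_single _ one_ne_zero]
  have := hp.pos
  omega

theorem exists_isAff_of_normalizer {Q : Subgroup (Perm B)} {g : Perm (B × ZMod p)}
    (hg : g ∈ Subgroup.normalizer ((W p Q : Subgroup (Perm (B × ZMod p))) : Set (Perm (B × ZMod p)))) :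
    ∃ β a c, IsAff g β a c :=
  exists_isAff (conj_single_mem hg) (conj_single_mem (Subgroup.inv_mem _ hg))

/-- the subgroup generated by the `p`-elements of `N_A(E)`. -/
abbrev KE (p : ℕ) [Fact p.Prime] (B : Type*) [Fintype B] [DecidableEq B] :
    Subgroup (Perm (B × ZMod p)) :=
  Subgroup.closure (relP p (alternatingGroup (B × ZMod p)) (EE p B))

theorem mem_relP_of_isAff (hp2 : p ≠ 2) {g : Perm (B × ZMod p)} {β : Perm B} {a : B → (ZMod p)ˣ}
    {c : B → ZMod p} (h : IsAff g β a c) (hk : ∃ k : ℕ, g ^ p ^ k = 1) :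
    g ∈ relP p (alternatingGroup (B × ZMod p)) (EE p B) :=
  ⟨mem_alternatingGroup.2 (sign_eq_one_of_pow hp2 hk), h.mem_normalizer, hk⟩

theorem KE_le_alt : KE p B ≤ alternatingGroup (B × ZMod p) :=
  (Subgroup.closure_le _).2 (fun _ hx => hx.1)

theorem KE_conj {g : Perm (B × ZMod p)} {β : Perm B} {a : B → (ZMod p)ˣ}
    {c : B → ZMod p} (h : IsAff g β a c) {y : Perm (B × ZMod p)} (hy : y ∈ KE p B) :
    g * y * g⁻¹ ∈ KE p B := by
  refine closure_conj_mem ?_ hy
  rintro x ⟨hxA, hxN, k, hk⟩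
  apply Subgroup.subset_closure
  refine ⟨?_, ?_, k, ?_⟩
  · exact (inferInstance : (alternatingGroup (B × ZMod p)).Normal).conj_mem x hxA g
  · exact mul_mem (mul_mem h.mem_normalizer hxN) (inv_mem h.mem_normalizer)
  · rw [conj_pow, hk, mul_one, mul_inv_cancel]

theorem alt_le_closure_pElements (hp2 : p ≠ 2) (hB : p ≤ Fintype.card B) :
    alternatingGroup B ≤ Subgroup.closure {c : Perm B | ∃ k : ℕ, c ^ p ^ k = 1} := by
  have hp : p.Prime := Fact.out
  by_cases h5 : 5 ≤ Fintype.card B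
  · have hN : (Subgroup.closure {c : Perm B | ∃ k : ℕ, c ^ p ^ k = 1}).Normal :=
      ⟨fun n hn g => closure_conj_mem (by
        rintro x ⟨k, hk⟩
        exact Subgroup.subset_closure ⟨k, by rw [conj_pow, hk, mul_one, mul_inv_cancel]⟩) hn⟩
    have hnt : Nontrivial (Subgroup.closure {c : Perm B | ∃ k : ℕ, c ^ p ^ k = 1}) := by
      obtain ⟨c, hc⟩ := exists_prime_orderOf_dvd_card (G := Perm B) p
        (by rw [Fintype.card_perm]; exact (hp.dvd_factorial).2 hB)
      refine ⟨⟨⟨c, Subgroup.subset_closure ⟨1, by rw [pow_one, ← hc, pow_orderOf_eq_one]⟩⟩, 1, ?_⟩⟩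
      intro h
      have h1 : c = 1 := congrArg Subtype.val h
      rw [h1, orderOf_one] at hc
      exact hp.one_lt.ne hc
    exact alternatingGroup_le_of_normal (by rwa [Nat.card_eq_fintype_card]) hnt
  · have hp3 : p = 3 := by
      have h2 := hp.two_le
      have : p = 3 ∨ p = 4 := by omega
      rcases this with h | h
      · exact h
      · rw [h] at hp
        exact absurd hp (by norm_num)
    rw [← closure_three_cycles_eq_alternating]
    apply Subgroup.closure_mono
    intro c hc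
    exact ⟨1, by rw [pow_one, hp3, ← hc.orderOf, pow_orderOf_eq_one]⟩

theorem sH_mem_KE (hp2 : p ≠ 2) (hB : p ≤ Fintype.card B) {π : Perm B}
    (hπ : π ∈ alternatingGroup B) : sH (ZMod p) π ∈ KE p B := by
  have h1 : sH (ZMod p) π ∈ (Subgroup.closure {c : Perm B | ∃ k : ℕ, c ^ p ^ k = 1}).map
      (sH (ZMod p)) := ⟨π, alt_le_closure_pElements hp2 hB hπ, rfl⟩
  rw [MonoidHom.map_closure] at h1
  refine Subgroup.closure_mono ?_ h1
  rintro _ ⟨c, ⟨k, hk⟩, rfl⟩
  exact mem_relP_of_isAff hp2 (isAff_sH c) ⟨k, by rw [← map_pow, hk, map_one]⟩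

theorem lam_pair_mem_KE (hp2 : p ≠ 2) (hB : p ≤ Fintype.card B) {b₁ b₂ : B} (hne : b₁ ≠ b₂)
    (u : (ZMod p)ˣ) : lamH p B (Pi.mulSingle b₁ u * (Pi.mulSingle b₂ u)⁻¹) ∈ KE p B := by
  have hp : p.Prime := Fact.out
  obtain ⟨b₃, h31, h32⟩ : ∃ b₃, b₃ ≠ b₁ ∧ b₃ ≠ b₂ := by
    have h3 : 3 ≤ Fintype.card B := by
      have := hp.two_le
      omega
    by_contra hcon
    push Not at hcon
    have h1 : (Finset.univ : Finset B) ⊆ {b₁, b₂} := by
      intro b _
      by_cases h : b = b₁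
      · simp [h]
      · simp [hcon b h]
    have h2 := Finset.card_le_card h1
    rw [Finset.card_univ] at h2
    have h4 := Finset.card_le_two (a := b₁) (b := b₂)
    omega
  let π : Perm B := swap b₁ b₃ * swap b₁ b₂
  have hπ : π ∈ alternatingGroup B := by
    rw [mem_alternatingGroup, map_mul, sign_swap h31.symm, sign_swap hne]
    rfl
  have hπ1 : π b₁ = b₂ := by
    simp [π, swap_apply_of_ne_of_ne hne.symm h32.symm]
  have hs := sH_mem_KE hp2 hB hπ
  have key : lamH p B (Pi.mulSingle b₁ u * (Pi.mulSingle b₂ u)⁻¹) =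
      (lamH p B (Pi.mulSingle b₁ u) * sH (ZMod p) π * (lamH p B (Pi.mulSingle b₁ u))⁻¹) *
        (sH (ZMod p) π)⁻¹ := by
    rw [eq_mul_inv_iff_mul_eq, eq_mul_inv_iff_mul_eq]
    apply perm_ext
    intro b x
    have hms : (Pi.mulSingle b₂ u : B → (ZMod p)ˣ) (π b) = (Pi.mulSingle b₁ u : B → (ZMod p)ˣ) b := by
      by_cases hb : b = b₁
      · subst hb
        rw [hπ1]
        simp
      · have : π b ≠ b₂ := by
          intro h
          rw [← hπ1] at h
          exact hb (π.injective h)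
        rw [Pi.mulSingle_eq_of_ne hb, Pi.mulSingle_eq_of_ne this]
    simp only [Perm.mul_apply, lamH_apply, sH_apply, Pi.mul_apply, Pi.inv_apply, Units.val_mul, hms]
    rw [mul_assoc, Units.inv_mul_cancel_left]
  rw [key]
  exact mul_mem (KE_conj (isAff_lamH _) hs) (inv_mem hs)

theorem lam_mem_KE (hp2 : p ≠ 2) (hB : p ≤ Fintype.card B) (a : B → (ZMod p)ˣ)
    (ha : ∏ b, a b = 1) : lamH p B a ∈ KE p B := by
  have hp : p.Prime := Fact.out
  obtain ⟨b₀⟩ : Nonempty B := by
    rw [← Fintype.card_pos_iff]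
    exact lt_of_lt_of_le hp.pos hB
  have hdec : a = ∏ b, (Pi.mulSingle b (a b) * (Pi.mulSingle b₀ (a b))⁻¹) := by
    rw [Finset.prod_mul_distrib, Finset.univ_prod_mulSingle, Finset.prod_inv_distrib]
    have : ∏ b, (Pi.mulSingle b₀ (a b) : B → (ZMod p)ˣ) =
        MonoidHom.mulSingle (fun _ : B => (ZMod p)ˣ) b₀ (∏ b, a b) :=
      (map_prod (MonoidHom.mulSingle (fun _ : B => (ZMod p)ˣ) b₀) a Finset.univ).symm
    rw [this, ha, map_one, inv_one, mul_one]
  show a ∈ (KE p B).comap (lamH p B)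
  rw [hdec]
  apply Subgroup.prod_mem
  intro b _
  show lamH p B _ ∈ KE p B
  by_cases hb : b = b₀
  · subst hb
    rw [mul_inv_cancel, map_one]
    exact one_mem _
  · exact lam_pair_mem_KE hp2 hB hb _

theorem mem_KE_of_isAff (hp2 : p ≠ 2) (hB : p ≤ Fintype.card B) {g : Perm (B × ZMod p)}
    {β : Perm B} {a : B → (ZMod p)ˣ} {c : B → ZMod p} (h : IsAff g β a c)
    (hg : g ∈ alternatingGroup (B × ZMod p)) (ha : ∏ b, a b = 1) : g ∈ KE p B := by
  have hp : p.Prime := Fact.out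
  have h1 := lam_mem_KE hp2 hB a ha
  have h2 : e p c ∈ KE p B :=
    Subgroup.subset_closure (mem_relP_of_isAff hp2 (isAff_e c) ⟨1, by rw [pow_one, e_pow_p]⟩)
  have h3 : sH (ZMod p) β ∈ alternatingGroup (B × ZMod p) := by
    have : sH (ZMod p) β = g * (lamH p B a)⁻¹ * (e p c)⁻¹ := by
      rw [h.eq]
      group
    rw [this]
    exact mul_mem (mul_mem hg (inv_mem (KE_le_alt h1))) (inv_mem (KE_le_alt h2))
  have h4 : β ∈ alternatingGroup B := by
    rw [mem_alternatingGroup] at h3 ⊢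
    rw [sign_sH, ZMod.card] at h3
    rcases Int.units_eq_one_or (sign β) with h | h
    · exact h
    · rw [h, (hp.odd_of_ne_two hp2).neg_one_pow] at h3
      exact absurd h3 (by decide)
  rw [h.eq]
  exact mul_mem (mul_mem (sH_mem_KE hp2 hB h4) h2) h1

end fin

end Cfsg.Agent.Lib.Helper89.AW
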