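import Cfsg.Agent.Lib.Helper89.AltNorm

set_option autoImplicit false

namespace Cfsg.Agent.Lib.Helper89.AW

open Equiv Equiv.Perm

variable {p : ℕ} [Fact p.Prime] {B : Type*}

/-- the abelian subgroup `s(D) C_E(s(D))` attached to a subgroup `D` of `Perm B`. -/
def RD (p : ℕ) (D : Subgroup (Perm B)) : Subgroup (Perm (B × ZMod p)) where
  carrier := {g | ∃ τ ∈ D, ∃ f : B → ZMod p, (∀ σ ∈ D, ∀ b, f (σ b) = f b) ∧
    ∀ b x, g (b, x) = (τ b, x + f b)}
  one_mem' := ⟨1, D.one_mem, 0, by simp, by simp⟩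
  mul_mem' := by
    rintro g g' ⟨τ, hτ, f, hf, h⟩ ⟨τ', hτ', f', hf', h'⟩
    refine ⟨τ * τ', D.mul_mem hτ hτ', fun b => f' b + f (τ' b), ?_, ?_⟩
    · intro σ hσ b
      show f' (σ b) + f (τ' (σ b)) = f' b + f (τ' b)
      rw [hf' σ hσ, hf τ' hτ', hf τ' hτ', hf σ hσ]
    · intro b x
      rw [Perm.mul_apply, h', h, Perm.mul_apply, add_assoc]
  inv_mem' := by
    rintro g ⟨τ, hτ, f, hf, h⟩
    refine ⟨τ⁻¹, D.inv_mem hτ, fun b => - f (τ⁻¹ b), ?_, ?_⟩
    · intro σ hσ b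
      show - f (τ⁻¹ (σ b)) = - f (τ⁻¹ b)
      rw [hf τ⁻¹ (D.inv_mem hτ), hf τ⁻¹ (D.inv_mem hτ), hf σ hσ]
    · intro b x
      rw [Perm.inv_eq_iff_eq, h]
      simp

omit [Fact p.Prime] in
theorem RD_le_W {D Q : Subgroup (Perm B)} (h : D ≤ Q) : RD p D ≤ W p Q := by
  rintro g ⟨τ, hτ, f, -, hg⟩
  exact ⟨τ, h hτ, f, hg⟩

omit [Fact p.Prime] in
theorem RD_bot : RD p (⊥ : Subgroup (Perm B)) = EE p B := by
  apply le_antisymm (RD_le_W le_rfl)
  rintro g ⟨τ, hτ, f, hg⟩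
  refine ⟨τ, hτ, f, ?_, hg⟩
  intro σ hσ b
  rw [Subgroup.mem_bot.1 hσ]
  rfl

omit [Fact p.Prime] in
theorem e_mem_RD (D : Subgroup (Perm B)) {f : B → ZMod p} (hf : ∀ σ ∈ D, ∀ b, f (σ b) = f b) :
    e p f ∈ RD p D := ⟨1, D.one_mem, f, hf, fun b x => by simp⟩

omit [Fact p.Prime] in
theorem sH_mem_RD {D : Subgroup (Perm B)} {τ : Perm B} (hτ : τ ∈ D) : sH (ZMod p) τ ∈ RD p D :=
  ⟨τ, hτ, 0, by simp, fun b x => by simp⟩

theorem centralizer_half {D : Subgroup (Perm B)} {g : Perm (B × ZMod p)}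
    (hg : g ∈ Subgroup.centralizer ((RD p D : Subgroup (Perm (B × ZMod p))) : Set (Perm (B × ZMod p)))) :
    ∃ (β₀ : B → B) (c : B → ZMod p), ∀ b x, g (b, x) = (β₀ b, x + c b) := by
  have h1 : ∀ y, g (e p (fun _ => 1) y) = e p (fun _ => 1) (g y) := by
    intro y
    have := Subgroup.mem_centralizer_iff.1 hg _ (e_mem_RD D (f := fun _ => (1 : ZMod p))
      (fun _ _ _ => rfl))
    exact (congrArg (fun k : Perm (B × ZMod p) => k y) this).symm
  refine ⟨fun b => (g (b, 0)).1, fun b => (g (b, 0)).2, fun b x => ?_⟩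
  refine zmod_induction (P := fun x => g (b, x) = ((g (b, 0)).1, x + (g (b, 0)).2)) ?_ ?_ x
  · simp
  · intro x ih
    have h2 : (b, x + 1) = e p (fun _ => 1) (b, x) := by simp
    rw [h2, h1, ih, e_apply]
    congr 1
    ring

theorem centralizer_RD_le (D : Subgroup (Perm B))
    (hstar : ∀ β : Perm B, (∀ τ ∈ D, β * τ = τ * β) → (∀ b, ∃ τ ∈ D, β b = τ b) → β ∈ D) :
    Subgroup.centralizer ((RD p D : Subgroup (Perm (B × ZMod p))) : Set (Perm (B × ZMod p))) ≤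
      RD p D := by
  intro g hg
  obtain ⟨β₀, c, h⟩ := centralizer_half hg
  obtain ⟨β₁, c₁, h'⟩ := centralizer_half (Subgroup.inv_mem _ hg)
  have h10 : ∀ b, β₁ (β₀ b) = b := by
    intro b
    have := congrArg Prod.fst (inv_app' g (b, 0))
    rw [h, h'] at this
    exact this
  have h01 : ∀ b, β₀ (β₁ b) = b := by
    intro b
    have := congrArg Prod.fst (app_inv' g (b, 0))
    rw [h', h] at this
    exact this
  let β : Perm B := ⟨β₀, β₁, h10, h01⟩
  have hβ : ∀ b x, g (b, x) = (β b, x + c b) := h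
  have hcomm : ∀ τ ∈ D, ∀ b, (β (τ b), c (τ b)) = (τ (β b), c b) := by
    intro τ hτ b
    have := Subgroup.mem_centralizer_iff.1 hg _ (sH_mem_RD (p := p) hτ)
    have h2 := congrArg (fun k : Perm (B × ZMod p) => k (b, 0)) this
    simp only [Perm.mul_apply, sH_apply, hβ, zero_add] at h2
    exact h2.symm
  have hinv : ∀ f : B → ZMod p, (∀ σ ∈ D, ∀ b, f (σ b) = f b) → ∀ b, f (β b) = f b := by
    intro f hf b
    have := Subgroup.mem_centralizer_iff.1 hg _ (e_mem_RD D hf)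
    have h2 := congrArg (fun k : Perm (B × ZMod p) => (k (b, 0)).2) this
    simp only [Perm.mul_apply, e_apply, hβ, zero_add] at h2
    have h3 : c b + f (β b) = c b + f b := by rw [h2, add_comm]
    exact add_left_cancel h3
  refine ⟨β, hstar β ?_ ?_, c, ?_, hβ⟩
  · intro τ hτ
    ext b
    exact (Prod.ext_iff.1 (hcomm τ hτ b)).1
  · intro b
    classical
    have h2 := hinv (fun b' => if ∃ τ ∈ D, b' = τ b then 1 else 0) (by
      intro σ hσ b'
      have : (∃ τ ∈ D, σ b' = τ b) ↔ (∃ τ ∈ D, b' = τ b) := by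
        constructor
        · rintro ⟨τ, hτ, h⟩
          exact ⟨σ⁻¹ * τ, D.mul_mem (D.inv_mem hσ) hτ, by rw [Perm.mul_apply, ← h, inv_app']⟩
        · rintro ⟨τ, hτ, h⟩
          exact ⟨σ * τ, D.mul_mem hσ hτ, by rw [Perm.mul_apply, ← h]⟩
      simp only [this]) b
    have h3 : ∃ τ ∈ D, b = τ b := ⟨1, D.one_mem, rfl⟩
    simp only [h3, if_true] at h2
    by_contra hcon
    rw [if_neg hcon] at h2
    exact zero_ne_one h2
  · intro σ hσ b
    exact (Prod.ext_iff.1 (hcomm σ hσ b)).2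

theorem centralizer_EE_le :
    Subgroup.centralizer ((EE p B : Subgroup (Perm (B × ZMod p))) : Set (Perm (B × ZMod p))) ≤
      EE p B := by
  have := centralizer_RD_le (p := p) (⊥ : Subgroup (Perm B)) (by
    intro β _ h
    rw [Subgroup.mem_bot]
    ext b
    obtain ⟨τ, hτ, hb⟩ := h b
    rw [hb, Subgroup.mem_bot.1 hτ])
  rwa [RD_bot] at this

theorem exists_jH_eq {Y R : Type*} [Finite Y] [Finite R] (β : Perm (Y ⊕ R))
    (h : ∀ r, β (Sum.inr r) = Sum.inr r) : ∃ β', β = jH Y R β' := by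
  have h2 : Set.MapsTo β (Set.range (Sum.inl : Y → Y ⊕ R)) (Set.range (Sum.inl : Y → Y ⊕ R)) := by
    rintro _ ⟨y, rfl⟩
    rcases hy : β (Sum.inl y) with y' | r
    · exact ⟨y', rfl⟩
    · exfalso
      rw [← h r] at hy
      exact Sum.inl_ne_inr (β.injective hy)
  obtain ⟨⟨a, b⟩, hab⟩ := mem_sumCongrHom_range_of_perm_mapsTo_inl h2
  refine ⟨a, ?_⟩
  rw [← hab]
  ext (y | r)
  · rfl
  · have h3 := h r
    rw [← hab] at h3
    exact h3


theorem sH_mem_normalizer_W [Finite B] {Q : Subgroup (Perm B)} {μ : Perm B}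
    (hμ : μ ∈ Subgroup.normalizer (Q : Set (Perm B))) :
    sH (ZMod p) μ ∈ Subgroup.normalizer
      ((W p Q : Subgroup (Perm (B × ZMod p))) : Set (Perm (B × ZMod p))) := by
  apply Helper87.mem_normalizer_of_cj_le
  rw [Helper87.cj_le_iff]
  rintro y ⟨π, hπ, f, h⟩
  refine ⟨μ * π * μ⁻¹, (Subgroup.mem_normalizer_iff.1 hμ π).1 hπ, fun b => f (μ⁻¹ b), fun b x => ?_⟩
  rw [← map_inv]
  simp only [Perm.mul_apply, sH_apply, h]

theorem lamH_mem_normalizer_W [Finite B] {Q : Subgroup (Perm B)} {A : B → (ZMod p)ˣ}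
    (hA : ∀ π ∈ Q, ∀ b, A (π b) = A b) :
    lamH p B A ∈ Subgroup.normalizer
      ((W p Q : Subgroup (Perm (B × ZMod p))) : Set (Perm (B × ZMod p))) := by
  apply Helper87.mem_normalizer_of_cj_le
  rw [Helper87.cj_le_iff]
  rintro y ⟨π, hπ, f, h⟩
  refine ⟨π, hπ, fun b => (A b : ZMod p) * f b, fun b x => ?_⟩
  rw [← map_inv]
  simp only [Perm.mul_apply, lamH_apply, h, hA π hπ, Pi.inv_apply]
  congr 1
  rw [mul_add, Units.mul_inv_cancel_left]

section two

variable {B' R' : Type*}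

/-- the base group of the second level. -/
abbrev D2 (p : ℕ) (B' R' : Type*) : Subgroup (Perm ((B' × ZMod p) ⊕ R')) :=
  (EE p B').map (jH (B' × ZMod p) R')

/-- the second level group. -/
abbrev Q2 (p : ℕ) (R' : Type*) (Q' : Subgroup (Perm B')) : Subgroup (Perm ((B' × ZMod p) ⊕ R')) :=
  (W p Q').map (jH (B' × ZMod p) R')

theorem star_D2 [Finite B'] [Finite R'] (β : Perm ((B' × ZMod p) ⊕ R'))
    (h1 : ∀ τ ∈ D2 p B' R', β * τ = τ * β) (h2 : ∀ b, ∃ τ ∈ D2 p B' R', β b = τ b) :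
    β ∈ D2 p B' R' := by
  obtain ⟨β', rfl⟩ := exists_jH_eq β (by
    intro r
    obtain ⟨_, ⟨τ, -, rfl⟩, hb⟩ := h2 (Sum.inr r)
    rw [hb]
    rfl)
  refine ⟨β', centralizer_EE_le ?_, rfl⟩
  rw [Subgroup.mem_centralizer_iff]
  intro τ hτ
  apply jH_injective (B' × ZMod p) R'
  rw [map_mul, map_mul]
  exact (h1 _ ⟨τ, hτ, rfl⟩).symm

theorem perm_ext2 {F : Type*} {g g' : Perm (((B' × ZMod p) ⊕ R') × F)}
    (h1 : ∀ b' y x, g (Sum.inl (b', y), x) = g' (Sum.inl (b', y), x))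
    (h2 : ∀ r x, g (Sum.inr r, x) = g' (Sum.inr r, x)) : g = g' := by
  ext1 ⟨⟨b', y⟩ | r, x⟩
  · exact h1 b' y x
  · exact h2 r x

theorem mem_R2 {g : Perm (((B' × ZMod p) ⊕ R') × ZMod p)} :
    g ∈ RD p (D2 p B' R') ↔ ∃ (u v : B' → ZMod p) (w : R' → ZMod p),
      (∀ b' y x, g (Sum.inl (b', y), x) = (Sum.inl (b', y + u b'), x + v b')) ∧
      (∀ r x, g (Sum.inr r, x) = (Sum.inr r, x + w r)) := by
  constructor
  · rintro ⟨_, ⟨τ, hτ, rfl⟩, f, hf, hg⟩
    obtain ⟨u, rfl⟩ := mem_EE.1 hτ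
    refine ⟨u, fun b' => f (Sum.inl (b', 0)), fun r => f (Sum.inr r), ?_, ?_⟩
    · intro b' y x
      rw [hg]
      have h1 := hf (jH (B' × ZMod p) R' (e p (fun _ => y))) ⟨_, mem_EE.2 ⟨_, rfl⟩, rfl⟩
        (Sum.inl (b', 0))
      simp only [jH_inl, e_apply, zero_add] at h1
      rw [h1]
      rfl
    · intro r x
      rw [hg]
      rfl
  · rintro ⟨u, v, w, h1, h2⟩
    refine ⟨jH (B' × ZMod p) R' (e p u), ⟨_, mem_EE.2 ⟨_, rfl⟩, rfl⟩,
      Sum.elim (fun z => v z.1) w, ?_, ?_⟩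
    · rintro _ ⟨τ, hτ, rfl⟩ (⟨b', y⟩ | r)
      · obtain ⟨u', rfl⟩ := mem_EE.1 hτ
        rfl
      · rfl
    · rintro (⟨b', y⟩ | r) x
      · rw [h1]
        rfl
      · rw [h2]
        rfl

/-- upper transvections on the blocks of size `p ^ 2`. -/
def UU (R' : Type*) (t : B' → ZMod p) : Perm (((B' × ZMod p) ⊕ R') × ZMod p) where
  toFun z := match z with
    | (Sum.inl (b', y), x) => (Sum.inl (b', y + t b' * x), x)
    | (Sum.inr r, x) => (Sum.inr r, x)
  invFun z := match z with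
    | (Sum.inl (b', y), x) => (Sum.inl (b', y - t b' * x), x)
    | (Sum.inr r, x) => (Sum.inr r, x)
  left_inv := by rintro ⟨⟨b', y⟩ | r, x⟩ <;> simp
  right_inv := by rintro ⟨⟨b', y⟩ | r, x⟩ <;> simp

@[simp] theorem UU_inl (t : B' → ZMod p) (b' : B') (y x : ZMod p) :
    UU R' t (Sum.inl (b', y), x) = (Sum.inl (b', y + t b' * x), x) := rfl

@[simp] theorem UU_inr (t : B' → ZMod p) (r : R') (x : ZMod p) :
    UU R' t (Sum.inr r, x) = (Sum.inr r, x) := rfl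

theorem UU_add (t t' : B' → ZMod p) : UU R' (t + t') = UU R' t * UU R' t' := by
  apply perm_ext2
  · intro b' y x
    simp only [Perm.mul_apply, UU_inl, Pi.add_apply]
    congr 3
    ring
  · intro r x
    rfl

theorem UU_zero : UU R' (0 : B' → ZMod p) = 1 := by
  apply perm_ext2
  · intro b' y x
    simp
  · intro r x
    rfl

theorem UU_neg (t : B' → ZMod p) : UU R' (-t) = (UU R' t)⁻¹ := by
  rw [eq_inv_iff_mul_eq_one, ← UU_add, neg_add_cancel, UU_zero]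

theorem UU_pow_p (t : B' → ZMod p) : (UU R' t) ^ p = 1 := by
  have key : ∀ k : ℕ, UU R' (k • t) = (UU R' t) ^ k := by
    intro k
    induction k with
    | zero => rw [zero_smul, UU_zero, pow_zero]
    | succ k ih => rw [succ_nsmul, UU_add, ih, pow_succ]
  rw [← key]
  have : p • t = 0 := by
    ext b
    simp
  rw [this, UU_zero]

/-- lower transvections on the blocks of size `p ^ 2`. -/
def LL (R' : Type*) (t : B' → ZMod p) : Perm (((B' × ZMod p) ⊕ R') × ZMod p) :=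
  e p (Sum.elim (fun z => t z.1 * z.2) (fun _ => 0))

@[simp] theorem LL_inl (t : B' → ZMod p) (b' : B') (y x : ZMod p) :
    LL R' t (Sum.inl (b', y), x) = (Sum.inl (b', y), x + t b' * y) := rfl

@[simp] theorem LL_inr (t : B' → ZMod p) (r : R') (x : ZMod p) :
    LL R' t (Sum.inr r, x) = (Sum.inr r, x) := by
  simp [LL]

theorem LL_neg (t : B' → ZMod p) : LL R' (-t) = (LL R' t)⁻¹ := by
  rw [eq_inv_iff_mul_eq_one]
  apply perm_ext2
  · intro b' y x
    simp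
  · intro r x
    simp

theorem LL_pow_p (t : B' → ZMod p) : (LL R' t) ^ p = 1 := e_pow_p _

theorem UU_mem_normalizer [Finite B'] [Finite R'] (t : B' → ZMod p) :
    UU R' t ∈ Subgroup.normalizer ((RD p (D2 p B' R') :
      Subgroup (Perm (((B' × ZMod p) ⊕ R') × ZMod p))) : Set (Perm (((B' × ZMod p) ⊕ R') × ZMod p))) := by
  apply Helper87.mem_normalizer_of_cj_le
  rw [Helper87.cj_le_iff]
  intro y hy
  obtain ⟨u, v, w, h1, h2⟩ := mem_R2.1 hy
  rw [mem_R2]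
  refine ⟨fun b' => u b' + t b' * v b', v, w, ?_, ?_⟩
  · intro b' y' x
    rw [← UU_neg]
    simp only [Perm.mul_apply, UU_inl, h1, Pi.neg_apply]
    congr 3
    ring
  · intro r x
    rw [← UU_neg]
    simp only [Perm.mul_apply, UU_inr, h2]

theorem LL_mem_normalizer [Finite B'] [Finite R'] (t : B' → ZMod p) :
    LL R' t ∈ Subgroup.normalizer ((RD p (D2 p B' R') :
      Subgroup (Perm (((B' × ZMod p) ⊕ R') × ZMod p))) : Set (Perm (((B' × ZMod p) ⊕ R') × ZMod p))) := by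
  apply Helper87.mem_normalizer_of_cj_le
  rw [Helper87.cj_le_iff]
  intro y hy
  obtain ⟨u, v, w, h1, h2⟩ := mem_R2.1 hy
  rw [mem_R2]
  refine ⟨u, fun b' => v b' + t b' * u b', w, ?_, ?_⟩
  · intro b' y' x
    rw [← LL_neg]
    simp only [Perm.mul_apply, LL_inl, h1, Pi.neg_apply]
    congr 1
    ring
  · intro r x
    rw [← LL_neg]
    simp only [Perm.mul_apply, LL_inr, h2]

/-- the diagonal elements. -/
def hh (R' : Type*) (a : B' → (ZMod p)ˣ) : Perm (((B' × ZMod p) ⊕ R') × ZMod p) :=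
  sH (ZMod p) (jH (B' × ZMod p) R' (lamH p B' a⁻¹)) *
    lamH p ((B' × ZMod p) ⊕ R') (Sum.elim (fun z => a z.1) (fun _ => 1))

theorem hh_inl (a : B' → (ZMod p)ˣ) (b' : B') (y x : ZMod p) :
    hh R' a (Sum.inl (b', y), x) =
      (Sum.inl (b', (((a b')⁻¹ : (ZMod p)ˣ) : ZMod p) * y), (a b' : ZMod p) * x) := rfl

theorem hh_inr (a : B' → (ZMod p)ˣ) (r : R') (x : ZMod p) :
    hh R' a (Sum.inr r, x) = (Sum.inr r, x) := by
  show ((Sum.inr r : (B' × ZMod p) ⊕ R'), (((1 : (ZMod p)ˣ)) : ZMod p) * x) = (Sum.inr r, x)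
  rw [Units.val_one, one_mul]

theorem isAff_hh (a : B' → (ZMod p)ˣ) :
    IsAff (hh R' a) (jH (B' × ZMod p) R' (lamH p B' a⁻¹)) (Sum.elim (fun z => a z.1) (fun _ => 1))
      0 := by
  intro b x
  rw [Pi.zero_apply, add_zero]
  rfl

theorem hh_eq (a : B' → (ZMod p)ˣ) :
    hh R' a = UU R' (fun b' => (((a b')⁻¹ : (ZMod p)ˣ) : ZMod p)) * LL R' (fun b' => - (a b' : ZMod p)) *
      UU R' (fun b' => (((a b')⁻¹ : (ZMod p)ˣ) : ZMod p)) * UU R' (fun _ => -1) * LL R' (fun _ => 1) *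
      UU R' (fun _ => -1) := by
  apply perm_ext2
  · intro b' y x
    have h1 : ((a b' : (ZMod p)ˣ) : ZMod p) * (((a b')⁻¹ : (ZMod p)ˣ) : ZMod p) = 1 := Units.mul_inv _
    simp only [Perm.mul_apply, UU_inl, LL_inl, hh_inl]
    refine Prod.ext ?_ ?_
    · simp only
      congr 2
      linear_combination (-x + (((a b')⁻¹ : (ZMod p)ˣ) : ZMod p) * y) * h1
    · simp only
      linear_combination (y) * h1
  · intro r x
    simp only [Perm.mul_apply, UU_inr, LL_inr, hh_inr]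

end two


section two'

variable {B' R' : Type*} [Fintype B'] [DecidableEq B'] [Fintype R'] [DecidableEq R']

theorem hh_mem_normalizer {Q' : Subgroup (Perm B')} {a : B' → (ZMod p)ˣ}
    (ha : ∀ π ∈ Q', ∀ b', a (π b') = a b') :
    hh R' a ∈ Subgroup.normalizer ((W p (Q2 p R' Q') :
      Subgroup (Perm (((B' × ZMod p) ⊕ R') × ZMod p))) : Set (Perm (((B' × ZMod p) ⊕ R') × ZMod p))) := by
  refine mul_mem (sH_mem_normalizer_W (map_mem_normalizer _ (lamH_mem_normalizer_W ?_)))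
    (lamH_mem_normalizer_W ?_)
  · intro π hπ b'
    simp only [Pi.inv_apply, ha π hπ]
  · rintro _ ⟨π, ⟨π', hπ', f, h⟩, rfl⟩ (⟨b', y⟩ | r)
    · rw [jH_inl, h]
      exact ha π' hπ' b'
    · rfl

theorem prod_elim (a : B' → (ZMod p)ˣ) :
    ∏ b : (B' × ZMod p) ⊕ R', (Sum.elim (fun z => a z.1) (fun _ => 1) b : (ZMod p)ˣ) = ∏ b', a b' := by
  rw [Fintype.prod_sum_type]
  simp only [Sum.elim_inl, Sum.elim_inr, Finset.prod_const_one, mul_one]
  rw [Fintype.prod_prod_type]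
  apply Finset.prod_congr rfl
  intro b' _
  show ∏ _y : ZMod p, a b' = a b'
  rw [Finset.prod_const, Finset.card_univ, ZMod.card]
  ext
  rw [Units.val_pow_eq_pow_val, ZMod.pow_card]

theorem exists_invariant {Q' : Subgroup (Perm B')} (hQ' : IsPGroup p Q') [Nonempty B']
    (l : (ZMod p)ˣ) :
    ∃ a : B' → (ZMod p)ˣ, (∀ π ∈ Q', ∀ b', a (π b') = a b') ∧ ∏ b', a b' = l := by
  classical
  obtain ⟨b₀⟩ := ‹Nonempty B'›
  obtain ⟨n, hn⟩ := hQ'.card_orbit b₀
  refine ⟨fun b' => if b' ∈ MulAction.orbit Q' b₀ then l else 1, ?_, ?_⟩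
  · intro π hπ b'
    have : π b' ∈ MulAction.orbit Q' b₀ ↔ b' ∈ MulAction.orbit Q' b₀ := by
      rw [MulAction.mem_orbit_symm, show π b' = (⟨π, hπ⟩ : Q') • b' from rfl, MulAction.orbit_smul,
        MulAction.mem_orbit_symm]
    simp only [this]
  · rw [Finset.prod_ite, Finset.prod_const, Finset.prod_const_one, mul_one]
    have : (Finset.univ.filter (fun b' => b' ∈ MulAction.orbit Q' b₀)).card = p ^ n := by
      rw [← hn, Nat.card_eq_fintype_card, ← Set.toFinset_card, Set.filter_mem_univ_eq_toFinset]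
    rw [this]
    ext
    rw [Units.val_pow_eq_pow_val, ZMod.pow_card_pow]

theorem closure_relP_le {Γ : Type*} [Group Γ] (A R : Subgroup Γ) :
    Subgroup.closure (relP p A R) ≤ A := (Subgroup.closure_le _).2 (fun _ hx => hx.1)

theorem hh_mem_K2 (hp2 : p ≠ 2) (a : B' → (ZMod p)ˣ) :
    hh R' a ∈ Subgroup.closure (relP p (alternatingGroup (((B' × ZMod p) ⊕ R') × ZMod p))
      (RD p (D2 p B' R'))) := by
  have hU : ∀ t, UU R' t ∈ Subgroup.closure (relP p
      (alternatingGroup (((B' × ZMod p) ⊕ R') × ZMod p)) (RD p (D2 p B' R'))) := fun t =>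
    Subgroup.subset_closure ⟨mem_alternatingGroup.2 (sign_eq_one_of_pow hp2
      ⟨1, by rw [pow_one, UU_pow_p]⟩), UU_mem_normalizer t, 1, by rw [pow_one, UU_pow_p]⟩
  have hL : ∀ t, LL R' t ∈ Subgroup.closure (relP p
      (alternatingGroup (((B' × ZMod p) ⊕ R') × ZMod p)) (RD p (D2 p B' R'))) := fun t =>
    Subgroup.subset_closure ⟨mem_alternatingGroup.2 (sign_eq_one_of_pow hp2
      ⟨1, by rw [pow_one, LL_pow_p]⟩), LL_mem_normalizer t, 1, by rw [pow_one, LL_pow_p]⟩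
  rw [hh_eq]
  exact mul_mem (mul_mem (mul_mem (mul_mem (mul_mem (hU _) (hL _)) (hU _)) (hU _)) (hL _)) (hU _)

theorem W_le_alt {B : Type*} [Fintype B] [DecidableEq B] (hp2 : p ≠ 2) {Q : Subgroup (Perm B)}
    (hQ : IsPGroup p Q) : W p Q ≤ alternatingGroup (B × ZMod p) := by
  intro g hg
  rw [mem_alternatingGroup]
  exact sign_eq_one_of_pow hp2 (exists_pow_of_isPGroup (isPGroup_W hQ) hg)

theorem relHyp_model (hp2 : p ≠ 2) {Q' : Subgroup (Perm B')} (hQ' : IsPGroup p Q') [Nonempty B'] :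
    RelHyp p (alternatingGroup (((B' × ZMod p) ⊕ R') × ZMod p)) (W p (Q2 p R' Q'))
      {EE p ((B' × ZMod p) ⊕ R'), RD p (D2 p B' R')} := by
  have hp : p.Prime := Fact.out
  have hB : p ≤ Fintype.card ((B' × ZMod p) ⊕ R') := by
    rw [Fintype.card_sum, Fintype.card_prod, ZMod.card]
    have : 0 < Fintype.card B' := Fintype.card_pos
    nlinarith
  constructor
  · intro h hA hN
    obtain ⟨β, a, c, haff⟩ := exists_isAff_of_normalizer hN
    obtain ⟨a₀, ha₀, hprod⟩ := exists_invariant hQ' (∏ b, a b)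
    have hhA := closure_relP_le _ _ (hh_mem_K2 (R' := R') hp2 a₀)
    have hhN := hh_mem_normalizer (R' := R') ha₀
    have h1 : hh R' a₀ ∈ relGenSet p (alternatingGroup (((B' × ZMod p) ⊕ R') × ZMod p))
        (W p (Q2 p R' Q')) {EE p ((B' × ZMod p) ⊕ R'), RD p (D2 p B' R')} :=
      ⟨hhA, hhN, RD p (D2 p B' R'), by simp, hh_mem_K2 hp2 a₀⟩
    have h2A : (hh R' a₀)⁻¹ * h ∈ alternatingGroup (((B' × ZMod p) ⊕ R') × ZMod p) :=
      mul_mem (inv_mem hhA) hA
    have h2 : (hh R' a₀)⁻¹ * h ∈ relGenSet p (alternatingGroup (((B' × ZMod p) ⊕ R') × ZMod p))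
        (W p (Q2 p R' Q')) {EE p ((B' × ZMod p) ⊕ R'), RD p (D2 p B' R')} := by
      refine ⟨h2A, mul_mem (inv_mem hhN) hN, EE p ((B' × ZMod p) ⊕ R'), by simp, ?_⟩
      refine mem_KE_of_isAff hp2 hB ((isAff_hh a₀).inv.mul haff) h2A ?_
      rw [Finset.prod_mul_distrib, Finset.prod_inv_distrib]
      have h3 := Equiv.prod_comp ((jH (B' × ZMod p) R' (lamH p B' a₀⁻¹))⁻¹ * β)
        (fun b => (Sum.elim (fun z => a₀ z.1) (fun _ => 1) b : (ZMod p)ˣ))
      simp only [Perm.mul_apply] at h3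
      rw [h3, prod_elim, hprod, inv_mul_cancel]
    have h3 : h = hh R' a₀ * ((hh R' a₀)⁻¹ * h) := by group
    rw [h3]
    exact mul_mem (Subgroup.subset_closure h1) (Subgroup.subset_closure h2)
  · rintro R (rfl | rfl)
    · exact ⟨W_mono bot_le, fun g _ hg => centralizer_EE_le hg⟩
    · exact ⟨RD_le_W (Subgroup.map_mono (W_mono bot_le)),
        fun g _ hg => centralizer_RD_le _ star_D2 hg⟩

end two'

end Cfsg.Agent.Lib.Helper89.AW
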