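import Cfsg.Agent.Lib.Helper50.AutPSUB
import Cfsg.Agent.Lib.Helper50.AutPSUC
import Cfsg.Agent.Lib.Helper50.SUCenter
import Cfsg.Agent.Lib.Helper89.UniSL

/-!
# A Witt basis of the standard Hermitian space and the unitriangular subgroup of `SU_n(q)`
-/

set_option autoImplicit false
set_option linter.unusedSimpArgs false
set_option linter.unusedSectionVars false
set_option linter.unusedVariables false

namespace Cfsg.Agent.Lib.Helper89.SUF

open Matrix Cfsg.Agent.Lib.Helper17 Cfsg.Agent.Lib.Helper99.AutPSU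

variable {F : Type*} [Field F] [Fintype F] {n q : ℕ}

local notation "⟪" x ", " y "⟫" => Cfsg.hermForm n F q x y

/-- A basis whose Gram matrix is the antidiagonal unit matrix. -/
def WB (q : ℕ) (b : Fin n → Fin n → F) : Prop :=
  ∀ i j, Cfsg.hermForm n F q (b i) (b j) = if j = Fin.rev i then 1 else 0

theorem herm_rev (x y : Fin n → F) : ⟪x ∘ Fin.rev, y⟫ = ⟪x, y ∘ Fin.rev⟫ := by
  unfold Cfsg.hermForm
  rw [← Equiv.sum_comp Fin.revPerm]
  refine Finset.sum_congr rfl (fun i _ => ?_)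
  simp [Fin.rev_rev]

theorem herm_sum_left {ι : Type*} (s : Finset ι) (v : ι → Fin n → F) (w : Fin n → F) :
    ⟪∑ j ∈ s, v j, w⟫ = ∑ j ∈ s, ⟪v j, w⟫ := by
  classical
  induction s using Finset.induction_on with
  | empty => simp [hermForm_zero_left]
  | insert a s ha ih => rw [Finset.sum_insert ha, Finset.sum_insert ha, hermForm_add_left, ih]

theorem exists_WB (hF : Fintype.card F = q ^ 2) : ∃ b : Fin n → Fin n → F, WB q b := by
  classical
  have hq0 : q ≠ 0 := by have := two_le_of_card_sq hF; omega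
  let L : (Fin n → F) →ₗ[F] (Fin n → F) := LinearMap.funLeft F F Fin.rev
  have hL : ∀ x, L x = x ∘ Fin.rev := fun x => rfl
  let B' : (Fin n → F) →ₛₗ[frobQ hF] (Fin n → F) →ₗ[F] F := (hermB hF n).comp L
  have hB' : ∀ x y, B' x y = ⟪y, x ∘ Fin.rev⟫ := fun x y => rfl
  have hrr : ∀ x : Fin n → F, (x ∘ Fin.rev) ∘ Fin.rev = x := by
    intro x
    funext i
    simp [Fin.rev_rev]
  obtain ⟨Φ, hΦ⟩ := exists_herm_coords hF B'
    ⟨fun x y => by rw [hB', hB', frobQ_apply, hermForm_conj hF, herm_rev]⟩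
    ⟨fun x hx => by
      have h1 : x ∘ Fin.rev = 0 := hermForm_right_eq_zero hF n _ (fun y => by rw [← hB']; exact hx y)
      rw [← hrr x, h1]
      rfl, fun y hy => by
      apply hermForm_left_eq_zero hF n
      intro x
      have := hy (x ∘ Fin.rev)
      rwa [hB', hrr] at this⟩ (k := n) (Module.finrank_fin_fun F)
  refine ⟨fun i => Φ.symm (Pi.single i 1), fun i j => ?_⟩
  rw [← hΦ, LinearEquiv.apply_symm_apply, LinearEquiv.apply_symm_apply, hB', hermForm_single_left,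
    Function.comp_apply, Pi.single_apply]
  by_cases h : j = Fin.rev i
  · rw [if_pos h, if_pos h.symm, one_pow]
  · rw [if_neg h, if_neg (fun h' => h h'.symm), zero_pow hq0]

variable {b : Fin n → Fin n → F}

theorem WB.self_rev (hb : WB q b) (i : Fin n) : ⟪b i, b (Fin.rev i)⟫ = 1 := by
  rw [hb, if_pos rfl]

theorem WB.rev_self (hb : WB q b) (i : Fin n) : ⟪b (Fin.rev i), b i⟫ = 1 := by
  rw [hb, if_pos (Fin.rev_rev i).symm]

theorem WB.ne (hb : WB q b) {i j : Fin n} (h : j ≠ Fin.rev i) : ⟪b i, b j⟫ = 0 := by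
  rw [hb, if_neg h]

theorem WB.iso (hb : WB q b) {i : Fin n} (h : i ≠ Fin.rev i) : ⟪b i, b i⟫ = 0 := hb.ne h

theorem WB.ne_zero (hb : WB q b) (i : Fin n) : b i ≠ 0 := by
  intro h
  have := hb.self_rev i
  rw [h, hermForm_zero_left] at this
  exact zero_ne_one this

/-- columns are the basis vectors -/
def Pm (b : Fin n → Fin n → F) : Matrix (Fin n) (Fin n) F := Matrix.of fun l j => b j l

/-- rows are the coordinate functionals -/
def Pc (q : ℕ) (b : Fin n → Fin n → F) : Matrix (Fin n) (Fin n) F :=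
  Matrix.of fun i l => (b (Fin.rev i) l) ^ q

theorem Pc_mulVec (x : Fin n → F) (i : Fin n) : (Pc q b *ᵥ x) i = ⟪x, b (Fin.rev i)⟫ := by
  unfold Cfsg.hermForm
  rw [Matrix.mulVec, dotProduct]
  exact Finset.sum_congr rfl (fun l _ => mul_comm _ _)

theorem Pm_mulVec (c : Fin n → F) : Pm b *ᵥ c = ∑ j, c j • b j := by
  funext l
  rw [Matrix.mulVec, dotProduct, Finset.sum_apply]
  exact Finset.sum_congr rfl (fun j _ => by
    rw [Pi.smul_apply, smul_eq_mul, mul_comm]
    rfl)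

theorem Pm_mulVec_single [DecidableEq (Fin n)] (j : Fin n) : Pm b *ᵥ (Pi.single j 1) = b j := by
  rw [Pm_mulVec, Finset.sum_eq_single j]
  · rw [Pi.single_eq_same, one_smul]
  · intro i _ hi
    rw [Pi.single_eq_of_ne hi, zero_smul]
  · intro h
    exact absurd (Finset.mem_univ j) h

theorem Pc_mul_Pm (hb : WB q b) : Pc q b * Pm b = 1 := by
  classical
  ext i j
  have h1 : (Pc q b * Pm b) i j = (Pc q b *ᵥ b j) i := by
    rw [Matrix.mul_apply, Matrix.mulVec, dotProduct]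
    rfl
  rw [h1, Pc_mulVec, hb, Matrix.one_apply]
  by_cases h : i = j
  · rw [if_pos h, if_pos (by rw [h])]
  · rw [if_neg h, if_neg (fun h' => h (Fin.rev_injective h'))]

theorem Pm_mul_Pc (hb : WB q b) : Pm b * Pc q b = 1 := mul_eq_one_comm.1 (Pc_mul_Pm hb)

theorem WB.expand (hb : WB q b) (x : Fin n → F) : x = ∑ j, ⟪x, b (Fin.rev j)⟫ • b j := by
  have h1 : x = Pm b *ᵥ (Pc q b *ᵥ x) := by rw [mulVec_mulVec, Pm_mul_Pc hb, one_mulVec]
  rw [Pm_mulVec] at h1
  conv_lhs => rw [h1]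
  exact Finset.sum_congr rfl (fun j _ => by rw [Pc_mulVec])

/-- two vectors with the same coordinates agree -/
theorem WB.ext (hb : WB q b) {x y : Fin n → F} (h : ∀ j, ⟪x, b j⟫ = ⟪y, b j⟫) : x = y := by
  rw [hb.expand x, hb.expand y]
  exact Finset.sum_congr rfl (fun j _ => by rw [h])

/-- the matrix of an element of `SU` in the Witt basis -/
def cb (hb : WB q b) : ↥(Cfsg.SU n F q) →* SpecialLinearGroup (Fin n) F where
  toFun g := ⟨Pc q b * mt g * Pm b, by
    rw [det_mul, det_mul, mt_det, mul_one, ← det_mul, Pc_mul_Pm hb, det_one]⟩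
  map_one' := Subtype.ext (by
    show Pc q b * mt (1 : ↥(Cfsg.SU n F q)) * Pm b = 1
    rw [mt_one, Matrix.mul_one, Pc_mul_Pm hb])
  map_mul' g g' := Subtype.ext (by
    show Pc q b * mt (g * g') * Pm b = (Pc q b * mt g * Pm b) * (Pc q b * mt g' * Pm b)
    have : (Pc q b * mt g * Pm b) * (Pc q b * mt g' * Pm b) =
        Pc q b * mt g * (Pm b * Pc q b) * mt g' * Pm b := by
      simp only [Matrix.mul_assoc]
    rw [this, Pm_mul_Pc hb, Matrix.mul_one, mt_mul]
    simp only [Matrix.mul_assoc])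

theorem cb_val (hb : WB q b) (g : ↥(Cfsg.SU n F q)) : (cb hb g).1 = Pc q b * mt g * Pm b := rfl

theorem cb_apply (hb : WB q b) (g : ↥(Cfsg.SU n F q)) (i j : Fin n) :
    (cb hb g).1 i j = ⟪mt g *ᵥ b j, b (Fin.rev i)⟫ := by
  have h1 : (Pc q b * mt g * Pm b) i j = ((Pc q b * mt g) *ᵥ b j) i := by
    rw [Matrix.mul_apply, Matrix.mulVec, dotProduct]
    rfl
  rw [cb_val, h1, ← mulVec_mulVec, Pc_mulVec]

theorem cb_injective (hb : WB q b) : Function.Injective (cb hb) := by
  intro g g' h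
  apply mt_injective
  have h1 : Pc q b * mt g * Pm b = Pc q b * mt g' * Pm b := congrArg Subtype.val h
  have h2 : Pm b * (Pc q b * mt g * Pm b) * Pc q b = Pm b * (Pc q b * mt g' * Pm b) * Pc q b := by
    rw [h1]
  have h3 : ∀ A : Matrix (Fin n) (Fin n) F, Pm b * (Pc q b * A * Pm b) * Pc q b =
      (Pm b * Pc q b) * A * (Pm b * Pc q b) := by
    intro A
    simp only [Matrix.mul_assoc]
  rw [h3, h3, Pm_mul_Pc hb, Matrix.one_mul, Matrix.mul_one, Matrix.one_mul, Matrix.mul_one] at h2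
  exact h2

theorem finite_SU : Finite ↥(Cfsg.SU n F q) :=
  Finite.of_injective (fun g => mt g) mt_injective

/-- The unitriangular subgroup with respect to the Witt basis. -/
def U (hb : WB q b) : Subgroup ↥(Cfsg.SU n F q) := (UT.U n F).comap (cb hb)

theorem mem_U_iff (hb : WB q b) (g : ↥(Cfsg.SU n F q)) : g ∈ U hb ↔
    ∀ i j : Fin n, j ≤ i → ⟪mt g *ᵥ b j, b (Fin.rev i)⟫ = if i = j then 1 else 0 := by
  rw [U, Subgroup.mem_comap, UT.mem_U_iff]
  refine forall_congr' (fun i => forall_congr' (fun j => imp_congr_right (fun _ => ?_)))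
  rw [cb_apply, Matrix.one_apply]

theorem isPGroup_U (hb : WB q b) (p : ℕ) [Fact p.Prime] [CharP F p] : IsPGroup p (U hb) :=
  (UT.isPGroup_U p).comap_of_injective (cb hb) (cb_injective hb)

/-- the flag: `Fl k x` says that `x` lies in the span of `b 0, …, b (k-1)` -/
def Fl (q : ℕ) (b : Fin n → Fin n → F) (k : ℕ) (x : Fin n → F) : Prop :=
  ∀ i : Fin n, k ≤ i.val → Cfsg.hermForm n F q x (b (Fin.rev i)) = 0

theorem Fl.add {k : ℕ} {x y : Fin n → F} (hx : Fl q b k x) (hy : Fl q b k y) : Fl q b k (x + y) :=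
  fun i hi => by rw [hermForm_add_left, hx i hi, hy i hi, add_zero]

theorem Fl.sub {k : ℕ} {x y : Fin n → F} (hx : Fl q b k x) (hy : Fl q b k y) : Fl q b k (x - y) :=
  fun i hi => by rw [hermForm_sub_left, hx i hi, hy i hi, sub_zero]

theorem Fl.smul {k : ℕ} {x : Fin n → F} (hx : Fl q b k x) (c : F) : Fl q b k (c • x) :=
  fun i hi => by rw [hermForm_smul_left, hx i hi, mul_zero]

theorem Fl.mono {k k' : ℕ} (h : k ≤ k') {x : Fin n → F} (hx : Fl q b k x) : Fl q b k' x :=
  fun i hi => hx i (h.trans hi)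

theorem fl_zero (k : ℕ) : Fl q b k (0 : Fin n → F) := fun i _ => hermForm_zero_left n _

theorem Fl.sum {ι : Type*} {k : ℕ} (s : Finset ι) {v : ι → Fin n → F}
    (h : ∀ j ∈ s, Fl q b k (v j)) : Fl q b k (∑ j ∈ s, v j) := fun i hi => by
  rw [herm_sum_left]
  exact Finset.sum_eq_zero (fun j hj => h j hj i hi)

theorem WB.fl (hb : WB q b) {j : Fin n} {k : ℕ} (h : j.val < k) : Fl q b k (b j) := fun i hi => by
  rw [hb.ne]
  intro h'
  have := Fin.rev_injective h'
  rw [this] at hi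
  omega

/-- pairing against `b j` in terms of the flag -/
theorem Fl.perp {k : ℕ} {x : Fin n → F} (hx : Fl q b k x) {j : Fin n} (hj : j.val + k < n + 1)
    (hj' : k + j.val ≤ n - 1) : ⟪x, b j⟫ = 0 := by
  have := hx (Fin.rev j) (by rw [Fin.val_rev]; omega)
  rwa [Fin.rev_rev] at this

theorem Fl.eq_zero (hb : WB q b) {x : Fin n → F} (hx : Fl q b 0 x) : x = 0 := by
  rw [hb.expand x]
  exact Finset.sum_eq_zero (fun j _ => by rw [hx j (Nat.zero_le _), zero_smul])

theorem mem_U_iff_fl (hb : WB q b) (g : ↥(Cfsg.SU n F q)) :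
    g ∈ U hb ↔ ∀ j : Fin n, Fl q b j.val (mt g *ᵥ b j - b j) := by
  rw [mem_U_iff]
  constructor
  · intro h j i hi
    rw [hermForm_sub_left, h i j hi, hb]
    by_cases hij : i = j
    · rw [if_pos hij, if_pos (by rw [hij]), sub_self]
    · rw [if_neg hij, if_neg (fun h' => hij (Fin.rev_injective h')), sub_self]
  · intro h i j hij
    have h1 := h j i hij
    rw [hermForm_sub_left, hb, sub_eq_zero] at h1
    rw [h1]
    by_cases hij' : i = j
    · rw [if_pos hij', if_pos (by rw [hij'])]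
    · rw [if_neg hij', if_neg (fun h' => hij' (Fin.rev_injective h'))]

/-- a linear-map principle: to control `g x - x` on the flag it suffices to do so on the basis -/
theorem sub_fl_of_basis (hb : WB q b) (g : ↥(Cfsg.SU n F q)) {k m : ℕ}
    (h : ∀ j : Fin n, j.val < k → Fl q b m (mt g *ᵥ b j - b j)) {x : Fin n → F}
    (hx : Fl q b k x) : Fl q b m (mt g *ᵥ x - x) := by
  have h1 : mt g *ᵥ x - x = ∑ j, ⟪x, b (Fin.rev j)⟫ • (mt g *ᵥ b j - b j) := by
    conv_lhs => rw [hb.expand x]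
    rw [Matrix.mulVec_sum, ← Finset.sum_sub_distrib]
    exact Finset.sum_congr rfl (fun j _ => by rw [mulVec_smul, smul_sub])
  rw [h1]
  refine Fl.sum _ (fun j _ => ?_)
  by_cases hj : j.val < k
  · exact (h j hj).smul _
  · rw [hx j (by omega), zero_smul]
    exact fl_zero m

theorem U_sub_fl (hb : WB q b) {g : ↥(Cfsg.SU n F q)} (hg : g ∈ U hb) {k : ℕ} {x : Fin n → F}
    (hx : Fl q b (k + 1) x) : Fl q b k (mt g *ᵥ x - x) :=
  sub_fl_of_basis hb g (fun j hj => ((mem_U_iff_fl hb g).1 hg j).mono (by omega)) hx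

theorem U_pres_fl (hb : WB q b) {g : ↥(Cfsg.SU n F q)} (hg : g ∈ U hb) {k : ℕ} {x : Fin n → F}
    (hx : Fl q b k x) : Fl q b k (mt g *ᵥ x) := by
  have h1 := (U_sub_fl hb hg (hx.mono (Nat.le_succ k))).add hx
  rwa [sub_add_cancel] at h1

theorem U_fix_zero (hb : WB q b) {g : ↥(Cfsg.SU n F q)} (hg : g ∈ U hb) {i0 : Fin n}
    (h0 : i0.val = 0) : mt g *ᵥ b i0 = b i0 := by
  have h1 := (mem_U_iff_fl hb g).1 hg i0
  rw [h0] at h1
  exact sub_eq_zero.1 (Fl.eq_zero hb h1)

end Cfsg.Agent.Lib.Helper89.SUF
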