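import Cfsg.Agent.Lib.Helper89.SUSieg
import Cfsg.Agent.Lib.Helper58.PGroup

/-!
# `U ≤ SU_n(q)`, `n ≥ 4`, has no proper nontrivial subgroup closed under fusion
-/

set_option autoImplicit false
set_option linter.unusedSimpArgs false
set_option linter.unusedSectionVars false
set_option linter.unusedVariables false

namespace Cfsg.Agent.Lib.Helper89.SUF

open Matrix Cfsg.Agent.Lib.Helper17 Cfsg.Agent.Lib.Helper99.AutPSU

variable {F : Type*} [Field F] [Fintype F] {n q : ℕ}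

local notation "⟪" x ", " y "⟫" => Cfsg.hermForm n F q x y

variable {b : Fin n → Fin n → F}

theorem WB.zero_of (hb : WB q b) {i j : Fin n} (h : i.val + j.val + 1 ≠ n) : ⟪b i, b j⟫ = 0 :=
  hb.ne (fun h' => h (by rw [h', Fin.val_rev]; have := i.2; omega))

theorem WB.one_of (hb : WB q b) {i j : Fin n} (h : i.val + j.val + 1 = n) : ⟪b i, b j⟫ = 1 := by
  rw [hb, if_pos]
  apply Fin.ext
  rw [Fin.val_rev]
  omega

theorem Fl.perp_of {k : ℕ} {x : Fin n → F} (hx : Fl q b k x) {j : Fin n} (hj : k + j.val + 1 ≤ n) :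
    ⟪x, b j⟫ = 0 := by
  have := hx (Fin.rev j) (by rw [Fin.val_rev]; omega)
  rwa [Fin.rev_rev] at this

theorem Q_zero_le_U (hF : Fintype.card F = q ^ 2) (hb : WB q b) (hn : 2 ≤ n) {i0 : Fin n}
    (h0 : i0.val = 0) : Q q (b i0) ≤ U hb := by
  intro g hg
  have hr : (Fin.rev i0).val = n - (i0.val + 1) := Fin.val_rev i0
  have hlt : i0 < Fin.rev i0 := by
    show i0.val < (Fin.rev i0).val
    omega
  have hp : HP q (b i0) (b (Fin.rev i0)) :=
    ⟨hb.zero_of (by omega), hb.zero_of (by omega), hb.self_rev i0⟩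
  refine (isSg_of_mem_Q hF hp hg).mem_U hF hb hlt (fun i hi => ?_)
  have : i = Fin.rev i0 := Fin.ext (by have := i.2; omega)
  rw [this, Fin.rev_rev]
  exact wc_a hF hp hg

theorem tv_mem_U (hF : Fintype.card F = q ^ 2) (hb : WB q b) (hn : 4 ≤ n) {v : Fin n → F}
    (hv : Fl q b 2 v) {g : ↥(Cfsg.SU n F q)} {l : F}
    (h : ∀ x, mt g *ᵥ x = x + (l * ⟪x, v⟫) • v) : g ∈ U hb := by
  rw [mem_U_iff_fl]
  intro j
  rw [h, add_sub_cancel_left]
  by_cases hj : 2 ≤ j.val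
  · exact (hv.mono hj).smul _
  · rw [hermForm_eq_zero_comm hF (hv.perp_of (j := j) (by omega)), mul_zero, zero_smul]
    exact fl_zero _

theorem closed_U (hF : Fintype.card F = q ^ 2) (hb : WB q b) (p : ℕ) [Fact p.Prime] [CharP F p]
    (hn : 4 ≤ n) (T : Subgroup ↥(Cfsg.SU n F q)) (hT : T ≤ U hb) (hne : T ≠ ⊥)
    (hcl : ∀ x ∈ T, ∀ g : ↥(Cfsg.SU n F q), g * x * g⁻¹ ∈ U hb → g * x * g⁻¹ ∈ T) :
    T = U hb := by
  have hfin : Finite ↥(Cfsg.SU n F q) := finite_SU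
  have hq0 := q_ne_zero hF
  obtain ⟨i0, h0⟩ : ∃ i : Fin n, i.val = 0 := ⟨⟨0, by omega⟩, rfl⟩
  obtain ⟨i1, h1⟩ : ∃ i : Fin n, i.val = 1 := ⟨⟨1, by omega⟩, rfl⟩
  obtain ⟨j0, hj0⟩ : ∃ i : Fin n, i.val = n - 1 := ⟨⟨n - 1, by omega⟩, rfl⟩
  obtain ⟨j1, hj1⟩ : ∃ i : Fin n, i.val = n - 2 := ⟨⟨n - 2, by omega⟩, rfl⟩
  obtain ⟨a, ha⟩ : ∃ a, a = b i0 := ⟨_, rfl⟩
  obtain ⟨d, hd⟩ : ∃ a, a = b j0 := ⟨_, rfl⟩
  obtain ⟨a1, ha1⟩ : ∃ a, a = b i1 := ⟨_, rfl⟩
  obtain ⟨d1, hd1⟩ : ∃ a, a = b j1 := ⟨_, rfl⟩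
  have haa : ⟪a, a⟫ = 0 := by rw [ha]; exact hb.zero_of (by omega)
  have hdd : ⟪d, d⟫ = 0 := by rw [hd]; exact hb.zero_of (by omega)
  have had : ⟪a, d⟫ = 1 := by rw [ha, hd]; exact hb.one_of (by omega)
  have hda : ⟪d, a⟫ = 1 := by rw [ha, hd]; exact hb.one_of (by omega)
  have ha1a : ⟪a1, a⟫ = 0 := by rw [ha, ha1]; exact hb.zero_of (by omega)
  have haa1 : ⟪a, a1⟫ = 0 := by rw [ha, ha1]; exact hb.zero_of (by omega)
  have ha1d : ⟪a1, d⟫ = 0 := by rw [hd, ha1]; exact hb.zero_of (by omega)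
  have hd1a : ⟪d1, a⟫ = 0 := by rw [ha, hd1]; exact hb.zero_of (by omega)
  have hd1d : ⟪d1, d⟫ = 0 := by rw [hd, hd1]; exact hb.zero_of (by omega)
  have ha1a1 : ⟪a1, a1⟫ = 0 := by rw [ha1]; exact hb.zero_of (by omega)
  have hd1d1 : ⟪d1, d1⟫ = 0 := by rw [hd1]; exact hb.zero_of (by omega)
  have ha1d1 : ⟪a1, d1⟫ = 1 := by rw [ha1, hd1]; exact hb.one_of (by omega)
  have hd1a1 : ⟪d1, a1⟫ = 1 := by rw [ha1, hd1]; exact hb.one_of (by omega)
  have hane : a ≠ 0 := by rw [ha]; exact hb.ne_zero _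
  have ha1ne : a1 ≠ 0 := by rw [ha1]; exact hb.ne_zero _
  have hp : HP q a d := ⟨haa, hdd, had⟩
  have hQU : Q q a ≤ U hb := by rw [ha]; exact Q_zero_le_U hF hb (by omega) h0
  have hfla : Fl q b 2 a := by rw [ha]; exact hb.fl (by omega)
  have hfla1 : Fl q b 2 a1 := by rw [ha1]; exact hb.fl (by omega)
  -- a central element
  obtain ⟨z, hzT, hz1, hzc⟩ : ∃ z ∈ T, z ≠ 1 ∧ ∀ u ∈ U hb, u * z = z * u := by
    have hnorm : (T.subgroupOf (U hb)).Normal := by
      refine ⟨fun x hx u => ?_⟩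
      exact hcl x.1 hx u.1 ((U hb).mul_mem ((U hb).mul_mem u.2 x.2) ((U hb).inv_mem u.2))
    have hne' : T.subgroupOf (U hb) ≠ ⊥ := by
      intro h
      rw [Subgroup.subgroupOf_eq_bot, disjoint_iff, inf_eq_left.2 hT] at h
      exact hne h
    have h2 := Cfsg.Agent.Lib.Helper58.normal_inf_center_ne_bot (isPGroup_U hb p)
      (T.subgroupOf (U hb)) hne'
    obtain ⟨⟨z, hz⟩, hz1⟩ := (Subgroup.ne_bot_iff_exists_ne_one).1 h2
    refine ⟨z.1, hz.1, fun h => hz1 (Subtype.ext (Subtype.ext h)), fun u hu => ?_⟩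
    have h3 := (Subgroup.mem_center_iff.1 hz.2) ⟨u, hu⟩
    exact congrArg Subtype.val h3
  have hzX : z ∈ X q a := Cfsg.Agent.Lib.Helper50.AutPSUB.mem_X_of_commute hF ⟨hane, haa⟩
    (by rw [ha]; exact U_fix_zero hb (hT hzT) h0) (fun s hs => hzc s (hQU hs))
  obtain ⟨c, hc, hz⟩ := (mem_X_iff hF hp z).1 hzX
  have hcq : c ^ q = -c := by linear_combination hc
  have hc0 : c ≠ 0 := by
    rintro rfl
    apply hz1
    apply Cfsg.Agent.Lib.Helper50.AutPSUGeom.su_ext'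
    intro x
    rw [hz, mt_one, one_mulVec]
    simp
  -- all transvections of `U` lie in `T`
  have hX : ∀ v : Fin n → F, v ≠ 0 → ⟪v, v⟫ = 0 → ∀ (g : ↥(Cfsg.SU n F q)) (l : F), l + l ^ q = 0 →
      (∀ x, mt g *ᵥ x = x + (l * ⟪x, v⟫) • v) → g ∈ U hb → g ∈ T := by
    intro v hv hvv g l hl hg hgU
    by_cases hl0 : l = 0
    · have : g = 1 := by
        apply Cfsg.Agent.Lib.Helper50.AutPSUGeom.su_ext'
        intro x
        rw [hg, hl0, mt_one, one_mulVec]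
        simp
      rw [this]
      exact T.one_mem
    have hlq : l ^ q = -l := by linear_combination hl
    obtain ⟨lam, hlam⟩ := exists_norm_eq hF (l / c) (div_ne_zero hl0 hc0) (by
      rw [div_pow, hlq, hcq, neg_div_neg_eq])
    have hlam0 : lam ≠ 0 := by
      rintro rfl
      rw [zero_pow (by omega)] at hlam
      exact div_ne_zero hl0 hc0 hlam.symm
    obtain ⟨A, hA⟩ := su_trans_isotropic hF n (by omega) a (lam • v) hane
      (smul_ne_zero hlam0 hv) haa (by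
        rw [hermForm_smul_left, hermForm_smul_right, hvv, mul_zero, mul_zero])
    have hA' : mt A *ᵥ a = lam • v := hA
    have hconj : A * z * A⁻¹ = g := by
      apply Cfsg.Agent.Lib.Helper50.AutPSUGeom.su_ext'
      intro x
      rw [mt_mul_mulVec, mt_mul_mulVec, hz, Cfsg.Agent.Lib.Helper50.AutPSUGeom.herm_inv_left,
        mulVec_add, mulVec_smul, mt_mulVec_inv, hA', hg, hermForm_smul_right, smul_smul]
      congr 2
      have : lam ^ q * lam = l / c := by rw [← pow_succ, hlam]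
      have h2 : c * (lam ^ q * lam) = l := by rw [this]; field_simp
      linear_combination ⟪x, v⟫ * h2
    rw [← hconj]
    exact hcl z hzT A (by rw [hconj]; exact hgU)
  -- Siegel elements with an isotropic vector of the flag
  have hS1 : ∀ lam : F, ∃ g ∈ T, IsSg a ((c * lam) • a1) c g := by
    intro lam
    have hvv : ⟪a + lam • a1, a + lam • a1⟫ = 0 := by
      simp only [hermForm_add_left, hermForm_add_right hF, hermForm_smul_left, hermForm_smul_right,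
        haa, ha1a, haa1, ha1a1]
      ring
    have hvne : a + lam • a1 ≠ 0 := by
      intro h
      have h2 : ⟪a + lam • a1, d⟫ = 1 := by
        rw [hermForm_add_left, hermForm_smul_left, had, ha1d]; ring
      rw [h, hermForm_zero_left] at h2
      exact zero_ne_one h2
    obtain ⟨t1, -, ht1⟩ := exists_X hF hvv c hc
    obtain ⟨t2, -, ht2⟩ := exists_X hF ha1a1 (-(c * lam * lam ^ q)) (by
      rw [neg_pow_q hF, mul_pow, mul_pow, pow_q_pow_q hF, hcq]; ring)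
    have ht1T : t1 ∈ T := hX _ hvne hvv t1 c hc ht1
      (tv_mem_U hF hb hn (hfla.add (hfla1.smul lam)) ht1)
    have ht2T : t2 ∈ T := hX _ ha1ne ha1a1 t2 _ (by
      rw [neg_pow_q hF, mul_pow, mul_pow, pow_q_pow_q hF, hcq]; ring) ht2
      (tv_mem_U hF hb hn hfla1 ht2)
    refine ⟨t1 * t2, T.mul_mem ht1T ht2T, fun x => ?_⟩
    rw [mt_mul_mulVec, ht2, ht1]
    simp only [hermForm_add_left, hermForm_add_right hF, hermForm_smul_left, hermForm_smul_right,
      haa, ha1a, haa1, ha1a1, mul_pow, hcq]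
    module
  -- Siegel elements with an arbitrary isotropic vector
  have hS2 : ∀ y : Fin n → F, ⟪y, a⟫ = 0 → ⟪y, d⟫ = 0 → ⟪y, y⟫ = 0 →
      ∃ g ∈ T, ∃ k : F, IsSg a y k g := by
    intro y hya hyd hyy
    by_cases hy0 : y = 0
    · exact ⟨1, T.one_mem, 0, by rw [hy0]; exact isSg_one hF a⟩
    obtain ⟨A, hAP, hA⟩ := Cfsg.Agent.Lib.Helper50.AutPSUC.levi_trans hF haa hdd had hda ha1a ha1d
      hya hyd ha1ne hy0 (by rw [hyy, ha1a1])
    obtain ⟨cA, hcA⟩ := hAP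
    have hcA0 : (cA : F) ≠ 0 := cA.ne_zero
    obtain ⟨g₀, hg₀T, hg₀⟩ := hS1 ((c * (cA : F) ^ q)⁻¹)
    have h2 := (hg₀.conj A)
    rw [hcA, mulVec_smul, hA] at h2
    have h3 := h2.smul_center hF
    have h4 : (cA : F) ^ q • (c * (c * (cA : F) ^ q)⁻¹) • y = y := by
      rw [smul_smul]
      have : (cA : F) ^ q * (c * (c * (cA : F) ^ q)⁻¹) = 1 := by
        have := pow_ne_zero q hcA0
        field_simp
      rw [this, one_smul]
    rw [h4] at h3
    exact ⟨A * g₀ * A⁻¹, hcl g₀ hg₀T A (hQU (h3.mem_Q hF haa hya)), _, h3⟩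
  -- all Siegel elements with centre `a`
  have hS3 : ∀ w : Fin n → F, ⟪w, a⟫ = 0 → ⟪w, d⟫ = 0 → ∃ g ∈ T, ∃ k : F, IsSg a w k g := by
    intro w hwa hwd
    obtain ⟨w', hw'⟩ : ∃ w', w' = w - ⟪w, d1⟫ • a1 - ⟪w, a1⟫ • d1 := ⟨_, rfl⟩
    have hw'a : ⟪w', a⟫ = 0 := by
      rw [hw']
      simp only [hermForm_sub_left, hermForm_smul_left, hwa, ha1a, hd1a]
      ring
    have hw'd : ⟪w', d⟫ = 0 := by
      rw [hw']
      simp only [hermForm_sub_left, hermForm_smul_left, hwd, ha1d, hd1d]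
      ring
    have hw'a1 : ⟪w', a1⟫ = 0 := by
      rw [hw']
      simp only [hermForm_sub_left, hermForm_smul_left, ha1a1, hd1a1]
      ring
    have hw'd1 : ⟪w', d1⟫ = 0 := by
      rw [hw']
      simp only [hermForm_sub_left, hermForm_smul_left, ha1d1, hd1d1]
      ring
    obtain ⟨s, hs⟩ := exists_trace_eq hF (-⟪w', w'⟫) (by rw [neg_pow_q hF, hermForm_conj hF])
    obtain ⟨g1, hg1T, k1, hg1⟩ := hS2 (w' + s • a1 + d1)
      (by simp only [hermForm_add_left, hermForm_smul_left, hw'a, ha1a, hd1a]; ring)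
      (by simp only [hermForm_add_left, hermForm_smul_left, hw'd, ha1d, hd1d]; ring)
      (by
        simp only [hermForm_add_left, hermForm_add_right hF, hermForm_smul_left,
          hermForm_smul_right, hw'a1, hw'd1, hermForm_eq_zero_comm hF hw'a1,
          hermForm_eq_zero_comm hF hw'd1, ha1a1, hd1d1, ha1d1, hd1a1]
        linear_combination hs)
    obtain ⟨g2, hg2T, k2, hg2⟩ := hS2 ((⟪w, d1⟫ - s) • a1)
      (by rw [hermForm_smul_left, ha1a, mul_zero]) (by rw [hermForm_smul_left, ha1d, mul_zero])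
      (by rw [hermForm_smul_left, hermForm_smul_right, ha1a1, mul_zero, mul_zero])
    obtain ⟨g3, hg3T, k3, hg3⟩ := hS2 ((⟪w, a1⟫ - 1) • d1)
      (by rw [hermForm_smul_left, hd1a, mul_zero]) (by rw [hermForm_smul_left, hd1d, mul_zero])
      (by rw [hermForm_smul_left, hermForm_smul_right, hd1d1, mul_zero, mul_zero])
    have h12 := hg1.mul hF haa
      (by simp only [hermForm_add_left, hermForm_smul_left, hw'a, ha1a, hd1a]; ring)
      (by rw [hermForm_smul_left, ha1a, mul_zero]) hg2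
    have h123 := h12.mul hF haa
      (by simp only [hermForm_add_left, hermForm_smul_left, hw'a, ha1a, hd1a]; ring)
      (by rw [hermForm_smul_left, hd1a, mul_zero]) hg3
    have hsum : w' + s • a1 + d1 + (⟪w, d1⟫ - s) • a1 + (⟪w, a1⟫ - 1) • d1 = w := by
      rw [hw']; module
    rw [hsum] at h123
    exact ⟨g1 * g2 * g3, T.mul_mem (T.mul_mem hg1T hg2T) hg3T, _, h123⟩
  have hQT : Q q a ≤ T := by
    intro g hg
    have h2 := isSg_of_mem_Q hF hp hg
    obtain ⟨g', hg'T, k', hg'⟩ := hS3 _ (wc_a hF hp hg) (wc_b hp g)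
    have h3 : g'⁻¹ * g ∈ X q a := by
      intro v hv
      rw [mt_mul_mulVec, h2 v, hv, zero_smul]
      have h4 := hg' v
      rw [hv, zero_smul] at h4
      rw [← h4, mt_inv_mulVec]
    obtain ⟨l, hl, h4⟩ := (mem_X_iff hF hp _).1 h3
    have h5 : g'⁻¹ * g ∈ T := hX a hane haa _ l hl h4
      ((U hb).mul_mem ((U hb).inv_mem (hT hg'T)) (hQU hg))
    have : g = g' * (g'⁻¹ * g) := by rw [mul_inv_cancel_left]
    rw [this]
    exact T.mul_mem hg'T h5
  refine le_antisymm hT (U_le_of_Q_mem hF hb T (fun i hi g hg hgU => ?_))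
  obtain ⟨A, hA⟩ := su_trans_isotropic hF n (by omega) (b i) a (hb.ne_zero i) hane
    (hb.iso (ne_of_lt hi)) haa
  have hA' : mt A *ᵥ b i = a := hA
  have h2 : A * g * A⁻¹ ∈ T := by
    apply hQT
    have := Cfsg.Agent.Lib.Helper50.AutPSUGeom.conj_mem_Q A hg
    rwa [hA'] at this
  have h3 : A⁻¹ * (A * g * A⁻¹) * A⁻¹⁻¹ = g := by group
  have h4 := hcl _ h2 A⁻¹ (by rw [h3]; exact hgU)
  rwa [h3] at h4

end Cfsg.Agent.Lib.Helper89.SUF
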