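import Cfsg.Agent.Lib.Helper89.SpNorm
import Cfsg.Agent.Lib.Helper89.SimpleGen
import Cfsg.Agent.Lib.Helper88.Invariant

/-!
# The generation hypothesis for `U ≤ Sp_{2m}(F)`
-/

set_option autoImplicit false
set_option linter.unusedSimpArgs false
set_option linter.unusedSectionVars false

namespace Cfsg.Agent.Lib.Helper89.SpF

open Matrix Cfsg.Agent.Lib.Helper18.AutPSp Cfsg.Agent.Lib.Helper17 Cfsg.Agent.Lib.Helper87

variable {F : Type*} [Field F] {m : ℕ} [Finite F]

local notation "Mt" => Matrix (Fin m ⊕ Fin m) (Fin m ⊕ Fin m) F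

theorem tor_coe_apply (i : Fin m) (μ : F) (hμ : μ ≠ 0) (a c : Fin m ⊕ Fin m) :
    (tor i μ hμ : Mt) a c =
      (if a = Sum.inl i then μ else if a = Sum.inr i then μ⁻¹ else 1) * (1 : Mt) a c := by
  rw [← ac_single, ac_tor_apply, Matrix.one_apply, Pi.single_apply]

theorem tri_tor (i : Fin m) (μ : F) (hμ : μ ≠ 0) : Tri (tor i μ hμ) := by
  intro a c hac
  rw [tor_coe_apply, Matrix.one_apply_ne, mul_zero]
  rintro rfl
  exact lt_irrefl _ hac

theorem gen_U (p : ℕ) [Fact p.Prime] [CharP F p] (hm : 2 ≤ m) :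
    Subgroup.normalizer (U m F : Set (Sp m F)) ≤
      Subgroup.closure (pGenSet p (Subgroup.center (Sp m F)) (U m F)) := by
  obtain ⟨i0, h0⟩ : ∃ i : Fin m, i.val = 0 := ⟨⟨0, by omega⟩, rfl⟩
  obtain ⟨i1, h1⟩ : ∃ i : Fin m, i.val = 1 := ⟨⟨1, by omega⟩, rfl⟩
  have hne01 : i0 ≠ i1 := fun h => by rw [h] at h0; omega
  set C := Subgroup.closure (pGenSet p (Subgroup.center (Sp m F)) (U m F)) with hC
  have hUN1 : U m F ≤ Subgroup.normalizer (R1 (eb i0 : V m F) : Set (Sp m F)) :=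
    fun u hu => mem_normalizer_R1 (U_fix_eb h0 hu)
  have hUNQ : U m F ≤ Subgroup.normalizer (QS m F : Set (Sp m F)) :=
    fun u hu => mem_normalizer_QS (U_pres_E hu)
  have hU : U m F ≤ C := by
    intro u hu
    refine Subgroup.subset_closure ⟨Subgroup.le_normalizer hu, R1 (eb i0), R1_le_U h0, hUN1,
      centralizer_R1_le p (by omega) (eb_ne_zero i0), ?_⟩
    exact Subgroup.subset_closure ⟨hUN1 hu, exists_pow_of_isPGroup (isPGroup_U p) hu⟩
  have htor : ∀ (i : Fin m) (hi : i ≠ i0) (μ : F) (hμ : μ ≠ 0), tor i μ hμ ∈ C := by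
    intro i hi μ hμ
    refine Subgroup.subset_closure ⟨tor_mem_normalizer_U i μ hμ, R1 (eb i0), R1_le_U h0, hUN1,
      centralizer_R1_le p (by omega) (eb_ne_zero i0), ?_⟩
    have ht1 : ∀ c : F, tv (eb i) c ∈ Subgroup.closure
        {x : Sp m F | x ∈ Subgroup.normalizer (R1 (eb i0 : V m F) : Set (Sp m F)) ∧
          ∃ k : ℕ, x ^ p ^ k = 1} := fun c =>
      Subgroup.subset_closure ⟨mem_normalizer_R1 (by
        rw [ac_tv, B_eb_eb, mul_zero, zero_smul, add_zero]),
        ⟨1, by rw [pow_one, tv_pow_char p]⟩⟩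
    have ht2 : ∀ c : F, tv (fb i) c ∈ Subgroup.closure
        {x : Sp m F | x ∈ Subgroup.normalizer (R1 (eb i0 : V m F) : Set (Sp m F)) ∧
          ∃ k : ℕ, x ^ p ^ k = 1} := fun c =>
      Subgroup.subset_closure ⟨mem_normalizer_R1 (by
        rw [ac_tv, B_eb_fb_ne hi.symm, mul_zero, zero_smul, add_zero]),
        ⟨1, by rw [pow_one, tv_pow_char p]⟩⟩
    rw [tor_eq_prod]
    exact Subgroup.mul_mem _ (Subgroup.mul_mem _ (Subgroup.mul_mem _ (Subgroup.mul_mem _
      (Subgroup.mul_mem _ (ht1 _) (ht2 _)) (ht1 _)) (ht1 _)) (ht2 _)) (ht1 _)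
  have htor2 : ∀ (μ : F) (hμ : μ ≠ 0), tor i0 μ hμ * tor i1 μ⁻¹ (inv_ne_zero hμ) ∈ C := by
    intro μ hμ
    refine Subgroup.subset_closure ⟨Subgroup.mul_mem _ (tor_mem_normalizer_U i0 μ hμ)
      (tor_mem_normalizer_U i1 μ⁻¹ (inv_ne_zero hμ)), QS m F, QS_le_U, hUNQ,
      centralizer_QS_le hm, ?_⟩
    have ht1 : ∀ c : F, xl i0 i1 c ∈ Subgroup.closure
        {x : Sp m F | x ∈ Subgroup.normalizer (QS m F : Set (Sp m F)) ∧
          ∃ k : ℕ, x ^ p ^ k = 1} := fun c =>
      Subgroup.subset_closure ⟨mem_normalizer_QS (xl_pres_E hne01 c), xl_pElement p hne01 c⟩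
    have ht2 : ∀ c : F, xl i1 i0 c ∈ Subgroup.closure
        {x : Sp m F | x ∈ Subgroup.normalizer (QS m F : Set (Sp m F)) ∧
          ∃ k : ℕ, x ^ p ^ k = 1} := fun c =>
      Subgroup.subset_closure ⟨mem_normalizer_QS (xl_pres_E hne01.symm c),
        xl_pElement p hne01.symm c⟩
    rw [tor_mul_tor_eq_prod hne01]
    exact Subgroup.mul_mem _ (Subgroup.mul_mem _ (Subgroup.mul_mem _ (Subgroup.mul_mem _
      (Subgroup.mul_mem _ (ht1 _) (ht2 _)) (ht1 _)) (ht1 _)) (ht2 _)) (ht1 _)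
  have htor' : ∀ (i : Fin m) (μ : F) (hμ : μ ≠ 0), tor i μ hμ ∈ C := by
    intro i μ hμ
    by_cases hi : i = i0
    · subst hi
      have h2 : tor i μ hμ = (tor i μ hμ * tor i1 μ⁻¹ (inv_ne_zero hμ)) *
          (tor i1 μ⁻¹ (inv_ne_zero hμ))⁻¹ := by rw [mul_inv_cancel_right]
      rw [h2]
      exact C.mul_mem (htor2 μ hμ) (C.inv_mem (htor i1 hne01.symm _ _))
    · exact htor i hi μ hμ
  have key : ∀ k : ℕ, k ≤ m → ∀ g : Sp m F, Tri g →
      (∀ i : Fin m, k ≤ i.val → (g : Mt) (Sum.inl i) (Sum.inl i) = 1) → g ∈ C := by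
    intro k
    induction k with
    | zero =>
      intro _ g hg hd
      refine hU (mem_U_of_tri hg (fun a => ?_))
      rcases a with i | i
      · exact hd i (Nat.zero_le _)
      · have := tri_diag_mul hg i
        rwa [hd i (Nat.zero_le _), one_mul] at this
    | succ k ih =>
      intro hk g hg hd
      set kk : Fin m := ⟨k, by omega⟩ with hkk
      have hne : (g : Mt) (Sum.inl kk) (Sum.inl kk) ≠ 0 := by
        intro h
        have := tri_diag_mul hg kk
        rw [h, zero_mul] at this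
        exact zero_ne_one this
      have h2 := tri_mul (tri_tor kk _ (inv_ne_zero hne)) hg
      have h3 : tor kk _ (inv_ne_zero hne) * g ∈ C := by
        refine ih (by omega) _ h2.1 (fun i hi => ?_)
        rw [h2.2, tor_coe_apply, Matrix.one_apply_eq, mul_one]
        by_cases hik : i = kk
        · subst hik
          rw [if_pos rfl, inv_mul_cancel₀ hne]
        · have hik' : i.val ≠ k := fun h => hik (Fin.ext h)
          rw [if_neg (by simpa using hik), if_neg (by simp), one_mul]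
          exact hd i (by omega)
      have h4 : g = (tor kk _ (inv_ne_zero hne))⁻¹ * (tor kk _ (inv_ne_zero hne) * g) := by
        rw [inv_mul_cancel_left]
      rw [h4]
      exact C.mul_mem (C.inv_mem (htor' _ _ _)) h3
  intro g hg
  exact key m le_rfl g (tri_of_mem_normalizer hg) (fun i hi => absurd i.2 (by omega))

theorem genHyp_U (p : ℕ) [Fact p.Prime] [CharP F p] (hm : 2 ≤ m) (hex : m = 2 → 3 ≤ Nat.card F) :
    GenHyp p (Subgroup.center (Sp m F)) (U m F) := by
  refine ⟨?_, fun T hT hne hcl => closed_U p hm hex T hT hne hcl, gen_U p hm⟩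
  intro h
  have h1 := tv_eb_mem_U (⟨0, by omega⟩ : Fin m) (1 : F)
  rw [h, Subgroup.mem_bot, tv_eq_one_iff] at h1
  rcases h1 with h1 | h1
  · exact eb_ne_zero _ h1
  · exact one_ne_zero h1

/-- A `p`-subgroup containing all `p`-elements of its normalizer is a Sylow subgroup. -/
theorem exists_sylow_eq_of_pElement {G : Type*} [Group G] [Finite G] {p : ℕ} [Fact p.Prime]
    {P : Subgroup G} (hP : IsPGroup p P)
    (h : ∀ g ∈ Subgroup.normalizer (P : Set G), (∃ k : ℕ, g ^ p ^ k = 1) → g ∈ P) :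
    ∃ S : Sylow p G, (S : Subgroup G) = P := by
  obtain ⟨S, hS⟩ := hP.exists_le_sylow
  refine ⟨S, ?_⟩
  by_contra hne
  obtain ⟨x, hx, hxP⟩ := Cfsg.Agent.Lib.Helper88.exists_mem_normalizerIn_not_mem S.2 hS
    (fun h' => hne h'.symm)
  exact hxP (h x hx.2 (exists_pow_of_isPGroup S.2 hx.1))

theorem exists_sylow_U (p : ℕ) [Fact p.Prime] [CharP F p] :
    ∃ S : Sylow p (Sp m F), (S : Subgroup (Sp m F)) = U m F :=
  haveI : Finite (Sp m F) := finite_Sp
  exists_sylow_eq_of_pElement (isPGroup_U p) (fun _ hg hp => pElement_normalizer_mem_U p hg hp)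

end Cfsg.Agent.Lib.Helper89.SpF
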