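import Cfsg.Agent.Lib.Helper89.SUTorus
import Cfsg.Agent.Lib.Helper89.SpGen

/-!
# The generation hypothesis for `U ≤ SU_n(q)`, `n ≥ 4`
-/

set_option autoImplicit false
set_option linter.unusedSimpArgs false
set_option linter.unusedSectionVars false
set_option linter.unusedVariables false

namespace Cfsg.Agent.Lib.Helper89.SUF

open Matrix Cfsg.Agent.Lib.Helper17 Cfsg.Agent.Lib.Helper99.AutPSU Cfsg.Agent.Lib.Helper87

variable {F : Type*} [Field F] [Fintype F] {n q : ℕ}

local notation "⟪" x ", " y "⟫" => Cfsg.hermForm n F q x y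

variable {b : Fin n → Fin n → F}

theorem term_eq (hb : WB q b) (m i : Fin n) (c : F) :
    (c * ⟪b m, b (Fin.rev i)⟫) • b i = (if m = i then c else 0) • b m := by
  by_cases h : m = i
  · subst h
    rw [hb.self_rev, mul_one, if_pos rfl]
  · rw [hb.ne (fun h' => h (Fin.rev_injective h').symm), mul_zero, zero_smul, if_neg h, zero_smul]

theorem term_eq' (hb : WB q b) (m i : Fin n) (c : F) :
    (c * ⟪b m, b i⟫) • b (Fin.rev i) = (if m = Fin.rev i then c else 0) • b m := by
  have := term_eq hb m (Fin.rev i) c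
  rwa [Fin.rev_rev] at this

theorem IsDg.ne_zero (hF : Fintype.card F = q ^ 2) (hb : WB q b) {g : ↥(Cfsg.SU n F q)}
    {δ : Fin n → F} (h : IsDg b g δ) (m : Fin n) : δ m ≠ 0 := by
  intro h0
  have := tri_diag_mul hF hb (h.tri hb) m
  rw [h.dg hb, h0, zero_mul] at this
  exact zero_ne_one this

theorem exists_h_b (hF : Fintype.card F = q ^ 2) (hb : WB q b) {i j : Fin n} (hij : i.val ≠ j.val)
    (hirj : i.val + j.val + 1 ≠ n) (hi : 2 * i.val + 1 ≠ n) (hj : 2 * j.val + 1 ≠ n) {μ : F}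
    (hμ : μ ≠ 0) (H : Subgroup ↥(Cfsg.SU n F q))
    (hH1 : ∀ (t : F) (g : ↥(Cfsg.SU n F q)), IsSg (b i) (t • b (Fin.rev j)) 0 g → g ∈ H)
    (hH2 : ∀ (t : F) (g : ↥(Cfsg.SU n F q)), IsSg (b j) (t • b (Fin.rev i)) 0 g → g ∈ H) :
    ∃ g ∈ H, ∃ δ : Fin n → F, IsDg b g δ ∧ δ i = μ ∧
      ∀ m : Fin n, m ≠ i → m ≠ j → m ≠ Fin.rev i → m ≠ Fin.rev j → δ m = 1 := by
  have hri := Fin.val_rev i
  have hrj := Fin.val_rev j
  have hi2 := i.2
  have hj2 := j.2
  have hh : Hyp2 (q := q) (b i) (b (Fin.rev i)) (b j) (b (Fin.rev j)) :=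
    ⟨hb.zero_of (by omega), hb.one_of (by omega), hb.zero_of (by omega), hb.zero_of (by omega),
      hb.one_of (by omega), hb.zero_of (by omega), hb.zero_of (by omega), hb.zero_of (by omega),
      hb.zero_of (by omega), hb.zero_of (by omega), hb.zero_of (by omega), hb.one_of (by omega),
      hb.zero_of (by omega), hb.zero_of (by omega), hb.one_of (by omega), hb.zero_of (by omega)⟩
  obtain ⟨g, hgH, hg⟩ := exists_h hF hh hμ H hH1 hH2
  refine ⟨g, hgH, fun m => 1 + (if m = i then μ - 1 else 0) + (if m = j then μ⁻¹ - 1 else 0) +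
    (if m = Fin.rev i then (μ ^ q)⁻¹ - 1 else 0) + (if m = Fin.rev j then μ ^ q - 1 else 0),
    fun m => ?_, ?_, fun m h1 h2 h3 h4 => ?_⟩
  · rw [hg, term_eq hb, term_eq hb, term_eq' hb, term_eq' hb]
    module
  · have h1 : i ≠ j := fun h => hij (by rw [h])
    have h2 : i ≠ Fin.rev i := fun h => by
      have : i.val = (Fin.rev i).val := by rw [← h]
      omega
    have h3 : i ≠ Fin.rev j := fun h => by
      have : i.val = (Fin.rev j).val := by rw [← h]
      omega
    simp only [if_true, if_neg h1, if_neg h2, if_neg h3]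
    ring
  · simp only [if_neg h1, if_neg h2, if_neg h3, if_neg h4]
    ring

theorem exists_D_b (hF : Fintype.card F = q ^ 2) (hb : WB q b) {i t : Fin n}
    (hi : 2 * i.val + 1 ≠ n) (hti : t.val ≠ i.val) (htri : t.val + i.val + 1 ≠ n) {α β κ : F}
    (hβ : β ≠ 0) (hk : β + β ^ q + α * α ^ q * ⟪b t, b t⟫ = 0) (ht : α = 0 ∨ t = Fin.rev t)
    (hκ0 : κ ≠ 0) (hκ : κ ^ q = -κ) (H : Subgroup ↥(Cfsg.SU n F q))
    (hHc : ∀ (s k : F) (g : ↥(Cfsg.SU n F q)), IsSg (b i) (s • b t) k g → g ∈ H)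
    (hHd : ∀ (s k : F) (g : ↥(Cfsg.SU n F q)), IsSg (b (Fin.rev i)) (s • b t) k g → g ∈ H) :
    ∃ g ∈ H, ∃ δ : Fin n → F, IsDg b g δ ∧ δ i = β * κ⁻¹ ∧
      ∀ m : Fin n, m ≠ i → m ≠ Fin.rev i → (m ≠ t ∨ α = 0) → δ m = 1 := by
  have hri := Fin.val_rev i
  have hi2 := i.2
  have ht2 := t.2
  obtain ⟨g, hgH, hg⟩ := exists_D hF (c := b i) (d := b (Fin.rev i)) (y := α • b t) (β := β)
    (κ := κ) (hb.zero_of (by omega)) (hb.zero_of (by omega)) (hb.one_of (by omega))
    (hb.one_of (by omega)) (by rw [hermForm_smul_left, hb.zero_of (by omega), mul_zero])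
    (by rw [hermForm_smul_left, hb.zero_of (by omega), mul_zero]) hβ
    (by rw [hermForm_smul_left, hermForm_smul_right]; linear_combination hk) hκ0 hκ H
    (fun s k g h => hHc (s * α) k g (by rwa [smul_smul] at h))
    (fun s k g h => hHd (s * α) k g (by rwa [smul_smul] at h))
  refine ⟨g, hgH, fun m => 1 + (if m = i then β * κ⁻¹ - 1 else 0) +
    (if m = Fin.rev i then -κ * (β ^ q)⁻¹ - 1 else 0) + (if m = t then β⁻¹ * α ^ q * α else 0),
    fun m => ?_, ?_, fun m h1 h2 h3 => ?_⟩
  · have h3 : (β⁻¹ * ⟪b m, α • b t⟫) • α • b t = (if m = t then β⁻¹ * α ^ q * α else 0) • b m := by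
      rcases ht with h | h
      · rw [h]
        simp
      · have h4 := term_eq hb m t (β⁻¹ * α ^ q * α)
        rw [← h] at h4
        rw [← h4, hermForm_smul_right, smul_smul]
        congr 1
        ring
    rw [hg, term_eq hb, term_eq' hb, h3]
    module
  · have h2 : i ≠ Fin.rev i := fun h => by
      have : i.val = (Fin.rev i).val := by rw [← h]
      omega
    have h3 : i ≠ t := fun h => hti (by rw [h])
    simp only [if_true, if_neg h2, if_neg h3]
    ring
  · rcases h3 with h3 | h3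
    · simp only [if_neg h1, if_neg h2, if_neg h3]
      ring
    · simp only [if_neg h1, if_neg h2, h3]
      simp

theorem fl_one (hb : WB q b) {i0 : Fin n} (h0 : i0.val = 0) {e : Fin n → F} (he : Fl q b 1 e) :
    e = ⟪e, b (Fin.rev i0)⟫ • b i0 := by
  conv_lhs => rw [hb.expand e]
  rw [Finset.sum_eq_single i0]
  · intro j _ hj
    have : j.val ≠ 0 := fun h => hj (Fin.ext (by omega))
    rw [he j (by omega), zero_smul]
  · intro h
    exact absurd (Finset.mem_univ i0) h

/-- a triangular element whose first diagonal entries are trivial is unitriangular -/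
theorem mem_U_of_tri_half (hF : Fintype.card F = q ^ 2) (hb : WB q b) {g : ↥(Cfsg.SU n F q)}
    (h : Tri hb g) (hd : ∀ m : Fin n, 2 * (m.val + 1) ≤ n → dg hb g m = 1) : g ∈ U hb := by
  have h2 : ∀ m : Fin n, 2 * ((Fin.rev m).val + 1) ≤ n → dg hb g m = 1 := by
    intro m hm
    have := tri_diag_mul hF hb h m
    rwa [hd _ hm, one_pow, mul_one] at this
  refine mem_U_of_tri hb h (fun m => ?_)
  by_cases h3 : 2 * (m.val + 1) ≤ n
  · exact hd m h3
  by_cases h4 : 2 * ((Fin.rev m).val + 1) ≤ n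
  · exact h2 m h4
  have hrm := Fin.val_rev m
  have hm2 := m.2
  have h5 := tri_prod_dg hb h
  rw [Finset.prod_eq_single m] at h5
  · exact h5
  · intro m' _ hne
    have hrm' := Fin.val_rev m'
    have hm2' := m'.2
    have hne' : m'.val ≠ m.val := fun h => hne (Fin.ext h)
    by_cases h6 : 2 * (m'.val + 1) ≤ n
    · exact hd m' h6
    · exact h2 m' (by omega)
  · intro hh
    exact absurd (Finset.mem_univ m) hh

theorem gen_U (hF : Fintype.card F = q ^ 2) (hb : WB q b) (p : ℕ) [Fact p.Prime] [CharP F p]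
    (hn : 4 ≤ n) : Subgroup.normalizer (U hb : Set ↥(Cfsg.SU n F q)) ≤
      Subgroup.closure (pGenSet p (Subgroup.center ↥(Cfsg.SU n F q)) (U hb)) := by
  have hq0 := q_ne_zero hF
  obtain ⟨i0, h0⟩ : ∃ i : Fin n, i.val = 0 := ⟨⟨0, by omega⟩, rfl⟩
  obtain ⟨i1, h1⟩ : ∃ i : Fin n, i.val = 1 := ⟨⟨1, by omega⟩, rfl⟩
  obtain ⟨L, hL⟩ : ∃ i : Fin n, i.val = n / 2 - 1 := ⟨⟨n / 2 - 1, by omega⟩, rfl⟩
  have hr0 := Fin.val_rev i0
  have hr1 := Fin.val_rev i1
  have hrL := Fin.val_rev L
  set C := Subgroup.closure (pGenSet p (Subgroup.center ↥(Cfsg.SU n F q)) (U hb)) with hC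
  obtain ⟨H1, hH1⟩ : ∃ H : Subgroup ↥(Cfsg.SU n F q), H = Subgroup.closure
    {x : ↥(Cfsg.SU n F q) | x ∈ Subgroup.normalizer (Rad q b 1 : Set ↥(Cfsg.SU n F q)) ∧
      ∃ k : ℕ, x ^ p ^ k = 1} := ⟨_, rfl⟩
  obtain ⟨H2, hH2⟩ : ∃ H : Subgroup ↥(Cfsg.SU n F q), H = Subgroup.closure
    {x : ↥(Cfsg.SU n F q) | x ∈ Subgroup.normalizer (Rad q b 2 : Set ↥(Cfsg.SU n F q)) ∧
      ∃ k : ℕ, x ^ p ^ k = 1} := ⟨_, rfl⟩
  have hC1 : ∀ g ∈ Subgroup.normalizer (U hb : Set ↥(Cfsg.SU n F q)), g ∈ H1 → g ∈ C := by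
    intro g hgN hg
    rw [hH1] at hg
    exact Subgroup.subset_closure ⟨hgN, Rad q b 1, Rad_le_U hF hb (by omega),
      U_le_normalizer_Rad hb 1, centralizer_Rad_le hF hb p le_rfl (by omega), hg⟩
  have hC2 : ∀ g ∈ Subgroup.normalizer (U hb : Set ↥(Cfsg.SU n F q)), g ∈ H2 → g ∈ C := by
    intro g hgN hg
    rw [hH2] at hg
    exact Subgroup.subset_closure ⟨hgN, Rad q b 2, Rad_le_U hF hb (by omega),
      U_le_normalizer_Rad hb 2, centralizer_Rad_le hF hb p (by omega) (by omega), hg⟩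
  have hU : U hb ≤ C := by
    intro u hu
    refine hC1 u (Subgroup.le_normalizer hu) ?_
    rw [hH1]
    exact Subgroup.subset_closure ⟨U_le_normalizer_Rad hb 1 hu,
      exists_pow_of_isPGroup (isPGroup_U hb p) hu⟩
  -- Siegel elements fixing `b 0`
  have sg1 : ∀ (i : Fin n) (w : Fin n → F) (k : F) (g : ↥(Cfsg.SU n F q)), IsSg (b i) w k g →
      2 * i.val + 1 ≠ n → ⟪w, b i⟫ = 0 → i.val + 1 ≠ n → ⟪w, b i0⟫ = 0 → g ∈ H1 := by
    intro i w k g hg hi hwi hin hw0
    rw [hH1]
    refine Subgroup.subset_closure ⟨mem_normalizer_Rad (fun e he => ?_),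
      hg.pElement hF p (hb.ne_zero i) (hb.zero_of (by omega)) hwi⟩
    have hfix : mt g *ᵥ b i0 = b i0 := by
      rw [hg, hb.zero_of (by omega), hermForm_eq_zero_comm hF hw0]
      simp
    rw [fl_one hb h0 he, mulVec_smul, hfix]
    exact (hb.fl (by omega)).smul _
  -- the Levi root elements for the first two basis vectors
  have sg2 : ∀ (i j : Fin n) (t : F) (g : ↥(Cfsg.SU n F q)), IsSg (b i) (t • b (Fin.rev j)) 0 g →
      i.val < 2 → j.val < 2 → i.val ≠ j.val → g ∈ H2 := by
    intro i j t g hg hi hj hij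
    have hrj := Fin.val_rev j
    rw [hH2]
    refine Subgroup.subset_closure ⟨mem_normalizer_Rad (fun e he => ?_),
      hg.pElement hF p (hb.ne_zero i) (hb.zero_of (by omega))
        (by rw [hermForm_smul_left, hb.zero_of (by omega), mul_zero])⟩
    rw [hg, he.perp_of (j := i) (by omega), zero_smul, add_zero]
    exact he.add ((hb.fl hi).smul _)
  obtain ⟨κ, hκ0, hκ⟩ := exists_trace_zero hF
  -- base of the induction
  have base : ∀ g : ↥(Cfsg.SU n F q), Tri hb g → (∀ m : Fin n, m.val < L.val → dg hb g m = 1) →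
      g ∈ C := by
    intro g hg hd
    obtain ⟨μ, hμ⟩ : ∃ μ, μ = dg hb g L := ⟨_, rfl⟩
    have hμ0 : μ ≠ 0 := by
      intro h
      have := tri_diag_mul hF hb hg L
      rw [← hμ, h, zero_mul] at this
      exact zero_ne_one this
    have hβ0 : μ⁻¹ * κ ≠ 0 := mul_ne_zero (inv_ne_zero hμ0) hκ0
    obtain ⟨D, hDH, δ, hDδ, hδL, hδ⟩ : ∃ D ∈ H1, ∃ δ : Fin n → F, IsDg b D δ ∧ δ L = μ⁻¹ ∧
        ∀ m : Fin n, m.val < L.val → δ m = 1 := by
      by_cases hpar : 2 * (L.val + 1) = n
      · -- even dimension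
        have hμq : μ ^ q = μ := by
          have h2 := tri_prod_dg hb hg
          have hne : L ≠ Fin.rev L := fun h => by
            have : L.val = (Fin.rev L).val := by rw [← h]
            omega
          rw [Finset.prod_eq_mul L (Fin.rev L) hne (fun m _ hm => ?_)
            (fun h => absurd (Finset.mem_univ _) h) (fun h => absurd (Finset.mem_univ _) h)] at h2
          · have h3 := tri_diag_mul hF hb hg L
            rw [← hμ] at h2 h3
            have h4 : dg hb g (Fin.rev L) = μ⁻¹ := eq_inv_of_mul_eq_one_right h2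
            rw [h4, inv_pow] at h3
            have h5 : μ = μ ^ q := by
              have := pow_ne_zero q hμ0
              field_simp at h3
              exact h3
            exact h5.symm
          · have hm1 : m.val ≠ L.val := fun h => hm.1 (Fin.ext h)
            have hm2 : m.val ≠ (Fin.rev L).val := fun h => hm.2 (Fin.ext h)
            by_cases hm3 : m.val < L.val
            · exact hd m hm3
            · have hrm := Fin.val_rev m
              have := m.2
              have h6 := tri_diag_mul hF hb hg m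
              rwa [hd (Fin.rev m) (by omega), one_pow, mul_one] at h6
        obtain ⟨D, hDH, δ, hDδ, hδL, hδ⟩ := exists_D_b hF hb (i := L) (t := i0) (α := 0)
          (β := μ⁻¹ * κ) (κ := κ) (by omega) (by omega) (by omega) hβ0 (by
            rw [mul_pow, inv_pow, hμq, hκ]; ring) (Or.inl rfl) hκ0 hκ H1
          (fun s k g hg => sg1 L _ k g hg (by omega)
            (by rw [hermForm_smul_left, hb.zero_of (by omega), mul_zero]) (by omega)
            (by rw [hermForm_smul_left, hb.zero_of (by omega), mul_zero]))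
          (fun s k g hg => sg1 (Fin.rev L) _ k g hg (by omega)
            (by rw [hermForm_smul_left, hb.zero_of (by omega), mul_zero]) (by omega)
            (by rw [hermForm_smul_left, hb.zero_of (by omega), mul_zero]))
        refine ⟨D, hDH, δ, hDδ, by rw [hδL, mul_assoc, mul_inv_cancel₀ hκ0, mul_one],
          fun m hm => hδ m (fun h => by rw [h] at hm; exact lt_irrefl _ hm) (fun h => by
            rw [h] at hm; omega) (Or.inr rfl)⟩
      · -- odd dimension
        obtain ⟨M, hM⟩ : ∃ i : Fin n, i.val = n / 2 := ⟨⟨n / 2, by omega⟩, rfl⟩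
        have hrM := Fin.val_rev M
        have hMM : M = Fin.rev M := Fin.ext (by omega)
        obtain ⟨α, hα⟩ : ∃ α : F, α * α ^ q = -(μ⁻¹ * κ + (μ⁻¹ * κ) ^ q) := by
          by_cases hr : -(μ⁻¹ * κ + (μ⁻¹ * κ) ^ q) = 0
          · exact ⟨0, by rw [hr, zero_mul]⟩
          · obtain ⟨α, hα⟩ := exists_norm_eq hF _ hr (by
              rw [neg_pow_q hF, add_pow_q hF, pow_q_pow_q hF]; ring)
            exact ⟨α, by rw [← hα, pow_succ]; ring⟩
        obtain ⟨D, hDH, δ, hDδ, hδL, hδ⟩ := exists_D_b hF hb (i := L) (t := M) (α := α)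
          (β := μ⁻¹ * κ) (κ := κ) (by omega) (by omega) (by omega) hβ0 (by
            rw [hα, hb.one_of (by omega)]; ring) (Or.inr hMM) hκ0 hκ H1
          (fun s k g hg => sg1 L _ k g hg (by omega)
            (by rw [hermForm_smul_left, hb.zero_of (by omega), mul_zero]) (by omega)
            (by rw [hermForm_smul_left, hb.zero_of (by omega), mul_zero]))
          (fun s k g hg => sg1 (Fin.rev L) _ k g hg (by omega)
            (by rw [hermForm_smul_left, hb.zero_of (by omega), mul_zero]) (by omega)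
            (by rw [hermForm_smul_left, hb.zero_of (by omega), mul_zero]))
        refine ⟨D, hDH, δ, hDδ, by rw [hδL, mul_assoc, mul_inv_cancel₀ hκ0, mul_one],
          fun m hm => hδ m (fun h => by rw [h] at hm; exact lt_irrefl _ hm) (fun h => by
            rw [h] at hm; omega) (Or.inl (fun h => by rw [h] at hm; omega))⟩
    have hDC : D ∈ C := hC1 D (hDδ.mem_normalizer hb (hDδ.ne_zero hF hb)) hDH
    have h2 := tri_mul hb (hDδ.tri hb) hg
    have h3 : D * g ∈ U hb := by
      refine mem_U_of_tri_half hF hb h2.1 (fun m hm => ?_)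
      rw [h2.2, hDδ.dg hb]
      by_cases hmL : m.val < L.val
      · rw [hδ m hmL, hd m hmL, one_mul]
      · have : m = L := Fin.ext (by omega)
        rw [this, hδL, ← hμ, inv_mul_cancel₀ hμ0]
    have h4 : g = D⁻¹ * (D * g) := by rw [inv_mul_cancel_left]
    rw [h4]
    exact C.mul_mem (C.inv_mem hDC) (hU h3)
  -- elimination of the diagonal entries `1, …, L - 1`
  have key : ∀ k : ℕ, k ≤ L.val → ∀ g : ↥(Cfsg.SU n F q), Tri hb g → dg hb g i0 = 1 →
      (∀ m : Fin n, k ≤ m.val → m.val < L.val → dg hb g m = 1) → g ∈ C := by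
    intro k
    induction k with
    | zero =>
      intro _ g hg _ hd
      exact base g hg (fun m hm => hd m (Nat.zero_le _) hm)
    | succ k ih =>
      intro hk g hg hg0 hd
      by_cases hk0 : k = 0
      · refine base g hg (fun m hm => ?_)
        by_cases hm0 : m.val = 0
        · have : m = i0 := Fin.ext (by omega)
          rw [this]
          exact hg0
        · exact hd m (by omega) hm
      obtain ⟨kk, hkk⟩ : ∃ i : Fin n, i.val = k := ⟨⟨k, by omega⟩, rfl⟩
      have hrk := Fin.val_rev kk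
      have hne : dg hb g kk ≠ 0 := by
        intro h
        have := tri_diag_mul hF hb hg kk
        rw [h, zero_mul] at this
        exact zero_ne_one this
      obtain ⟨D, hDH, δ, hDδ, hδk, hδ⟩ := exists_h_b hF hb (i := kk) (j := L) (by omega) (by omega)
        (by omega) (by omega) (inv_ne_zero hne) H1
        (fun t g hg => sg1 kk _ 0 g hg (by omega)
          (by rw [hermForm_smul_left, hb.zero_of (by omega), mul_zero]) (by omega)
          (by rw [hermForm_smul_left, hb.zero_of (by omega), mul_zero]))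
        (fun t g hg => sg1 L _ 0 g hg (by omega)
          (by rw [hermForm_smul_left, hb.zero_of (by omega), mul_zero]) (by omega)
          (by rw [hermForm_smul_left, hb.zero_of (by omega), mul_zero]))
      have hDC : D ∈ C := hC1 D (hDδ.mem_normalizer hb (hDδ.ne_zero hF hb)) hDH
      have h2 := tri_mul hb (hDδ.tri hb) hg
      have hδ' : ∀ m : Fin n, m.val < L.val → m.val ≠ k → δ m = 1 := by
        intro m hm hmk
        exact hδ m (fun h => hmk (by rw [h, hkk])) (fun h => by rw [h] at hm; exact lt_irrefl _ hm)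
          (fun h => by rw [h] at hm; omega) (fun h => by rw [h] at hm; omega)
      have h3 : D * g ∈ C := by
        refine ih (by omega) _ h2.1 ?_ (fun m hm1 hm2 => ?_)
        · rw [h2.2, hDδ.dg hb, hδ' i0 (by omega) (by omega), hg0, one_mul]
        · rw [h2.2, hDδ.dg hb]
          by_cases hmk : m.val = k
          · have : m = kk := Fin.ext (by omega)
            rw [this, hδk, inv_mul_cancel₀ hne]
          · rw [hδ' m hm2 hmk, hd m (by omega) hm2, one_mul]
      have h4 : g = D⁻¹ * (D * g) := by rw [inv_mul_cancel_left]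
      rw [h4]
      exact C.mul_mem (C.inv_mem hDC) h3
  intro g hgN
  have hg := tri_of_mem_normalizer hF hb hgN
  have hne : dg hb g i0 ≠ 0 := by
    intro h
    have := tri_diag_mul hF hb hg i0
    rw [h, zero_mul] at this
    exact zero_ne_one this
  obtain ⟨D, hDH, δ, hDδ, hδ0, -⟩ := exists_h_b hF hb (i := i0) (j := i1) (by omega) (by omega)
    (by omega) (by omega) (inv_ne_zero hne) H2
    (fun t g hg => sg2 i0 i1 t g hg (by omega) (by omega) (by omega))
    (fun t g hg => sg2 i1 i0 t g hg (by omega) (by omega) (by omega))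
  have hDC : D ∈ C := hC2 D (hDδ.mem_normalizer hb (hDδ.ne_zero hF hb)) hDH
  have h2 := tri_mul hb (hDδ.tri hb) hg
  have h3 : D * g ∈ C := by
    refine key L.val le_rfl _ h2.1 ?_ (fun m hm1 hm2 => absurd hm2 (by omega))
    rw [h2.2, hDδ.dg hb, hδ0, inv_mul_cancel₀ hne]
  have h4 : g = D⁻¹ * (D * g) := by rw [inv_mul_cancel_left]
  rw [h4]
  exact C.mul_mem (C.inv_mem hDC) h3

theorem genHyp_U (hF : Fintype.card F = q ^ 2) (hb : WB q b) (p : ℕ) [Fact p.Prime] [CharP F p]
    (hn : 4 ≤ n) : GenHyp p (Subgroup.center ↥(Cfsg.SU n F q)) (U hb) := by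
  refine ⟨?_, fun T hT hne hcl => closed_U hF hb p hn T hT hne hcl, gen_U hF hb p hn⟩
  intro h
  obtain ⟨i0, h0⟩ : ∃ i : Fin n, i.val = 0 := ⟨⟨0, by omega⟩, rfl⟩
  have hiso : Iso q (b i0) := ⟨hb.ne_zero i0, hb.zero_of (by omega)⟩
  obtain ⟨x, hx, hx1⟩ := exists_X_ne_one hF hiso
  have h2 : x ∈ U hb := Q_zero_le_U hF hb (by omega) h0
    (Cfsg.Agent.Lib.Helper50.AutPSUGeom.X_le_Q hiso hx)
  rw [h, Subgroup.mem_bot] at h2
  exact hx1 h2

theorem exists_sylow_U (hF : Fintype.card F = q ^ 2) (hb : WB q b) (p : ℕ) [Fact p.Prime]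
    [CharP F p] : ∃ S : Sylow p ↥(Cfsg.SU n F q), (S : Subgroup ↥(Cfsg.SU n F q)) = U hb :=
  haveI : Finite ↥(Cfsg.SU n F q) := finite_SU
  SpF.exists_sylow_eq_of_pElement (isPGroup_U hb p)
    (fun _ hg hp => pElement_normalizer_mem_U hF hb p hg hp)

end Cfsg.Agent.Lib.Helper89.SUF
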