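import Cfsg.Agent.Lib.Helper89.SUClosed
import Cfsg.Agent.Lib.Helper87.NormalSubgroupSystem

/-!
# The normalizer of `U ≤ SU_n(q)` and the unipotent radicals used in the simplicity criterion
-/

set_option autoImplicit false
set_option linter.unusedSimpArgs false
set_option linter.unusedSectionVars false
set_option linter.unusedVariables false

namespace Cfsg.Agent.Lib.Helper89.SUF

open Matrix Cfsg.Agent.Lib.Helper17 Cfsg.Agent.Lib.Helper99.AutPSU Cfsg.Agent.Lib.Helper87

variable {F : Type*} [Field F] [Fintype F] {n q : ℕ}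

local notation "⟪" x ", " y "⟫" => Cfsg.hermForm n F q x y

variable {b : Fin n → Fin n → F}

theorem pres_fl_of_basis (hb : WB q b) (g : ↥(Cfsg.SU n F q)) {k m : ℕ}
    (h : ∀ j : Fin n, j.val < k → Fl q b m (mt g *ᵥ b j)) {x : Fin n → F}
    (hx : Fl q b k x) : Fl q b m (mt g *ᵥ x) := by
  have h1 : mt g *ᵥ x = ∑ j, ⟪x, b (Fin.rev j)⟫ • (mt g *ᵥ b j) := by
    conv_lhs => rw [hb.expand x]
    rw [Matrix.mulVec_sum]
    exact Finset.sum_congr rfl (fun j _ => by rw [mulVec_smul])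
  rw [h1]
  refine Fl.sum _ (fun j _ => ?_)
  by_cases hj : j.val < k
  · exact (h j hj).smul _
  · rw [hx j (by omega), zero_smul]
    exact fl_zero m

theorem Fl.herm_zero (hF : Fintype.card F = q ^ 2) (hb : WB q b) {k m : ℕ} {x y : Fin n → F}
    (hx : Fl q b k x) (hy : Fl q b m y) (hkm : k + m ≤ n) : ⟪x, y⟫ = 0 := by
  rw [hb.expand x, herm_sum_left]
  refine Finset.sum_eq_zero (fun l _ => ?_)
  rw [hermForm_smul_left]
  by_cases hl : l.val < k
  · rw [hermForm_eq_zero_comm hF (hy.perp_of (j := l) (by omega)), mul_zero]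
  · rw [hx l (by omega), zero_mul]

/-- upper triangular with respect to the Witt basis -/
def Tri (hb : WB q b) (g : ↥(Cfsg.SU n F q)) : Prop :=
  ∀ i j : Fin n, j < i → (cb hb g).1 i j = 0

/-- the diagonal entries -/
def dg (hb : WB q b) (g : ↥(Cfsg.SU n F q)) (i : Fin n) : F := (cb hb g).1 i i

theorem tri_iff_fl (hb : WB q b) (g : ↥(Cfsg.SU n F q)) :
    Tri hb g ↔ ∀ j : Fin n, Fl q b (j.val + 1) (mt g *ᵥ b j) := by
  constructor
  · intro h j i hi
    rw [← cb_apply hb]
    exact h i j hi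
  · intro h i j hij
    rw [cb_apply]
    exact h j i hij

theorem tri_of_mem_normalizer (hF : Fintype.card F = q ^ 2) (hb : WB q b) {g : ↥(Cfsg.SU n F q)}
    (hg : g ∈ Subgroup.normalizer (U hb : Set ↥(Cfsg.SU n F q))) : Tri hb g := by
  rw [tri_iff_fl]
  have key : ∀ c : ℕ, ∀ j : Fin n, j.val = c → Fl q b (c + 1) (mt g *ᵥ b j) := by
    intro c
    induction c using Nat.strong_induction_on with
    | _ c ih =>
      intro j hj
      have hpres : ∀ x, Fl q b c x → Fl q b c (mt g *ᵥ x) := fun x hx =>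
        pres_fl_of_basis hb g (fun j' hj' => (ih j'.val hj' j' rfl).mono (by omega)) hx
      have hU : ∀ u ∈ U hb, Fl q b c (mt u *ᵥ (mt g *ᵥ b j) - mt g *ᵥ b j) := by
        intro u hu
        have hu' : g⁻¹ * u * g ∈ U hb := by
          have := (Subgroup.mem_normalizer_iff.1 (Subgroup.inv_mem _ hg) _).1 hu
          simpa using this
        have heq : g * (g⁻¹ * u * g) = u * g := by group
        have h1 : mt u *ᵥ (mt g *ᵥ b j) = mt g *ᵥ (mt (g⁻¹ * u * g) *ᵥ b j) := by
          rw [← mt_mul_mulVec, ← mt_mul_mulVec, heq]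
        rw [h1, ← mulVec_sub]
        apply hpres
        have := (mem_U_iff_fl hb _).1 hu' j
        rwa [hj] at this
      have down : ∀ s : ℕ, s + (c + 1) ≤ n → Fl q b (n - s) (mt g *ᵥ b j) := by
        intro s
        induction s with
        | zero =>
          intro _ i hi
          have := i.2
          omega
        | succ s ihs =>
          intro hs i hi
          by_cases hi' : n - s ≤ i.val
          · exact ihs (by omega) i hi'
          · have hiv : i.val = n - (s + 1) := by omega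
            obtain ⟨i', hi'v⟩ : ∃ i' : Fin n, i'.val = i.val - 1 :=
              ⟨⟨i.val - 1, by have := i.2; omega⟩, rfl⟩
            obtain ⟨t, ht, ε, hε, hlink⟩ := exists_link hF hb (i := i') (l := i) (by omega)
            have h2 := hlink (mt g *ᵥ b j) (by
              have := ihs (by omega)
              have h3 : n - s = i.val + 1 := by omega
              rwa [h3] at this)
            have h3 := hU t ht i' (by omega)
            rw [hermForm_sub_left, h2] at h3
            have h4 : ε * ⟪mt g *ᵥ b j, b (Fin.rev i)⟫ = 0 := by linear_combination h3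
            exact (mul_eq_zero.1 h4).resolve_left hε
      have := down (n - (c + 1)) (by have := j.2; omega)
      have h5 : n - (n - (c + 1)) = c + 1 := by have := j.2; omega
      rwa [h5] at this
  intro j
  exact key j.val j rfl

theorem cb_mul_val (hb : WB q b) (g g' : ↥(Cfsg.SU n F q)) :
    (cb hb (g * g')).1 = (cb hb g).1 * (cb hb g').1 := by
  rw [map_mul]
  rfl

theorem cb_one_val (hb : WB q b) : (cb hb (1 : ↥(Cfsg.SU n F q))).1 = 1 := by
  rw [map_one]
  rfl

theorem tri_mul (hb : WB q b) {g g' : ↥(Cfsg.SU n F q)} (h : Tri hb g) (h' : Tri hb g') :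
    Tri hb (g * g') ∧ ∀ i, dg hb (g * g') i = dg hb g i * dg hb g' i := by
  constructor
  · intro i j hij
    rw [cb_mul_val, Matrix.mul_apply]
    refine Finset.sum_eq_zero (fun d _ => ?_)
    by_cases hd : d < i
    · rw [h i d hd, zero_mul]
    · rw [h' d j (lt_of_lt_of_le hij (not_lt.1 hd)), mul_zero]
  · intro i
    rw [dg, cb_mul_val, Matrix.mul_apply, Finset.sum_eq_single i]
    · rfl
    · intro d _ hdi
      by_cases hd : d < i
      · rw [h i d hd, zero_mul]
      · rw [h' d i (lt_of_le_of_ne (not_lt.1 hd) hdi.symm), mul_zero]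
    · intro hh
      exact absurd (Finset.mem_univ i) hh

theorem tri_one (hb : WB q b) : Tri hb (1 : ↥(Cfsg.SU n F q)) := by
  intro i j hij
  rw [cb_one_val, Matrix.one_apply_ne (ne_of_gt hij)]

theorem dg_one (hb : WB q b) (i : Fin n) : dg hb (1 : ↥(Cfsg.SU n F q)) i = 1 := by
  rw [dg, cb_one_val, Matrix.one_apply_eq]

theorem tri_pow (hb : WB q b) {g : ↥(Cfsg.SU n F q)} (h : Tri hb g) (k : ℕ) :
    Tri hb (g ^ k) ∧ ∀ i, dg hb (g ^ k) i = dg hb g i ^ k := by
  induction k with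
  | zero =>
    refine ⟨by rw [pow_zero]; exact tri_one hb, fun i => ?_⟩
    rw [pow_zero, pow_zero, dg_one]
  | succ k ih =>
    rw [pow_succ]
    refine ⟨(tri_mul hb ih.1 h).1, fun i => ?_⟩
    rw [(tri_mul hb ih.1 h).2, ih.2, pow_succ]

theorem mem_U_of_tri (hb : WB q b) {g : ↥(Cfsg.SU n F q)} (h : Tri hb g)
    (hd : ∀ i, dg hb g i = 1) : g ∈ U hb := by
  show cb hb g ∈ UT.U n F
  rw [UT.mem_U_iff]
  intro i j hij
  rcases eq_or_lt_of_le hij with h' | h'
  · subst h'
    rw [Matrix.one_apply_eq]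
    exact hd j
  · rw [h i j h', Matrix.one_apply_ne (ne_of_gt h')]

theorem tri_of_mem_U (hb : WB q b) {g : ↥(Cfsg.SU n F q)} (h : g ∈ U hb) : Tri hb g := by
  intro i j hij
  have h1 : cb hb g ∈ UT.U n F := h
  rw [(UT.mem_U_iff _).1 h1 i j hij.le, Matrix.one_apply_ne (ne_of_gt hij)]

theorem tri_prod_dg (hb : WB q b) {g : ↥(Cfsg.SU n F q)} (h : Tri hb g) :
    ∏ i, dg hb g i = 1 := by
  have := Matrix.det_of_isUpperTriangular (M := (cb hb g).1) (fun a c hac => h a c hac)
  rw [(cb hb g).2] at this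
  exact this.symm

theorem tri_diag_mul (hF : Fintype.card F = q ^ 2) (hb : WB q b) {g : ↥(Cfsg.SU n F q)}
    (h : Tri hb g) (i : Fin n) : dg hb g i * (dg hb g (Fin.rev i)) ^ q = 1 := by
  have hfl := (tri_iff_fl hb g).1 h
  have h1 := mt_herm g (b i) (b (Fin.rev i))
  rw [hb.self_rev] at h1
  have hy : Fl q b i.val (mt g *ᵥ b i - dg hb g i • b i) := by
    intro m hm
    rw [hermForm_sub_left, hermForm_smul_left]
    rcases eq_or_lt_of_le hm with h' | h'
    · have : m = i := Fin.ext h'.symm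
      rw [this, hb.self_rev, dg, cb_apply]
      ring
    · rw [hfl i m h', hb.ne (fun h'' => by
        have := Fin.rev_injective h''
        rw [this] at h'
        exact lt_irrefl _ h')]
      ring
  have h2 : ⟪mt g *ᵥ b i - dg hb g i • b i, mt g *ᵥ b (Fin.rev i)⟫ = 0 :=
    hy.herm_zero hF hb (hfl (Fin.rev i)) (by rw [Fin.val_rev]; have := i.2; omega)
  rw [hermForm_sub_left, hermForm_smul_left, h1] at h2
  have h3 : ⟪b i, mt g *ᵥ b (Fin.rev i)⟫ = (dg hb g (Fin.rev i)) ^ q := by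
    rw [dg, cb_apply, Fin.rev_rev, hermForm_conj hF]
  rw [h3] at h2
  linear_combination -h2

theorem pElement_normalizer_mem_U (hF : Fintype.card F = q ^ 2) (hb : WB q b) (p : ℕ)
    [Fact p.Prime] [CharP F p] {g : ↥(Cfsg.SU n F q)}
    (hg : g ∈ Subgroup.normalizer (U hb : Set ↥(Cfsg.SU n F q))) (hp : ∃ k : ℕ, g ^ p ^ k = 1) :
    g ∈ U hb := by
  obtain ⟨k, hk⟩ := hp
  have ht := tri_of_mem_normalizer hF hb hg
  refine mem_U_of_tri hb ht (fun i => ?_)
  have h1 := (tri_pow hb ht (p ^ k)).2 i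
  rw [hk, dg_one] at h1
  have h2 : (dg hb g i - 1) ^ p ^ k = 0 := by
    rw [sub_pow_char_pow, ← h1, one_pow, sub_self]
  exact sub_eq_zero.1 (pow_eq_zero_iff (pow_pos (Fact.out : p.Prime).pos k).ne' |>.1 h2)

/-! ### diagonal elements -/

/-- diagonal with respect to the Witt basis -/
def IsDg (b : Fin n → Fin n → F) (g : ↥(Cfsg.SU n F q)) (δ : Fin n → F) : Prop :=
  ∀ j, mt g *ᵥ b j = δ j • b j

theorem IsDg.tri (hb : WB q b) {g : ↥(Cfsg.SU n F q)} {δ : Fin n → F} (h : IsDg b g δ) :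
    Tri hb g := by
  intro i j hij
  rw [cb_apply, h j, hermForm_smul_left, hb.ne (fun h' => by
    have := Fin.rev_injective h'
    rw [this] at hij
    exact lt_irrefl _ hij), mul_zero]

theorem IsDg.dg (hb : WB q b) {g : ↥(Cfsg.SU n F q)} {δ : Fin n → F} (h : IsDg b g δ) (i : Fin n) :
    dg hb g i = δ i := by
  rw [SUF.dg, cb_apply, h i, hermForm_smul_left, hb.self_rev, mul_one]

theorem IsDg.mem_normalizer (hb : WB q b) {g : ↥(Cfsg.SU n F q)} {δ : Fin n → F}
    (h : IsDg b g δ) (hδ : ∀ j, δ j ≠ 0) :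
    g ∈ Subgroup.normalizer (U hb : Set ↥(Cfsg.SU n F q)) := by
  have hfin : Finite ↥(Cfsg.SU n F q) := finite_SU
  refine mem_normalizer_of_cj_le (cj_le_iff.2 (fun u hu => ?_))
  rw [mem_U_iff_fl]
  intro j
  have hinv : mt g⁻¹ *ᵥ b j = (δ j)⁻¹ • b j := by
    have h1 : mt g⁻¹ *ᵥ (mt g *ᵥ b j) = δ j • (mt g⁻¹ *ᵥ b j) := by rw [h j, mulVec_smul]
    rw [mt_inv_mulVec] at h1
    conv_rhs => rw [h1]
    rw [smul_smul, inv_mul_cancel₀ (hδ j), one_smul]
  have h2 : mt (g * u * g⁻¹) *ᵥ b j - b j = (δ j)⁻¹ • (mt g *ᵥ (mt u *ᵥ b j - b j)) := by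
    rw [mt_mul_mulVec, mt_mul_mulVec, hinv, mulVec_smul, mulVec_smul, mulVec_sub, h j, smul_sub,
      smul_smul, inv_mul_cancel₀ (hδ j), one_smul]
  rw [h2]
  refine Fl.smul ?_ _
  refine pres_fl_of_basis hb g (fun j' hj' => ?_) ((mem_U_iff_fl hb u).1 hu j)
  rw [h j']
  exact (hb.fl hj').smul _

end Cfsg.Agent.Lib.Helper89.SUF
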