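import Cfsg.Agent.Lib.Helper89.SUNorm

/-!
# Unipotent radicals of the flag stabilizers in `SU_n(q)`
-/

set_option autoImplicit false
set_option linter.unusedSimpArgs false
set_option linter.unusedSectionVars false
set_option linter.unusedVariables false

namespace Cfsg.Agent.Lib.Helper89.SUF

open Matrix Cfsg.Agent.Lib.Helper17 Cfsg.Agent.Lib.Helper99.AutPSU Cfsg.Agent.Lib.Helper87

variable {F : Type*} [Field F] [Fintype F] {n q : ℕ}

local notation "⟪" x ", " y "⟫" => Cfsg.hermForm n F q x y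

/-- the unipotent radical of the stabilizer of the `j`-th member `W_j` of the flag:
trivial on `W_j` and on `W_j^⊥ / W_j` -/
def Rad (q : ℕ) (b : Fin n → Fin n → F) (j : ℕ) : Subgroup ↥(Cfsg.SU n F q) where
  carrier := {g | (∀ e, Fl q b j e → mt g *ᵥ e = e) ∧
    ∀ v, (∀ e, Fl q b j e → Cfsg.hermForm n F q v e = 0) → Fl q b j (mt g *ᵥ v - v)}
  one_mem' := by
    refine ⟨fun e _ => by rw [mt_one, one_mulVec], fun v _ => ?_⟩
    rw [mt_one, one_mulVec, sub_self]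
    exact fl_zero j
  mul_mem' := by
    intro g g' hg hg'
    refine ⟨fun e he => by rw [mt_mul_mulVec, hg'.1 e he, hg.1 e he], fun v hv => ?_⟩
    have h1 : ∀ e, Fl q b j e → Cfsg.hermForm n F q (mt g' *ᵥ v) e = 0 := by
      intro e he
      have := mt_herm g' v e
      rw [hg'.1 e he] at this
      rw [this, hv e he]
    have h2 : mt (g * g') *ᵥ v - v = (mt g *ᵥ (mt g' *ᵥ v) - mt g' *ᵥ v) + (mt g' *ᵥ v - v) := by
      rw [mt_mul_mulVec]; abel
    rw [h2]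
    exact (hg.2 _ h1).add (hg'.2 v hv)
  inv_mem' := by
    intro g hg
    have hfix : ∀ e, Fl q b j e → mt g⁻¹ *ᵥ e = e := by
      intro e he
      conv_lhs => rw [← hg.1 e he]
      rw [mt_inv_mulVec]
    refine ⟨hfix, fun v hv => ?_⟩
    have h1 := hfix _ (hg.2 v hv)
    rw [mulVec_sub, mt_inv_mulVec] at h1
    have h2 : mt g⁻¹ *ᵥ v - v = (-1 : F) • (mt g *ᵥ v - v) := by
      rw [← h1]; module
    rw [h2]
    exact (hg.2 v hv).smul _

variable {b : Fin n → Fin n → F}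

theorem Rad_le_U (hF : Fintype.card F = q ^ 2) (hb : WB q b) {j : ℕ} (hj : 2 * j ≤ n) :
    Rad q b j ≤ U hb := by
  intro g hg
  rw [mem_U_iff_fl]
  intro i
  by_cases h1 : i.val < j
  · rw [hg.1 _ (hb.fl h1), sub_self]
    exact fl_zero _
  by_cases h2 : i.val + 1 + j ≤ n
  · exact (hg.2 (b i) (fun e he => (hb.fl (Nat.lt_succ_self _)).herm_zero hF hb he h2)).mono
      (by omega)
  · intro m hm
    have h3 : Fl q b j (b (Fin.rev m)) := hb.fl (by rw [Fin.val_rev]; omega)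
    have h4 := mt_herm g (b i) (b (Fin.rev m))
    rw [hg.1 _ h3] at h4
    rw [hermForm_sub_left, h4, sub_self]

theorem mem_normalizer_Rad {j : ℕ} {s : ↥(Cfsg.SU n F q)}
    (h : ∀ e, Fl q b j e → Fl q b j (mt s *ᵥ e)) :
    s ∈ Subgroup.normalizer (Rad q b j : Set ↥(Cfsg.SU n F q)) := by
  have hfin : Finite ↥(Cfsg.SU n F q) := finite_SU
  have hpow : ∀ k : ℕ, ∀ e, Fl q b j e → Fl q b j (mt (s ^ k) *ᵥ e) := by
    intro k
    induction k with
    | zero => intro e he; rwa [pow_zero, mt_one, one_mulVec]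
    | succ k ih => intro e he; rw [pow_succ, mt_mul_mulVec]; exact ih _ (h e he)
  have h1 : s⁻¹ = s ^ (orderOf s - 1) := by
    rw [inv_eq_iff_mul_eq_one, ← pow_succ', Nat.sub_add_cancel (orderOf_pos s), pow_orderOf_eq_one]
  have hinv : ∀ e, Fl q b j e → Fl q b j (mt s⁻¹ *ᵥ e) := by
    intro e he
    rw [h1]
    exact hpow _ e he
  refine mem_normalizer_of_cj_le (cj_le_iff.2 (fun g hg => ?_))
  refine ⟨fun e he => ?_, fun v hv => ?_⟩
  · rw [mt_mul_mulVec, mt_mul_mulVec, hg.1 _ (hinv e he), mt_mulVec_inv]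
  · have h2 : ∀ e, Fl q b j e → ⟪mt s⁻¹ *ᵥ v, e⟫ = 0 := by
      intro e he
      rw [Cfsg.Agent.Lib.Helper50.AutPSUGeom.herm_inv_left]
      exact hv _ (h e he)
    have h3 : mt (s * g * s⁻¹) *ᵥ v - v = mt s *ᵥ (mt g *ᵥ (mt s⁻¹ *ᵥ v) - mt s⁻¹ *ᵥ v) := by
      rw [mt_mul_mulVec, mt_mul_mulVec, mulVec_sub, mt_mulVec_inv]
    rw [h3]
    exact h _ (hg.2 _ h2)

theorem U_le_normalizer_Rad (hb : WB q b) (j : ℕ) :
    U hb ≤ Subgroup.normalizer (Rad q b j : Set ↥(Cfsg.SU n F q)) :=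
  fun _ hu => mem_normalizer_Rad (fun _ he => U_pres_fl hb hu he)

theorem IsSg.mem_Rad (hF : Fintype.card F = q ^ 2) (hb : WB q b) {i0 : Fin n} (h0 : i0.val = 0)
    {j : ℕ} (hj1 : 1 ≤ j) (hj : 2 * j ≤ n) {w : Fin n → F} {k : F} {g : ↥(Cfsg.SU n F q)}
    (hw : ∀ e, Fl q b j e → ⟪w, e⟫ = 0) (h : IsSg (b i0) w k g) : g ∈ Rad q b j := by
  refine ⟨fun e he => ?_, fun v hv => ?_⟩
  · rw [h e, he.perp_of (j := i0) (by omega), hermForm_eq_zero_comm hF (hw e he)]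
    simp
  · rw [h v, hv _ (hb.fl (by omega))]
    have : v + (0 : F) • (w + k • b i0) + -⟪v, w⟫ • b i0 - v = (-⟪v, w⟫) • b i0 := by module
    rw [this]
    exact (hb.fl (by omega)).smul _

/-- an element acting as a scalar is central -/
theorem mem_center_of_scalar {z : ↥(Cfsg.SU n F q)} {l : F} (h : ∀ v, mt z *ᵥ v = l • v) :
    z ∈ Subgroup.center ↥(Cfsg.SU n F q) := by
  rw [Subgroup.mem_center_iff]
  intro g
  apply Cfsg.Agent.Lib.Helper50.AutPSUGeom.su_ext'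
  intro x
  rw [mt_mul_mulVec, mt_mul_mulVec, h, h, mulVec_smul]

theorem centralizer_Rad_le (hF : Fintype.card F = q ^ 2) (hb : WB q b) (p : ℕ) [Fact p.Prime]
    [CharP F p] {j : ℕ} (hj1 : 1 ≤ j) (hj : 2 * j ≤ n) :
    Subgroup.centralizer (Rad q b j : Set ↥(Cfsg.SU n F q)) ≤
      Rad q b j ⊔ Subgroup.center ↥(Cfsg.SU n F q) := by
  intro x hx
  have hq0 := q_ne_zero hF
  obtain ⟨i0, h0⟩ : ∃ i : Fin n, i.val = 0 := ⟨⟨0, by omega⟩, rfl⟩
  obtain ⟨j0, hj0⟩ : ∃ i : Fin n, i.val = n - 1 := ⟨⟨n - 1, by omega⟩, rfl⟩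
  obtain ⟨a, ha⟩ : ∃ a, a = b i0 := ⟨_, rfl⟩
  obtain ⟨d, hd⟩ : ∃ a, a = b j0 := ⟨_, rfl⟩
  have haa : ⟪a, a⟫ = 0 := by rw [ha]; exact hb.zero_of (by omega)
  have hdd : ⟪d, d⟫ = 0 := by rw [hd]; exact hb.zero_of (by omega)
  have had : ⟪a, d⟫ = 1 := by rw [ha, hd]; exact hb.one_of (by omega)
  have hda : ⟪d, a⟫ = 1 := by rw [ha, hd]; exact hb.one_of (by omega)
  have hane : a ≠ 0 := by rw [ha]; exact hb.ne_zero _
  have hafl : Fl q b j a := by rw [ha]; exact hb.fl (by omega)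
  have hafl1 : Fl q b 1 a := by rw [ha]; exact hb.fl (by omega)
  have hcomm : ∀ s ∈ Rad q b j, x * s = s * x := fun s hs =>
    ((Subgroup.mem_centralizer_iff.1 hx) s hs).symm
  -- `x` stabilises the point `a`
  obtain ⟨κ, hκ0, hκ⟩ := exists_trace_zero hF
  obtain ⟨s₀, hs₀⟩ := exists_sg hF (a := a) (w := 0) (k := κ) haa (hermForm_zero_left n _)
    (by rw [hκ, hermForm_zero_left]; ring)
  have hs₀R : s₀ ∈ Rad q b j := by
    rw [ha] at hs₀
    exact hs₀.mem_Rad hF hb h0 hj1 hj (fun e _ => hermForm_zero_left n _)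
  obtain ⟨l, hl0, hxa⟩ : ∃ l : F, l ≠ 0 ∧ mt x *ᵥ a = l • a := by
    have h1 := congrArg (fun y => mt y *ᵥ (mt x⁻¹ *ᵥ d)) (hcomm s₀ hs₀R)
    simp only [mt_mul_mulVec, mt_mulVec_inv] at h1
    rw [hs₀ d, hs₀ (mt x⁻¹ *ᵥ d), hda, hermForm_zero_right hq0, hermForm_zero_right hq0,
      Cfsg.Agent.Lib.Helper50.AutPSUGeom.herm_inv_left] at h1
    simp only [mulVec_add, mulVec_smul, mt_mulVec_inv, neg_zero, zero_smul, add_zero, zero_add,
      mulVec_zero, one_smul, smul_smul, one_mul] at h1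
    have h2 : (⟪d, mt x *ᵥ a⟫ * κ) • (mt x *ᵥ a) = κ • a := add_left_cancel h1
    obtain ⟨t, ht⟩ : ∃ t, t = ⟪d, mt x *ᵥ a⟫ := ⟨_, rfl⟩
    rw [← ht] at h2
    have h3 : t ≠ 0 := by
      intro h
      rw [h, zero_mul, zero_smul] at h2
      exact (smul_ne_zero hκ0 hane) h2.symm
    refine ⟨t⁻¹, inv_ne_zero h3, ?_⟩
    have h4 : mt x *ᵥ a = (t * κ)⁻¹ • ((t * κ) • (mt x *ᵥ a)) := by
      rw [smul_smul, inv_mul_cancel₀ (mul_ne_zero h3 hκ0), one_smul]
    rw [h4, h2, smul_smul]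
    congr 1
    field_simp
  have hxda : ⟪mt x *ᵥ d, a⟫ = (l ^ q)⁻¹ := by
    have h1 := mt_herm x d a
    rw [hxa, hermForm_smul_right, hda] at h1
    exact eq_inv_of_mul_eq_one_right h1
  -- the main computation
  have main : ∀ (y : Fin n → F) (k : F), ⟪y, a⟫ = 0 → ⟪y, d⟫ = 0 → (∀ e, Fl q b j e → ⟪y, e⟫ = 0) →
      k + k ^ q + ⟪y, y⟫ = 0 →
      mt x *ᵥ y = (l ^ q)⁻¹ • y + ((l ^ q)⁻¹ * k - k * l - ⟪mt x *ᵥ d, y⟫) • a := by
    intro y k hya hyd hye hk
    obtain ⟨s, hs⟩ := exists_sg hF haa hya hk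
    have hsR : s ∈ Rad q b j := by
      rw [ha] at hs
      exact hs.mem_Rad hF hb h0 hj1 hj hye
    have h1 := congrArg (fun z => mt z *ᵥ d) (hcomm s hsR)
    simp only [mt_mul_mulVec] at h1
    rw [hs d, hs (mt x *ᵥ d), hda, hermForm_eq_zero_comm hF hyd, hxda] at h1
    simp only [mulVec_add, mulVec_smul, hxa, neg_zero, zero_smul, add_zero, one_smul] at h1
    have h2 : mt x *ᵥ y = (mt x *ᵥ d + (mt x *ᵥ y + k • l • a)) - mt x *ᵥ d - k • l • a := by abel
    rw [h2, h1]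
    module
  have hll : (l ^ q)⁻¹ = l := by
    have h1 := main 0 κ (hermForm_zero_left n _) (hermForm_zero_left n _)
      (fun e _ => hermForm_zero_left n _) (by rw [hκ, hermForm_zero_left]; ring)
    rw [mulVec_zero, smul_zero, zero_add, hermForm_zero_right hq0, sub_zero] at h1
    rcases smul_eq_zero.1 h1.symm with h | h
    · have h2 : ((l ^ q)⁻¹ - l) * κ = 0 := by linear_combination h
      exact sub_eq_zero.1 ((mul_eq_zero.1 h2).resolve_right hκ0)
    · exact absurd h hane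
  obtain ⟨ε, hε⟩ := Cfsg.Agent.Lib.Helper50.AutPSUGeom.exists_pow_q_ne hF
  have hscal : ∀ y : Fin n → F, ⟪y, a⟫ = 0 → ⟪y, d⟫ = 0 → (∀ e, Fl q b j e → ⟪y, e⟫ = 0) →
      mt x *ᵥ y = l • y := by
    intro y hya hyd hye
    obtain ⟨k, hk⟩ := exists_trace_eq hF (-⟪y, y⟫) (by rw [neg_pow_q hF, hermForm_conj hF])
    obtain ⟨k', hk'⟩ := exists_trace_eq hF (-⟪ε • y, ε • y⟫)
      (by rw [neg_pow_q hF, hermForm_conj hF])
    have h1 := main y k hya hyd hye (by rw [hk]; ring)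
    have h2 := main (ε • y) k' (by rw [hermForm_smul_left, hya, mul_zero])
      (by rw [hermForm_smul_left, hyd, mul_zero])
      (fun e he => by rw [hermForm_smul_left, hye e he, mul_zero]) (by rw [hk']; ring)
    rw [hll] at h1 h2
    rw [mulVec_smul, h1, hermForm_smul_right] at h2
    have h3 : ((ε ^ q - ε) * ⟪mt x *ᵥ d, y⟫) • a = 0 := by
      have h4 : ((ε ^ q - ε) * ⟪mt x *ᵥ d, y⟫) • a =
          (ε • (l • y + (l * k - k * l - ⟪mt x *ᵥ d, y⟫) • a)) -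
          (l • ε • y + (l * k' - k' * l - ε ^ q * ⟪mt x *ᵥ d, y⟫) • a) := by module
      rw [h4, h2, sub_self]
    have h5 : ⟪mt x *ᵥ d, y⟫ = 0 := by
      rcases smul_eq_zero.1 h3 with h | h
      · exact (mul_eq_zero.1 h).resolve_left (sub_ne_zero.2 hε)
      · exact absurd h hane
    rw [h1, h5]
    module
  have hperp : ∀ v : Fin n → F, (∀ e, Fl q b j e → ⟪v, e⟫ = 0) → mt x *ᵥ v = l • v := by
    intro v hv
    have hva : ⟪v, a⟫ = 0 := hv a hafl
    have h1 := hscal (v - ⟪v, d⟫ • a)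
      (by rw [hermForm_sub_left, hermForm_smul_left, hva, haa]; ring)
      (by rw [hermForm_sub_left, hermForm_smul_left, had]; ring)
      (fun e he => by
        rw [hermForm_sub_left, hermForm_smul_left, hv e he,
          hafl1.herm_zero hF hb he (by omega)]
        ring)
    rw [mulVec_sub, mulVec_smul, hxa] at h1
    have h2 : mt x *ᵥ v = (mt x *ᵥ v - ⟪v, d⟫ • l • a) + ⟪v, d⟫ • l • a := by abel
    rw [h2, h1]
    module
  have hflperp : ∀ e e', Fl q b j e → Fl q b j e' → ⟪e, e'⟫ = 0 := fun e e' he he' =>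
    he.herm_zero hF hb he' (by omega)
  have hlq : l ^ q * l = 1 := by
    have := mul_inv_cancel₀ (pow_ne_zero q hl0)
    rwa [hll] at this
  -- the determinant
  have hln : l ^ n = 1 := by
    have : Nonempty (Fin n) := ⟨i0⟩
    set A : Matrix (Fin n) (Fin n) F := l⁻¹ • mt x with hA
    have hAv : ∀ v, (A - 1) *ᵥ v = l⁻¹ • (mt x *ᵥ v) - v := by
      intro v
      rw [sub_mulVec, one_mulVec, hA, smul_mulVec]
    have hsq : (A - 1) ^ 2 = 0 := by
      rw [Matrix.ext_iff_mulVec]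
      intro v
      rw [sq, ← mulVec_mulVec, zero_mulVec, hAv ((A - 1) *ᵥ v), hperp, smul_smul,
        inv_mul_cancel₀ hl0, one_smul, sub_self]
      intro e he
      rw [hAv, hermForm_sub_left, hermForm_smul_left]
      have h1 := mt_herm x v e
      rw [hperp e (fun e' he' => hflperp e e' he he'), hermForm_smul_right] at h1
      have h2 : ⟪mt x *ᵥ v, e⟫ = l * ⟪v, e⟫ := by
        have : l * (l ^ q * ⟪mt x *ᵥ v, e⟫) = l * ⟪v, e⟫ := by rw [h1]
        rw [← this]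
        linear_combination (-⟪mt x *ᵥ v, e⟫) * hlq
      rw [h2, ← mul_assoc, inv_mul_cancel₀ hl0, one_mul, sub_self]
    have hp2 : 2 ≤ p := (Fact.out : p.Prime).two_le
    have hAp : A ^ p = 1 := by
      have h5 : A = (A - 1) + 1 := by abel
      rw [h5, add_pow_char_of_commute p (Commute.one_right _), pow_eq_zero_of_le hp2 hsq, one_pow,
        zero_add]
    have hdet : A.det ^ p = 1 := by rw [← Matrix.det_pow, hAp, Matrix.det_one]
    have hdet1 : A.det = 1 := by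
      have h6 : (A.det - 1) ^ p = 0 := by rw [sub_pow_char, hdet, one_pow, sub_self]
      exact sub_eq_zero.1 (pow_eq_zero_iff (by omega) |>.1 h6)
    rw [hA, Matrix.det_smul, mt_det, mul_one, Fintype.card_fin, inv_pow] at hdet1
    exact inv_eq_one.1 hdet1
  obtain ⟨z, hz⟩ : ∃ z : ↥(Cfsg.SU n F q), ∀ v, mt z *ᵥ v = l • v := by
    refine ⟨mkSU (l • (1 : Matrix (Fin n) (Fin n) F)) (by
      rw [Matrix.det_smul, Matrix.det_one, mul_one, Fintype.card_fin, hln]) (fun u v => ?_),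
      fun v => ?_⟩
    · rw [smul_mulVec, smul_mulVec, one_mulVec, one_mulVec, hermForm_smul_left,
        hermForm_smul_right]
      linear_combination ⟪u, v⟫ * hlq
    · rw [mt_mkSU, smul_mulVec, one_mulVec]
  have hzc := mem_center_of_scalar hz
  have hzinv : ∀ v, mt z⁻¹ *ᵥ v = l⁻¹ • v := by
    intro v
    have h1 : mt z⁻¹ *ᵥ (mt z *ᵥ v) = l • (mt z⁻¹ *ᵥ v) := by rw [hz, mulVec_smul]
    rw [mt_inv_mulVec] at h1
    conv_rhs => rw [h1]
    rw [smul_smul, inv_mul_cancel₀ hl0, one_smul]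
  have hr : z⁻¹ * x ∈ Rad q b j := by
    have hfix : ∀ v : Fin n → F, (∀ e, Fl q b j e → ⟪v, e⟫ = 0) → mt (z⁻¹ * x) *ᵥ v = v := by
      intro v hv
      rw [mt_mul_mulVec, hperp v hv, hzinv, smul_smul, inv_mul_cancel₀ hl0, one_smul]
    refine ⟨fun e he => hfix e (fun e' he' => hflperp e e' he he'), fun v hv => ?_⟩
    rw [hfix v hv, sub_self]
    exact fl_zero j
  have h5 : x = z * (z⁻¹ * x) := by rw [mul_inv_cancel_left]
  rw [h5, sup_comm]
  exact Subgroup.mul_mem_sup hzc hr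

end Cfsg.Agent.Lib.Helper89.SUF
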