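import Cfsg.Agent.Lib.Helper89.SUBasis
import Cfsg.Agent.Lib.Helper99.AutPSU.Geom2

/-!
# Siegel elements of `SU_n(q)` and the unitriangular subgroup
-/

set_option autoImplicit false
set_option linter.unusedSimpArgs false
set_option linter.unusedSectionVars false
set_option linter.unusedVariables false

namespace Cfsg.Agent.Lib.Helper89.SUF

open Matrix Cfsg.Agent.Lib.Helper17 Cfsg.Agent.Lib.Helper99.AutPSU

variable {F : Type*} [Field F] [Fintype F] {n q : ℕ}

local notation "⟪" x ", " y "⟫" => Cfsg.hermForm n F q x y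

/-- `g` is the Siegel element `x ↦ x + ⟪x,a⟫ (w + k a) - ⟪x,w⟫ a` -/
def IsSg (a w : Fin n → F) (k : F) (g : ↥(Cfsg.SU n F q)) : Prop :=
  ∀ x, mt g *ᵥ x = x + ⟪x, a⟫ • (w + k • a) + (-⟪x, w⟫) • a

theorem exists_sg (hF : Fintype.card F = q ^ 2) {a w : Fin n → F} {k : F} (ha0 : ⟪a, a⟫ = 0)
    (hwa : ⟪w, a⟫ = 0) (hk : k + k ^ q + ⟪w, w⟫ = 0) : ∃ g : ↥(Cfsg.SU n F q), IsSg a w k g :=
  ⟨siegSU hF a w k ha0 hwa hk, Cfsg.Agent.Lib.Helper50.AutPSUGeom.sieg_mulVec hF a w k ha0 hwa hk⟩

theorem IsSg.ext {a w : Fin n → F} {k : F} {g g' : ↥(Cfsg.SU n F q)} (h : IsSg a w k g)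
    (h' : IsSg a w k g') : g = g' :=
  Cfsg.Agent.Lib.Helper50.AutPSUGeom.su_ext' (fun x => by rw [h x, h' x])

theorem IsSg.mem_Q (hF : Fintype.card F = q ^ 2) {a w : Fin n → F} {k : F}
    {g : ↥(Cfsg.SU n F q)} (ha0 : ⟪a, a⟫ = 0) (hwa : ⟪w, a⟫ = 0) (h : IsSg a w k g) :
    g ∈ Q q a := by
  refine ⟨?_, fun v hv => ⟨-⟪v, w⟫, ?_⟩⟩
  · rw [h, ha0, hermForm_eq_zero_comm hF hwa]; simp
  · rw [h, hv]; simp

theorem IsSg.conj {a w : Fin n → F} {k : F} {g : ↥(Cfsg.SU n F q)} (h : IsSg a w k g)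
    (s : ↥(Cfsg.SU n F q)) : IsSg (mt s *ᵥ a) (mt s *ᵥ w) k (s * g * s⁻¹) := by
  intro x
  rw [mt_mul_mulVec, mt_mul_mulVec, h, Cfsg.Agent.Lib.Helper50.AutPSUGeom.herm_inv_left,
    Cfsg.Agent.Lib.Helper50.AutPSUGeom.herm_inv_left]
  simp only [mulVec_add, mulVec_smul, mt_mulVec_inv]

theorem IsSg.mul (hF : Fintype.card F = q ^ 2) {a w w' : Fin n → F} {k k' : F}
    {g g' : ↥(Cfsg.SU n F q)} (ha0 : ⟪a, a⟫ = 0) (hwa : ⟪w, a⟫ = 0) (hwa' : ⟪w', a⟫ = 0)
    (h : IsSg a w k g) (h' : IsSg a w' k' g') :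
    IsSg a (w + w') (k + k' - ⟪w', w⟫) (g * g') := by
  intro x
  rw [mt_mul_mulVec, h' x, h]
  simp only [hermForm_add_left, hermForm_add_right hF, hermForm_smul_left, ha0, hwa', hwa,
    hermForm_eq_zero_comm hF hwa, mul_zero, add_zero]
  module

theorem IsSg.smul_center (hF : Fintype.card F = q ^ 2) {a w : Fin n → F} {k c : F}
    {g : ↥(Cfsg.SU n F q)} (h : IsSg (c • a) w k g) : IsSg a (c ^ q • w) (c ^ q * c * k) g := by
  intro x
  rw [h x]
  simp only [hermForm_smul_right, pow_q_pow_q hF]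
  module

theorem isSg_one (hF : Fintype.card F = q ^ 2) (a : Fin n → F) :
    IsSg a 0 0 (1 : ↥(Cfsg.SU n F q)) := by
  intro x
  rw [mt_one, one_mulVec, hermForm_zero_right (q_ne_zero hF)]
  simp

theorem isSg_of_mem_Q (hF : Fintype.card F = q ^ 2) {a d : Fin n → F} (hp : HP q a d)
    {g : ↥(Cfsg.SU n F q)} (hg : g ∈ Q q a) : IsSg a (wc q a d g) (kc q d g) g :=
  fun x => Q_formula hF hp hg x

theorem IsSg.pElement (hF : Fintype.card F = q ^ 2) (p : ℕ) [Fact p.Prime] [CharP F p]
    {a w : Fin n → F} {k : F} {g : ↥(Cfsg.SU n F q)} (ha : a ≠ 0) (ha0 : ⟪a, a⟫ = 0)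
    (hwa : ⟪w, a⟫ = 0) (h : IsSg a w k g) : ∃ m : ℕ, g ^ p ^ m = 1 :=
  ⟨2, Cfsg.Agent.Lib.Helper50.AutPSUGeom.Q_pow ⟨ha, ha0⟩ (h.mem_Q hF ha0 hwa)⟩

variable {b : Fin n → Fin n → F}

theorem rev_lt_iff {i j : Fin n} : Fin.rev i < Fin.rev j ↔ j < i := Fin.rev_lt_rev

/-- coordinates of a Siegel image -/
theorem IsSg.coord (hb : WB q b) {i : Fin n} {w : Fin n → F} {k : F} {g : ↥(Cfsg.SU n F q)}
    (h : IsSg (b i) w k g) (x : Fin n → F) (j : Fin n) :
    ⟪mt g *ᵥ x, b (Fin.rev j)⟫ = ⟪x, b (Fin.rev j)⟫ +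
      ⟪x, b i⟫ * (⟪w, b (Fin.rev j)⟫ + if j = i then k else 0) - if j = i then ⟪x, w⟫ else 0 := by
  rw [h x]
  simp only [hermForm_add_left, hermForm_smul_left, hb i (Fin.rev j)]
  by_cases hji : j = i
  · rw [if_pos hji, if_pos hji, if_pos (by rw [hji])]
    ring
  · rw [if_neg hji, if_neg hji, if_neg (fun h' => hji (Fin.rev_injective h'))]
    ring

theorem IsSg.mem_U (hF : Fintype.card F = q ^ 2) (hb : WB q b) {i : Fin n} (hi : i < Fin.rev i)
    {w : Fin n → F} {k : F} {g : ↥(Cfsg.SU n F q)} (hw : Fl q b (Fin.rev i).val w)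
    (h : IsSg (b i) w k g) : g ∈ U hb := by
  rw [mem_U_iff_fl]
  intro j
  have h1 : mt g *ᵥ b j - b j = ⟪b j, b i⟫ • (w + k • b i) + (-⟪b j, w⟫) • b i := by
    rw [h (b j)]; abel
  rw [h1]
  by_cases hj : j = Fin.rev i
  · subst hj
    exact ((hw.add ((hb.fl hi).smul k)).smul _).add ((hb.fl hi).smul _)
  · have h2 : ⟪b j, b i⟫ = 0 := hb.ne (fun h' => hj (by rw [h', Fin.rev_rev]))
    rw [h2, zero_smul, zero_add]
    by_cases hij : i < j
    · exact (hb.fl hij).smul _
    · have h3 : ⟪w, b j⟫ = 0 := by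
        have := hw (Fin.rev j) (by
          have : j ≤ i := not_lt.1 hij
          exact Fin.rev_le_rev.2 this)
        rwa [Fin.rev_rev] at this
      rw [hermForm_eq_zero_comm hF h3, neg_zero, zero_smul]
      exact fl_zero _

/-- the elements linking consecutive coordinates -/
theorem exists_link (hF : Fintype.card F = q ^ 2) (hb : WB q b) {i l : Fin n}
    (hil : l.val = i.val + 1) :
    ∃ t ∈ U hb, ∃ ε : F, ε ≠ 0 ∧ ∀ x : Fin n → F, Fl q b (l.val + 1) x →
      ⟪mt t *ᵥ x, b (Fin.rev i)⟫ = ⟪x, b (Fin.rev i)⟫ + ε * ⟪x, b (Fin.rev l)⟫ := by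
  have hq0 := q_ne_zero hF
  have hn := l.2
  have hri : (Fin.rev i).val = n - (i.val + 1) := Fin.val_rev i
  have hrl : (Fin.rev l).val = n - (l.val + 1) := Fin.val_rev l
  by_cases h1 : l.val ≤ (Fin.rev l).val
  · -- both in the first half
    have hi : i < Fin.rev i := by
      show i.val < (Fin.rev i).val
      omega
    obtain ⟨k, hk⟩ := exists_trace_eq hF (-⟪b (Fin.rev l), b (Fin.rev l)⟫)
      (by rw [neg_pow_q hF, hermForm_conj hF])
    have hwa : ⟪b (Fin.rev l), b i⟫ = 0 := hb.ne (fun h' => by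
      rw [Fin.rev_rev] at h'
      rw [h'] at hil
      omega)
    obtain ⟨t, ht⟩ := exists_sg hF (a := b i) (w := b (Fin.rev l)) (k := k)
      (hb.iso (ne_of_lt hi)) hwa (by rw [hk]; ring)
    refine ⟨t, ht.mem_U hF hb hi (hb.fl (by omega)), -1, neg_ne_zero.2 one_ne_zero, fun x hx => ?_⟩
    rw [ht.coord hb x i, if_pos rfl, if_pos rfl]
    have h2 : ⟪x, b i⟫ = 0 := by
      have := hx (Fin.rev i) (by omega)
      rwa [Fin.rev_rev] at this
    rw [h2]
    ring
  · by_cases h2 : l = Fin.rev i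
    · -- the middle link in even dimension
      have hi : i < Fin.rev i := by
        show i.val < (Fin.rev i).val
        rw [← h2]
        omega
      obtain ⟨κ, hκ0, hκ⟩ := exists_trace_zero hF
      obtain ⟨t, ht⟩ := exists_sg hF (a := b i) (w := 0) (k := κ)
        (hb.iso (ne_of_lt hi)) (hermForm_zero_left n _)
        (by rw [hκ, hermForm_zero_left]; ring)
      refine ⟨t, ht.mem_U hF hb hi (fl_zero _), κ, hκ0, fun x hx => ?_⟩
      rw [ht.coord hb x i, if_pos rfl, if_pos rfl, hermForm_zero_left, hermForm_zero_right hq0,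
        h2, Fin.rev_rev]
      ring
    · -- the second half
      have h2' : l.val ≠ (Fin.rev i).val := fun h' => h2 (Fin.ext h')
      have hi : Fin.rev l < Fin.rev (Fin.rev l) := by
        rw [Fin.rev_rev]
        show (Fin.rev l).val < l.val
        omega
      obtain ⟨k, hk⟩ := exists_trace_eq hF (-⟪b i, b i⟫)
        (by rw [neg_pow_q hF, hermForm_conj hF])
      have hwa : ⟪b i, b (Fin.rev l)⟫ = 0 := hb.ne (fun h' => by
        have := Fin.rev_injective h'
        rw [this] at hil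
        omega)
      obtain ⟨t, ht⟩ := exists_sg hF (a := b (Fin.rev l)) (w := b i) (k := k)
        (hb.iso (ne_of_lt hi)) hwa (by rw [hk]; ring)
      refine ⟨t, ht.mem_U hF hb hi (hb.fl (by rw [Fin.rev_rev]; omega)), 1, one_ne_zero,
        fun x hx => ?_⟩
      have hne : i ≠ Fin.rev l := fun h' => by
        have : i.val = (Fin.rev l).val := by rw [← h']
        omega
      rw [ht.coord hb x i, if_neg hne, if_neg hne, hb.self_rev]
      ring

/-- `U` is generated by the elements of the groups `Q (b i)` it contains. -/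
theorem U_le_of_Q_mem (hF : Fintype.card F = q ^ 2) (hb : WB q b) (T : Subgroup ↥(Cfsg.SU n F q))
    (hT : ∀ i : Fin n, i < Fin.rev i → ∀ g ∈ Q q (b i), g ∈ U hb → g ∈ T) : U hb ≤ T := by
  have hq0 := q_ne_zero hF
  have key : ∀ d i : ℕ, i + d = n / 2 → ∀ u ∈ U hb,
      (∀ k : Fin n, k.val < i → mt u *ᵥ b (Fin.rev k) = b (Fin.rev k)) → u ∈ T := by
    intro d
    induction d with
    | zero =>
      intro i hi u hu hfix
      have h1 : u = 1 := by
        apply Cfsg.Agent.Lib.Helper50.AutPSUGeom.su_ext'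
        intro x
        rw [mt_one, one_mulVec]
        have hbas : ∀ j : Fin n, mt u *ᵥ b j = b j := by
          intro j
          by_cases hj : (Fin.rev j).val < i
          · have := hfix (Fin.rev j) hj
            rwa [Fin.rev_rev] at this
          · have hrj : (Fin.rev j).val = n - (j.val + 1) := Fin.val_rev j
            apply hb.ext
            intro m
            by_cases hm : (Fin.rev m).val < i
            · have h2 := hfix (Fin.rev m) hm
              rw [Fin.rev_rev] at h2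
              conv_lhs => rw [← h2]
              rw [mt_herm]
            · have h3 := (mem_U_iff_fl hb u).1 hu j (Fin.rev m) (by
                have hrm : (Fin.rev m).val = n - (m.val + 1) := Fin.val_rev m
                have := m.2
                have := j.2
                omega)
              rw [Fin.rev_rev, hermForm_sub_left, sub_eq_zero] at h3
              exact h3
        conv_lhs => rw [hb.expand x]
        conv_rhs => rw [hb.expand x]
        rw [Matrix.mulVec_sum]
        exact Finset.sum_congr rfl (fun j _ => by rw [mulVec_smul, hbas])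
      rw [h1]
      exact T.one_mem
    | succ d ih =>
      intro i hi u hu hfix
      have hin : i < n := by omega
      set ii : Fin n := ⟨i, hin⟩ with hii
      have hrii : (Fin.rev ii).val = n - (i + 1) := Fin.val_rev ii
      have hlt : ii < Fin.rev ii := by
        show i < (Fin.rev ii).val
        omega
      set f := b (Fin.rev ii) with hf
      set dd : Fin n → F := mt u *ᵥ f - f with hdd
      have hfl : Fl q b (Fin.rev ii).val dd := (mem_U_iff_fl hb u).1 hu (Fin.rev ii)
      have hp : HP q (b ii) f := ⟨hb.iso (ne_of_lt hlt), hb.iso (by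
        rw [Fin.rev_rev]; exact (ne_of_lt hlt).symm), hb.self_rev ii⟩
      have hda : ⟪dd, b ii⟫ = 0 := by
        have := hfl (Fin.rev ii) le_rfl
        rwa [Fin.rev_rev] at this
      have huf : mt u *ᵥ f = f + dd := by rw [hdd]; abel
      have hiso : ⟪f, dd⟫ + ⟪dd, f⟫ + ⟪dd, dd⟫ = 0 := by
        have h1 := mt_herm u f f
        rw [huf, hp.b0] at h1
        simp only [hermForm_add_left, hermForm_add_right hF, hp.b0] at h1
        linear_combination h1
      obtain ⟨r, hr⟩ := exists_sg hF (a := b ii) (w := dd) (k := ⟪f, dd⟫) hp.a0 hda (by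
        rw [hermForm_conj hF]; exact hiso)
      have hrU : r ∈ U hb := hr.mem_U hF hb hlt hfl
      have hrT : r ∈ T := hT ii hlt r (hr.mem_Q hF hp.a0 hda) hrU
      have hr1 : mt r *ᵥ f = mt u *ᵥ f := by
        rw [hr f, hp.ba hF, huf]
        module
      have hr2 : ∀ k : Fin n, k.val < i → mt r *ᵥ b (Fin.rev k) = b (Fin.rev k) := by
        intro k hk
        have hne : k ≠ ii := by
          intro h
          rw [h] at hk
          exact lt_irrefl _ hk
        have h3 : ⟪b (Fin.rev k), dd⟫ = 0 := by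
          rw [hdd, hermForm_sub_right hF]
          have h4 : ⟪b (Fin.rev k), mt u *ᵥ f⟫ = ⟪b (Fin.rev k), f⟫ := by
            conv_lhs => rw [← hfix k hk]
            rw [mt_herm]
          rw [h4, sub_self]
        have h5 : ⟪b (Fin.rev k), b ii⟫ = 0 := hb.ne (by
          rw [Fin.rev_rev]; exact fun h => hne h.symm)
        rw [hr, h5, h3]
        simp
      have hu' : r⁻¹ * u ∈ T := by
        refine ih (i + 1) (by omega) _ ((U hb).mul_mem ((U hb).inv_mem hrU) hu) ?_
        intro k hk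
        rw [mt_mul_mulVec]
        rcases Nat.lt_succ_iff_lt_or_eq.1 hk with h | h
        · rw [hfix k h]
          conv_lhs => rw [← hr2 k h]
          rw [mt_inv_mulVec]
        · have hk' : k = ii := Fin.ext h
          rw [hk', ← hf, ← hr1, mt_inv_mulVec]
      have : u = r * (r⁻¹ * u) := by rw [mul_inv_cancel_left]
      rw [this]
      exact T.mul_mem hrT hu'
  intro u hu
  exact key (n / 2) 0 (by omega) u hu (fun k hk => absurd hk (Nat.not_lt_zero _))

end Cfsg.Agent.Lib.Helper89.SUF
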