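import Cfsg.Agent.Lib.Helper89.SURad

/-!
# Torus elements of `SU_n(q)` as products of Siegel elements
-/

set_option autoImplicit false
set_option linter.unusedSimpArgs false
set_option linter.unusedSectionVars false
set_option linter.unusedVariables false

namespace Cfsg.Agent.Lib.Helper89.SUF

open Matrix Cfsg.Agent.Lib.Helper17 Cfsg.Agent.Lib.Helper99.AutPSU Cfsg.Agent.Lib.Helper87

variable {F : Type*} [Field F] [Fintype F] {n q : ℕ}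

local notation "⟪" x ", " y "⟫" => Cfsg.hermForm n F q x y

/-- the Weyl-type element of the rank one group on `⟨c, y, d⟩` -/
theorem nform (hF : Fintype.card F = q ^ 2) {c d y : Fin n → F} {β : F} (hcc : ⟪c, c⟫ = 0)
    (hdd : ⟪d, d⟫ = 0) (hcd : ⟪c, d⟫ = 1) (hdc : ⟪d, c⟫ = 1) (hyc : ⟪y, c⟫ = 0) (hyd : ⟪y, d⟫ = 0)
    (hβ : β ≠ 0) (hk : β + β ^ q + ⟪y, y⟫ = 0) {g1 g2 g3 : ↥(Cfsg.SU n F q)}
    (h1 : IsSg d ((-β⁻¹) • y) (β ^ q)⁻¹ g1) (h2 : IsSg c y β g2)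
    (h3 : IsSg d ((-(β ^ q)⁻¹) • y) (β ^ q)⁻¹ g3) (x : Fin n → F) :
    mt (g1 * g2 * g3) *ᵥ x = x - ⟪x, d⟫ • c - ⟪x, c⟫ • d + ((β ^ q)⁻¹ * ⟪x, d⟫) • d +
      (β * ⟪x, c⟫) • c + (β⁻¹ * ⟪x, y⟫) • y := by
  have hcy := hermForm_eq_zero_comm hF hyc
  have hdy := hermForm_eq_zero_comm hF hyd
  have hyy : ⟪y, y⟫ = -β - β ^ q := by linear_combination hk
  have hB0 : β ^ q ≠ 0 := pow_ne_zero q hβ
  rw [mt_mul_mulVec, mt_mul_mulVec, h3 x, h2, h1]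
  simp only [hermForm_add_left, hermForm_smul_left, hermForm_smul_right, hcc, hdd, hcd, hdc, hyc,
    hyd, hcy, hdy, hyy, neg_pow_q hF, inv_pow, pow_q_pow_q hF]
  obtain ⟨B, hB⟩ : ∃ B, B = β ^ q := ⟨_, rfl⟩
  rw [← hB] at hB0 ⊢
  match_scalars <;> field_simp <;> ring

/-- torus elements of the rank one group on `⟨c, y, d⟩` -/
theorem exists_D (hF : Fintype.card F = q ^ 2) {c d y : Fin n → F} {β κ : F} (hcc : ⟪c, c⟫ = 0)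
    (hdd : ⟪d, d⟫ = 0) (hcd : ⟪c, d⟫ = 1) (hdc : ⟪d, c⟫ = 1) (hyc : ⟪y, c⟫ = 0) (hyd : ⟪y, d⟫ = 0)
    (hβ : β ≠ 0) (hk : β + β ^ q + ⟪y, y⟫ = 0) (hκ0 : κ ≠ 0) (hκ : κ ^ q = -κ)
    (H : Subgroup ↥(Cfsg.SU n F q))
    (hHc : ∀ (t k : F) (g : ↥(Cfsg.SU n F q)), IsSg c (t • y) k g → g ∈ H)
    (hHd : ∀ (t k : F) (g : ↥(Cfsg.SU n F q)), IsSg d (t • y) k g → g ∈ H) :
    ∃ g ∈ H, ∀ x, mt g *ᵥ x = x + ((β * κ⁻¹ - 1) * ⟪x, d⟫) • c +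
      ((-κ * (β ^ q)⁻¹ - 1) * ⟪x, c⟫) • d + (β⁻¹ * ⟪x, y⟫) • y := by
  have hq0 := q_ne_zero hF
  have hB0 : β ^ q ≠ 0 := pow_ne_zero q hβ
  have hyy : ⟪y, y⟫ = -β - β ^ q := by linear_combination hk
  obtain ⟨g1, h1⟩ := exists_sg hF (a := d) (w := (-β⁻¹) • y) (k := (β ^ q)⁻¹) hdd
    (by rw [hermForm_smul_left, hyd, mul_zero]) (by
      simp only [hermForm_smul_left, hermForm_smul_right, hyy, neg_pow_q hF, inv_pow,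
        pow_q_pow_q hF]
      field_simp
      ring)
  obtain ⟨g2, h2⟩ := exists_sg hF (a := c) (w := y) (k := β) hcc hyc hk
  obtain ⟨g3, h3⟩ := exists_sg hF (a := d) (w := (-(β ^ q)⁻¹) • y) (k := (β ^ q)⁻¹) hdd
    (by rw [hermForm_smul_left, hyd, mul_zero]) (by
      simp only [hermForm_smul_left, hermForm_smul_right, hyy, neg_pow_q hF, inv_pow,
        pow_q_pow_q hF]
      field_simp
      ring)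
  have hκ' : (-κ) ^ q = κ := by rw [neg_pow_q hF, hκ, neg_neg]
  have hz0 : ⟪(0 : Fin n → F), (0 : Fin n → F)⟫ = 0 := hermForm_zero_left n _
  obtain ⟨g4, h4⟩ := exists_sg hF (a := d) (w := (-(-κ)⁻¹) • (0 : Fin n → F)) (k := ((-κ) ^ q)⁻¹) hdd
    (by rw [smul_zero, hermForm_zero_left]) (by
      rw [smul_zero, hz0, inv_pow, hκ', hκ]
      field_simp
      ring)
  obtain ⟨g5, h5⟩ := exists_sg hF (a := c) (w := (0 : Fin n → F)) (k := -κ) hcc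
    (hermForm_zero_left n _) (by rw [hz0, hκ']; ring)
  obtain ⟨g6, h6⟩ := exists_sg hF (a := d) (w := (-((-κ) ^ q)⁻¹) • (0 : Fin n → F))
    (k := ((-κ) ^ q)⁻¹) hdd
    (by rw [smul_zero, hermForm_zero_left]) (by
      rw [smul_zero, hz0, inv_pow, hκ', hκ]
      field_simp
      ring)
  have hn1 := nform hF hcc hdd hcd hdc hyc hyd hβ hk h1 h2 h3
  have hn2 := nform hF hcc hdd hcd hdc (hermForm_zero_left n _) (hermForm_zero_left n _)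
    (neg_ne_zero.2 hκ0) (by rw [hz0, hκ']; ring) h4 h5 h6
  refine ⟨(g1 * g2 * g3) * (g4 * g5 * g6), ?_, fun x => ?_⟩
  · have m4 : g4 ∈ H := hHd 0 _ _ (by rw [zero_smul]; rwa [smul_zero] at h4)
    have m5 : g5 ∈ H := hHc 0 _ _ (by rwa [zero_smul])
    have m6 : g6 ∈ H := hHd 0 _ _ (by rw [zero_smul]; rwa [smul_zero] at h6)
    exact H.mul_mem (H.mul_mem (H.mul_mem (hHd _ _ _ h1) (hHc 1 _ _ (by rwa [one_smul])))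
      (hHd _ _ _ h3)) (H.mul_mem (H.mul_mem m4 m5) m6)
  · rw [mt_mul_mulVec, hn2 x, hn1]
    have hcy := hermForm_eq_zero_comm hF hyc
    have hdy := hermForm_eq_zero_comm hF hyd
    simp only [hermForm_add_left, hermForm_sub_left, hermForm_smul_left, hcc, hdd, hcd, hdc, hyc,
      hyd, hcy, hdy, hκ', hermForm_zero_right hq0, hermForm_zero_left, smul_zero, mul_zero,
      add_zero]
    obtain ⟨B, hB⟩ : ∃ B, B = β ^ q := ⟨_, rfl⟩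
    rw [← hB] at hB0 ⊢
    match_scalars <;> field_simp <;> ring

/-- two orthogonal hyperbolic pairs -/
structure Hyp2 (c₁ d₁ c₂ d₂ : Fin n → F) : Prop where
  c1c1 : ⟪c₁, c₁⟫ = 0
  c1d1 : ⟪c₁, d₁⟫ = 1
  c1c2 : ⟪c₁, c₂⟫ = 0
  c1d2 : ⟪c₁, d₂⟫ = 0
  d1c1 : ⟪d₁, c₁⟫ = 1
  d1d1 : ⟪d₁, d₁⟫ = 0
  d1c2 : ⟪d₁, c₂⟫ = 0
  d1d2 : ⟪d₁, d₂⟫ = 0
  c2c1 : ⟪c₂, c₁⟫ = 0
  c2d1 : ⟪c₂, d₁⟫ = 0
  c2c2 : ⟪c₂, c₂⟫ = 0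
  c2d2 : ⟪c₂, d₂⟫ = 1
  d2c1 : ⟪d₂, c₁⟫ = 0
  d2d1 : ⟪d₂, d₁⟫ = 0
  d2c2 : ⟪d₂, c₂⟫ = 1
  d2d2 : ⟪d₂, d₂⟫ = 0

theorem Nform (hF : Fintype.card F = q ^ 2) {c₁ d₁ c₂ d₂ : Fin n → F}
    (hh : Hyp2 (q := q) c₁ d₁ c₂ d₂) {t : F} (ht : t ≠ 0) {g1 g2 g3 : ↥(Cfsg.SU n F q)}
    (h1 : IsSg c₁ ((-t ^ q) • d₂) 0 g1) (h2 : IsSg c₂ ((-(-t⁻¹) ^ q) • d₁) 0 g2)
    (h3 : IsSg c₁ ((-t ^ q) • d₂) 0 g3) (x : Fin n → F) :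
    mt (g1 * g2 * g3) *ᵥ x = x - ⟪x, d₁⟫ • c₁ - ⟪x, d₂⟫ • c₂ - ⟪x, c₁⟫ • d₁ - ⟪x, c₂⟫ • d₂ +
      (t * ⟪x, d₂⟫) • c₁ + (-t⁻¹ * ⟪x, d₁⟫) • c₂ + (-t ^ q * ⟪x, c₁⟫) • d₂ +
      ((t ^ q)⁻¹ * ⟪x, c₂⟫) • d₁ := by
  have hB0 : t ^ q ≠ 0 := pow_ne_zero q ht
  rw [mt_mul_mulVec, mt_mul_mulVec, h3 x, h2, h1]
  simp only [hermForm_add_left, hermForm_smul_left, hermForm_smul_right, hh.c1c1, hh.c1d1, hh.c1c2,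
    hh.c1d2, hh.d1c1, hh.d1d1, hh.d1c2, hh.d1d2, hh.c2c1, hh.c2d1, hh.c2c2, hh.c2d2, hh.d2c1,
    hh.d2d1, hh.d2c2, hh.d2d2, neg_pow_q hF, inv_pow, pow_q_pow_q hF]
  obtain ⟨B, hB⟩ : ∃ B, B = t ^ q := ⟨_, rfl⟩
  rw [← hB] at hB0 ⊢
  match_scalars <;> field_simp <;> ring

theorem exists_h (hF : Fintype.card F = q ^ 2) {c₁ d₁ c₂ d₂ : Fin n → F}
    (hh : Hyp2 (q := q) c₁ d₁ c₂ d₂) {μ : F} (hμ : μ ≠ 0) (H : Subgroup ↥(Cfsg.SU n F q))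
    (hH1 : ∀ (t : F) (g : ↥(Cfsg.SU n F q)), IsSg c₁ (t • d₂) 0 g → g ∈ H)
    (hH2 : ∀ (t : F) (g : ↥(Cfsg.SU n F q)), IsSg c₂ (t • d₁) 0 g → g ∈ H) :
    ∃ g ∈ H, ∀ x, mt g *ᵥ x = x + ((μ - 1) * ⟪x, d₁⟫) • c₁ + ((μ⁻¹ - 1) * ⟪x, d₂⟫) • c₂ +
      (((μ ^ q)⁻¹ - 1) * ⟪x, c₁⟫) • d₁ + ((μ ^ q - 1) * ⟪x, c₂⟫) • d₂ := by
  have hq0 := q_ne_zero hF
  have hB0 : μ ^ q ≠ 0 := pow_ne_zero q hμ
  have ex1 : ∀ t : F, ∃ g : ↥(Cfsg.SU n F q), IsSg c₁ (t • d₂) 0 g := fun t =>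
    exists_sg hF hh.c1c1 (by rw [hermForm_smul_left, hh.d2c1, mul_zero]) (by
      rw [hermForm_smul_left, hermForm_smul_right, hh.d2d2, zero_pow hq0]; ring)
  have ex2 : ∀ t : F, ∃ g : ↥(Cfsg.SU n F q), IsSg c₂ (t • d₁) 0 g := fun t =>
    exists_sg hF hh.c2c2 (by rw [hermForm_smul_left, hh.d1c2, mul_zero]) (by
      rw [hermForm_smul_left, hermForm_smul_right, hh.d1d1, zero_pow hq0]; ring)
  obtain ⟨g1, h1⟩ := ex1 (-μ ^ q)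
  obtain ⟨g2, h2⟩ := ex2 (-(-μ⁻¹) ^ q)
  obtain ⟨g4, h4⟩ := ex1 (-(-1 : F) ^ q)
  obtain ⟨g5, h5⟩ := ex2 (-(-(-1 : F)⁻¹) ^ q)
  have hn1 := Nform hF hh hμ h1 h2 h1
  have hn2 := Nform hF hh (neg_ne_zero.2 (one_ne_zero (α := F))) h4 h5 h4
  refine ⟨(g1 * g2 * g1) * (g4 * g5 * g4), H.mul_mem (H.mul_mem (H.mul_mem (hH1 _ _ h1)
    (hH2 _ _ h2)) (hH1 _ _ h1)) (H.mul_mem (H.mul_mem (hH1 _ _ h4) (hH2 _ _ h5)) (hH1 _ _ h4)),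
    fun x => ?_⟩
  rw [mt_mul_mulVec, hn2 x, hn1]
  simp only [hermForm_add_left, hermForm_sub_left, hermForm_smul_left, hh.c1c1, hh.c1d1, hh.c1c2,
    hh.c1d2, hh.d1c1, hh.d1d1, hh.d1c2, hh.d1d2, hh.c2c1, hh.c2d1, hh.c2c2, hh.c2d2, hh.d2c1,
    hh.d2d1, hh.d2c2, hh.d2d2, neg_pow_q hF, one_pow, inv_neg, inv_one]
  obtain ⟨B, hB⟩ : ∃ B, B = μ ^ q := ⟨_, rfl⟩
  rw [← hB] at hB0 ⊢
  match_scalars <;> field_simp <;> ring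

end Cfsg.Agent.Lib.Helper89.SUF
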