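import Cfsg.Agent.Lib.Helper89.SpU
import Cfsg.Agent.Lib.Helper89.SimpleGen
import Cfsg.Agent.Lib.Helper58.PGroup

/-!
# `U ≤ Sp_{2m}(F)` has no proper nontrivial fusion-closed subgroup
-/

set_option autoImplicit false
set_option linter.unusedSimpArgs false
set_option linter.unusedSectionVars false

namespace Cfsg.Agent.Lib.Helper89.SpF

open Matrix Cfsg.Agent.Lib.Helper18.AutPSp Cfsg.Agent.Lib.Helper17

variable {F : Type*} [Field F] {m : ℕ}

/-- vectors of the standard Lagrangian `E = ⟨e_i⟩` -/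
def InE (w : V m F) : Prop := ∀ k : Fin m, w (Sum.inr k) = 0

theorem InE.add {v w : V m F} (hv : InE v) (hw : InE w) : InE (v + w) := fun k => by
  rw [Pi.add_apply, hv k, hw k, add_zero]

theorem InE.sub {v w : V m F} (hv : InE v) (hw : InE w) : InE (v - w) := fun k => by
  rw [Pi.sub_apply, hv k, hw k, sub_zero]

theorem InE.smul {v : V m F} (hv : InE v) (c : F) : InE (c • v) := fun k => by
  rw [Pi.smul_apply, hv k, smul_zero]

theorem InE.neg {v : V m F} (hv : InE v) : InE (-v) := fun k => by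
  rw [Pi.neg_apply, hv k, neg_zero]

theorem inE_eb (i : Fin m) : InE (eb i : V m F) := fun k => by simp [eb]

theorem inE_zero : InE (0 : V m F) := fun _ => rfl

theorem B_of_inE {v w : V m F} (hv : InE v) (hw : InE w) : B v w = 0 := by
  show Cfsg.sympForm m F v w = 0
  rw [sympForm_eq_sum]
  refine Finset.sum_eq_zero (fun i _ => ?_)
  rw [hv i, hw i]
  ring

/-- The unipotent radical of the stabilizer of `E`: the pointwise stabilizer of `E`. -/
def QS (m : ℕ) (F : Type*) [Field F] : Subgroup (Sp m F) where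
  carrier := {g | ∀ w, InE w → g ∙ w = w}
  one_mem' := fun w _ => ac_one w
  mul_mem' := fun {a b} ha hb w hw => by rw [ac_mul, hb w hw, ha w hw]
  inv_mem' := fun {a} ha w hw => by
    conv_lhs => rw [← ha w hw]
    rw [ac_inv_ac]

theorem tv_mem_QS {v : V m F} (hv : InE v) (c : F) : tv v c ∈ QS m F := fun w hw => by
  rw [ac_tv, B_of_inE hw hv, mul_zero, zero_smul, add_zero]

theorem sg_mem_QS {e y : V m F} (he : InE e) (hy : InE y) (b : F) : sg e y b ∈ QS m F :=
  (QS m F).mul_mem ((QS m F).mul_mem (tv_mem_QS (hy.add he) _) (tv_mem_QS hy _)) (tv_mem_QS he _)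

theorem tv_add {v w : V m F} (h : B w v = 0) (c : F) :
    tv (v + w) c = tv w c * sg v (c • w) 0 * tv v c := by
  apply sp_ext
  intro x
  have h' : B v w = 0 := B_eq_zero_comm.1 h
  rw [ac_mul, ac_mul, ac_tv, ac_tv, ac_tv, ac_sg (by rw [B_smul_left, h, mul_zero])]
  simp only [B_add_left, B_add_right, B_smul_left, B_smul_right, B_self, h, h']
  module

theorem li_pair_of_ne {e y : V m F} {a : Fin m ⊕ Fin m} (he : e ≠ 0) (hea : e a = 0) (hya : y a ≠ 0) :
    LinearIndependent F ![e, y] := by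
  rw [LinearIndependent.pair_iff]
  intro s t hst
  have h1 := congrFun hst a
  simp only [Pi.add_apply, Pi.smul_apply, smul_eq_mul, hea, mul_zero, zero_add, Pi.zero_apply] at h1
  have ht : t = 0 := (mul_eq_zero.1 h1).resolve_right hya
  rw [ht, zero_smul, add_zero] at hst
  exact ⟨(smul_eq_zero.1 hst).resolve_right he, ht⟩

theorem exists_ac_iso_pair {e y e' y' : V m F} (h1 : LinearIndependent F ![e, y])
    (h2 : LinearIndependent F ![e', y']) (h : B y e = 0) (h' : B y' e' = 0) :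
    ∃ g : Sp m F, g ∙ e = e' ∧ g ∙ y = y' := by
  obtain ⟨A, hA⟩ := sp_witt_frame m ![e, y] ![e', y'] h1 h2 (by
      intro i j
      fin_cases i <;> fin_cases j
      · show B e' e' = B e e
        rw [B_self, B_self]
      · show B e' y' = B e y
        rw [B_eq_zero_comm.1 h, B_eq_zero_comm.1 h']
      · show B y' e' = B y e
        rw [h, h']
      · show B y' y' = B y y
        rw [B_self, B_self])
  exact ⟨A, hA 0, hA 1⟩

variable [Finite F]

theorem QS_le_U : QS m F ≤ U m F := by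
  intro g hg
  rw [mem_U_iff']
  intro a c hac
  rcases c with j | j
  · have := hg (eb j) (inE_eb j)
    rw [eb] at this
    rw [this]
  · rcases a with k | k
    · simp only [lvl_inl, lvl_inr] at hac
      have := k.2; have := j.2
      omega
    · have h1 := B_ac g (fb j : V m F) (eb k)
      rw [hg (eb k) (inE_eb k), B_eb_right, B_eb_right] at h1
      exact h1

theorem coprime_card_center (p : ℕ) [Fact p.Prime] [CharP F p] (hm : 1 ≤ m) :
    (Nat.card (Subgroup.center (Sp m F))).Coprime p := by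
  have hfin : Finite (Sp m F) := finite_Sp
  refine Nat.Coprime.symm ((Nat.Prime.coprime_iff_not_dvd (Fact.out : p.Prime)).2 ?_)
  intro hd
  obtain ⟨z, hz⟩ := exists_prime_orderOf_dvd_card' p hd
  have h1 : (z : Sp m F) = 1 := by
    refine eq_of_pm_eq p hm ?_ ?_ (one_pow p)
    · exact (QuotientGroup.eq_one_iff _).2 z.2
    · have := pow_orderOf_eq_one z
      rw [hz] at this
      exact congrArg Subtype.val this
  have h2 : z = 1 := Subtype.ext h1
  rw [h2, orderOf_one] at hz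
  exact (Fact.out : p.Prime).one_lt.ne hz

theorem exists_lvl_succ {a : Fin m ⊕ Fin m} (h : lvl m a + 1 ≤ 2 * m - 1) :
    ∃ a₀ : Fin m ⊕ Fin m, lvl m a₀ = lvl m a + 1 := by
  by_cases h1 : lvl m a + 1 < m
  · exact ⟨Sum.inr ⟨lvl m a + 1, h1⟩, rfl⟩
  · refine ⟨Sum.inl ⟨2 * m - 1 - (lvl m a + 1), by omega⟩, ?_⟩
    simp only [lvl_inl]
    omega

/-- A central element of `U` is `sg e_0 (d e_1) c`. -/
theorem central_U_form (p : ℕ) [Fact p.Prime] [CharP F p] (hm : 2 ≤ m) {i0 i1 : Fin m}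
    (h0 : i0.val = 0) (h1 : i1.val = 1) {z : Sp m F} (hzU : z ∈ U m F)
    (hzc : ∀ u ∈ U m F, u * z = z * u) :
    ∃ d c : F, z = sg (eb i0) (d • eb i1) c := by
  have hfin : Finite (Sp m F) := finite_Sp
  have hm1 : 1 ≤ m := by omega
  have hR : ∀ y : V m F, B y (eb i0) = 0 → ∀ b, sg (eb i0) y b ∈ U m F := by
    intro y hy b
    refine sg_mem_U i0 y (fun k hk => ?_) b
    have : k = i0 := Fin.ext (by have : k.val ≤ i0.val := hk; omega)
    rw [this, ← B_eb_right y i0]
    exact hy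
  have hQ : ∀ y ∈ Q (eb i0 : V m F), y * pm z = pm z * y := by
    rintro _ ⟨y, hy, b, rfl⟩
    rw [← pm_mul, ← pm_mul, hzc _ (hR y hy b)]
  obtain ⟨y₀, b₀, hy₀, hz0, -⟩ := central_form p hm1 (eb_ne_zero i0) (pm z) hQ
  have hker := QuotientGroup.ker_mk' (Subgroup.center (Sp m F))
  have hz1 : z = sg (eb i0) y₀ b₀ := by
    refine eq_of_map_eq_of_pElement (p := p) (QuotientGroup.mk' (Subgroup.center (Sp m F)))
      (by rw [hker]) (by rw [hker]; exact coprime_card_center p hm1)
      (exists_pow_of_isPGroup (isPGroup_U p) hzU) ⟨1, by rw [pow_one, sg_pow_char p hy₀]⟩ hz0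
  have hmove : ∀ u ∈ U m F, ∃ c : F, u ∙ y₀ = y₀ + c • eb i0 := by
    intro u hu
    have h2 : u * z * u⁻¹ = z := by rw [hzc u hu, mul_inv_cancel_right]
    rw [hz1, sg_conj, U_fix_eb h0 hu] at h2
    exact sg_eq_imp (eb_ne_zero i0) hy₀ (by rw [B_ac_fix (U_fix_eb h0 hu)]; exact hy₀) h2
  have hcoord : ∀ a : Fin m ⊕ Fin m, lvl m a + 2 ≤ 2 * m - 1 → y₀ a = 0 := by
    intro a ha
    obtain ⟨a₀, ha₀⟩ := exists_lvl_succ (a := a) (by omega)
    obtain ⟨t, ht, ε, hε, hw⟩ := exists_link (F := F) ha₀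
    obtain ⟨c, hc⟩ := hmove t ht
    have h3 := hw y₀
    rw [hc] at h3
    have h4 : (eb i0 : V m F) a₀ = 0 := by
      rw [eb, Pi.single_apply, if_neg]
      rintro rfl
      simp only [lvl_inl] at ha₀
      omega
    simp only [Pi.add_apply, Pi.smul_apply, smul_eq_mul, h4, mul_zero, add_zero] at h3
    have h5 : ε * y₀ a = 0 := by
      have := h3
      linear_combination -this
    exact (mul_eq_zero.1 h5).resolve_left hε
  have hy₀' : y₀ = y₀ (Sum.inl i1) • eb i1 + y₀ (Sum.inl i0) • eb i0 := by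
    funext a
    simp only [Pi.add_apply, Pi.smul_apply, smul_eq_mul, eb, Pi.single_apply]
    have hne : i1 ≠ i0 := fun h => by rw [h] at h1; omega
    rcases a with k | k
    · by_cases hk0 : k = i0
      · subst hk0
        simp [hne, hne.symm]
      · by_cases hk1 : k = i1
        · subst hk1
          simp [hne, hne.symm]
        · have h6 : k.val ≠ 0 := fun h => hk0 (Fin.ext (by omega))
          have h7 : k.val ≠ 1 := fun h => hk1 (Fin.ext (by omega))
          rw [hcoord (Sum.inl k) (by simp only [lvl_inl]; have := k.2; omega)]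
          simp [hk0, hk1]
    · rw [hcoord (Sum.inr k) (by simp only [lvl_inr]; have := k.2; omega)]
      simp
  refine ⟨y₀ (Sum.inl i1), b₀ + 2 * y₀ (Sum.inl i0), ?_⟩
  rw [← sg_add_smul (by rw [B_smul_left, B_eb_eb, mul_zero]), ← hy₀']
  exact hz1

theorem exists_ne_zero_one (h : 3 ≤ Nat.card F) : ∃ a : F, a ≠ 0 ∧ a ≠ 1 := by
  classical
  by_contra hcon
  push Not at hcon
  have hinj : Function.Injective (fun a : F => decide (a = 0)) := by
    intro a b hab
    by_cases ha : a = 0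
    · have hb : b = 0 := by simpa [ha] using hab
      rw [ha, hb]
    · have hb : b ≠ 0 := by simpa [ha] using hab
      rw [hcon a ha, hcon b hb]
  have := Nat.card_le_card_of_injective _ hinj
  rw [Nat.card_eq_fintype_card (α := Bool), Fintype.card_bool] at this
  omega

/-- `U` has no proper nontrivial subgroup closed under fusion in `Sp_{2m}(F)`. -/
theorem closed_U (p : ℕ) [Fact p.Prime] [CharP F p] (hm : 2 ≤ m) (hex : m = 2 → 3 ≤ Nat.card F)
    (T : Subgroup (Sp m F)) (hT : T ≤ U m F) (hne : T ≠ ⊥)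
    (hcl : ∀ x ∈ T, ∀ g : Sp m F, g * x * g⁻¹ ∈ U m F → g * x * g⁻¹ ∈ T) : T = U m F := by
  have hfin : Finite (Sp m F) := finite_Sp
  obtain ⟨i0, h0⟩ : ∃ i : Fin m, i.val = 0 := ⟨⟨0, by omega⟩, rfl⟩
  obtain ⟨i1, h1⟩ : ∃ i : Fin m, i.val = 1 := ⟨⟨1, by omega⟩, rfl⟩
  have hne01 : i0 ≠ i1 := fun h => by rw [h] at h0; omega
  -- a central element
  obtain ⟨d, c, hzT, hz1⟩ : ∃ d c : F, sg (eb i0) (d • eb i1) c ∈ T ∧
      sg (eb i0 : V m F) (d • eb i1) c ≠ 1 := by
    have hnorm : (T.subgroupOf (U m F)).Normal := by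
      refine ⟨fun x hx u => ?_⟩
      exact hcl x.1 hx u.1 ((U m F).mul_mem ((U m F).mul_mem u.2 x.2) ((U m F).inv_mem u.2))
    have hne' : T.subgroupOf (U m F) ≠ ⊥ := by
      intro h
      rw [Subgroup.subgroupOf_eq_bot, disjoint_iff, inf_eq_left.2 hT] at h
      exact hne h
    have h2 := Cfsg.Agent.Lib.Helper58.normal_inf_center_ne_bot (isPGroup_U (m := m) (F := F) p)
      (T.subgroupOf (U m F)) hne'
    obtain ⟨⟨z, hz⟩, hz1⟩ := (Subgroup.ne_bot_iff_exists_ne_one).1 h2
    have hzc : ∀ u ∈ U m F, u * z.1 = z.1 * u := by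
      intro u hu
      have h3 := (Subgroup.mem_center_iff.1 hz.2) ⟨u, hu⟩
      exact congrArg Subtype.val h3
    obtain ⟨d, c, hdc⟩ := central_U_form p hm h0 h1 z.2 hzc
    have hzT : z.1 ∈ T := hz.1
    refine ⟨d, c, hdc ▸ hzT, ?_⟩
    intro h4
    rw [h4] at hdc
    exact hz1 (Subtype.ext (Subtype.ext hdc))
  have hQU : ∀ {g : Sp m F}, g ∈ QS m F → g ∈ U m F := fun h => QS_le_U h
  -- a short root element
  obtain ⟨y₁, hy₁E, hy₁li, hy₁T⟩ : ∃ y₁ : V m F, InE y₁ ∧ LinearIndependent F ![eb i0, y₁] ∧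
      sg (eb i0) y₁ 0 ∈ T := by
    by_cases hd : d = 0
    · rw [hd, zero_smul, sg_zero] at hzT hz1
      have hc : c ≠ 0 := fun h => hz1 (by rw [h, tv_zero])
      have hv : (eb i0 + eb i1 : V m F) ≠ 0 := by
        intro h
        have := congrFun h (Sum.inl i0)
        simp [eb, hne01] at this
      obtain ⟨g₁, hg₁⟩ := exists_ac_eq (eb_ne_zero (F := F) i0) hv
      obtain ⟨g₂, hg₂⟩ := exists_ac_eq (eb_ne_zero (F := F) i0) (eb_ne_zero (F := F) i1)
      have t1 : tv (eb i0 + eb i1 : V m F) c ∈ T := by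
        have := hcl _ hzT g₁ (by
          rw [tv_conj, hg₁]; exact hQU (tv_mem_QS ((inE_eb i0).add (inE_eb i1)) c))
        rwa [tv_conj, hg₁] at this
      have t2 : tv (eb i1 : V m F) c ∈ T := by
        have := hcl _ hzT g₂ (by rw [tv_conj, hg₂]; exact hQU (tv_mem_QS (inE_eb i1) c))
        rwa [tv_conj, hg₂] at this
      rw [tv_add (B_eb_eb i1 i0)] at t1
      refine ⟨c • eb i1, (inE_eb i1).smul c, ?_, ?_⟩
      · refine li_pair_of_ne (a := Sum.inl i1) (eb_ne_zero i0) (by simp [eb, hne01.symm]) ?_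
        simp [eb, hc]
      · exact (Subgroup.mul_mem_cancel_left T t2).1 ((Subgroup.mul_mem_cancel_right T hzT).1 t1)
    · obtain ⟨w, hwE, k, hk0, hwk, hwk'⟩ : ∃ w : V m F, InE w ∧ ∃ k : Fin m, k ≠ i0 ∧
          w (Sum.inl k) ≠ 0 ∧ (w - eb i1 : V m F) (Sum.inl k) ≠ 0 := by
        by_cases hm2 : m = 2
        · have h3 := hex hm2
          obtain ⟨a, ha0, ha1⟩ := exists_ne_zero_one h3
          refine ⟨a • eb i1, (inE_eb i1).smul a, i1, hne01.symm, by simp [eb, ha0], ?_⟩
          simp only [Pi.sub_apply, Pi.smul_apply, eb, Pi.single_eq_same, smul_eq_mul, mul_one]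
          exact sub_ne_zero.2 ha1
        · obtain ⟨i2, h2⟩ : ∃ i : Fin m, i.val = 2 := ⟨⟨2, by omega⟩, rfl⟩
          have hne02 : i2 ≠ i0 := fun h => by rw [h] at h2; omega
          have hne12 : i2 ≠ i1 := fun h => by rw [h] at h2; omega
          refine ⟨eb i1 + eb i2, (inE_eb i1).add (inE_eb i2), i2, hne02, ?_, ?_⟩
          · simp [eb, hne12, hne12.symm]
          · simp [eb, hne12, hne12.symm]
      have he0k : (eb i0 : V m F) (Sum.inl k) = 0 := by simp [eb, hk0]
      obtain ⟨g, hg0, hg1⟩ := exists_ac_iso_pair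
        (li_pair_of_ne (a := Sum.inl i1) (eb_ne_zero (F := F) i0) (by simp [eb, hne01.symm])
          (show (eb i1 : V m F) (Sum.inl i1) ≠ 0 by simp [eb]))
        (li_pair_of_ne (a := Sum.inl k) (eb_ne_zero (F := F) i0) he0k hwk)
        (B_eb_eb i1 i0) (B_of_inE hwE (inE_eb i0))
      have t1 : sg (eb i0) (d • w) c ∈ T := by
        have := hcl _ hzT g (by
          rw [sg_conj, hg0, ac_smul, hg1]; exact hQU (sg_mem_QS (inE_eb i0) (hwE.smul d) c))
        rwa [sg_conj, hg0, ac_smul, hg1] at this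
      have t2 := T.mul_mem (T.inv_mem hzT) t1
      rw [sg_inv (by rw [B_smul_left, B_eb_eb, mul_zero]),
        sg_mul (by rw [B_neg_left, B_smul_left, B_eb_eb, mul_zero, neg_zero])
          (by rw [B_smul_left, B_of_inE hwE (inE_eb i0), mul_zero]),
        B_of_inE (hwE.smul d) ((inE_eb i1).smul d).neg] at t2
      have e1 : -(d • (eb i1 : V m F)) + d • w = d • (w - eb i1) := by module
      have e2 : -c + c + 0 = (0 : F) := by ring
      rw [e1, e2] at t2
      refine ⟨d • (w - eb i1), (hwE.sub (inE_eb i1)).smul d, ?_, t2⟩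
      refine li_pair_of_ne (a := Sum.inl k) (eb_ne_zero i0) he0k ?_
      rw [Pi.smul_apply, smul_eq_mul]
      exact mul_ne_zero hd hwk'
  -- Witt
  have hW : ∀ e y : V m F, LinearIndependent F ![e, y] → B y e = 0 → sg e y 0 ∈ U m F →
      sg e y 0 ∈ T := by
    intro e y hli hye hU
    obtain ⟨g, hg0, hg1⟩ := exists_ac_iso_pair hy₁li hli (B_of_inE hy₁E (inE_eb i0)) hye
    have := hcl _ hy₁T g (by rw [sg_conj, hg0, hg1]; exact hU)
    rwa [sg_conj, hg0, hg1] at this
  -- long root elements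
  have htv0 : ∀ u : F, tv (eb i0 : V m F) u ∈ T := by
    intro u
    by_cases hu : u = 0
    · rw [hu, tv_zero]; exact T.one_mem
    have hyf : ∀ k : Fin m, k ≤ i0 → (fb i1 : V m F) (Sum.inr k) = 0 := by
      intro k hk
      have : k = i0 := Fin.ext (by have : k.val ≤ i0.val := hk; omega)
      rw [this]
      simp [fb, hne01]
    have hg₀U := sg_mem_U (F := F) i0 (fb i1) hyf 0
    have hg₀ : sg (eb i0) (fb i1 : V m F) 0 ∈ T := by
      refine hW _ _ ?_ (B_fb_eb_ne hne01.symm) hg₀U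
      exact li_pair_of_ne (a := Sum.inr i1) (eb_ne_zero i0) (by simp [eb]) (by simp [fb])
    have hxU := tv_eb_mem_U (F := F) i1 u
    have t1 : tv (eb i1 : V m F) u * (sg (eb i0) (fb i1 : V m F) 0)⁻¹ * (tv (eb i1 : V m F) u)⁻¹ ∈ T :=
      hcl _ (T.inv_mem hg₀) _ ((U m F).mul_mem ((U m F).mul_mem hxU ((U m F).inv_mem hg₀U))
        ((U m F).inv_mem hxU))
    have t2 := T.mul_mem hg₀ t1
    have e1 : sg (eb i0) (fb i1 : V m F) 0 * (tv (eb i1 : V m F) u *
        (sg (eb i0) (fb i1 : V m F) 0)⁻¹ * (tv (eb i1 : V m F) u)⁻¹) =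
        (sg (eb i0) (fb i1 : V m F) 0 * tv (eb i1 : V m F) u * (sg (eb i0) (fb i1 : V m F) 0)⁻¹) *
          (tv (eb i1 : V m F) u)⁻¹ := by group
    have e2 : sg (eb i0) (fb i1 : V m F) 0 ∙ (eb i1 : V m F) = eb i1 + -(eb i0) := by
      rw [ac_sg (B_fb_eb_ne hne01.symm), B_eb_eb, B_eb_fb]
      module
    rw [e1, tv_conj, e2, tv_add (by rw [B_neg_left, B_eb_eb, neg_zero]), mul_assoc, tv_inv, tv_mul,
      add_neg_cancel, tv_zero, mul_one] at t2
    have t3 : sg (eb i1) (u • -(eb i0 : V m F)) 0 ∈ T := by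
      refine hW _ _ ?_ (by rw [B_smul_left, B_neg_left, B_eb_eb, neg_zero, mul_zero])
        (hQU (sg_mem_QS (inE_eb i1) ((inE_eb i0).neg.smul u) 0))
      refine li_pair_of_ne (a := Sum.inl i0) (eb_ne_zero i1) (by simp [eb, hne01]) ?_
      simp [eb, hu]
    have t4 := (Subgroup.mul_mem_cancel_right T t3).1 t2
    have e3 : tv (-(eb i0 : V m F)) u = tv (eb i0) u := by
      have := tv_smul (-1 : F) (eb i0 : V m F) u
      rw [neg_one_smul] at this
      rw [this]
      congr 1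
      ring
    rwa [e3] at t4
  have htv : ∀ (i : Fin m) (u : F), tv (eb i : V m F) u ∈ T := by
    intro i u
    obtain ⟨g, hg⟩ := exists_ac_eq (eb_ne_zero (F := F) i0) (eb_ne_zero (F := F) i)
    have := hcl _ (htv0 u) g (by rw [tv_conj, hg]; exact tv_eb_mem_U i u)
    rwa [tv_conj, hg] at this
  apply le_antisymm hT
  apply U_le_of_sg_mem
  intro i y hy b
  have hyi : B y (eb i) = 0 := by rw [B_eb_right]; exact hy i le_rfl
  have e1 : sg (eb i) y b = sg (eb i) y 0 * tv (eb i) b := by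
    rw [← sg_zero, sg_mul hyi (B_zero_left _), B_zero_left]
    congr 1
    · rw [add_zero]
    · ring
  rw [e1]
  refine T.mul_mem ?_ (htv i b)
  by_cases hli : LinearIndependent F ![eb i, y]
  · exact hW _ _ hli hyi (sg_mem_U i y hy 0)
  · rw [LinearIndependent.pair_iff' (eb_ne_zero i)] at hli
    push Not at hli
    obtain ⟨l, hl⟩ := hli
    have e2 : sg (eb i) y 0 = tv (eb i) (2 * l) := by
      rw [← hl, ← zero_add (l • (eb i : V m F)), sg_add_smul (B_zero_left _), sg_zero, zero_add]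
    rw [e2]
    exact htv i _

end Cfsg.Agent.Lib.Helper89.SpF
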