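import Cfsg.Agent.Lib.Helper89.SpClosed

/-!
# The normalizer of `U ≤ Sp_{2m}(F)` and the radicals used in the simplicity criterion
-/

set_option autoImplicit false
set_option linter.unusedSimpArgs false
set_option linter.unusedSectionVars false

namespace Cfsg.Agent.Lib.Helper89.SpF

open Matrix Cfsg.Agent.Lib.Helper18.AutPSp Cfsg.Agent.Lib.Helper17 Cfsg.Agent.Lib.Helper87

variable {F : Type*} [Field F] {m : ℕ}

local notation "Mt" => Matrix (Fin m ⊕ Fin m) (Fin m ⊕ Fin m) F

/-- upper triangular (with respect to the levels) -/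
def Tri (g : Sp m F) : Prop := ∀ a c, lvl m a < lvl m c → (g : Mt) a c = 0

theorem ac_tv_eb_apply (i : Fin m) (c : F) (w : V m F) (a : Fin m ⊕ Fin m) :
    (tv (eb i) c ∙ w) a = w a + if a = Sum.inl i then c * w (Sum.inr i) else 0 := by
  rw [ac_tv, B_eb_right]
  simp only [Pi.add_apply, Pi.smul_apply, smul_eq_mul, eb, Pi.single_apply]
  split_ifs <;> simp

theorem ac_tv_fb_apply (i : Fin m) (c : F) (w : V m F) (a : Fin m ⊕ Fin m) :
    (tv (fb i) c ∙ w) a = w a - if a = Sum.inr i then c * w (Sum.inl i) else 0 := by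
  rw [ac_tv, B_fb_right]
  simp only [Pi.add_apply, Pi.smul_apply, smul_eq_mul, fb, Pi.single_apply]
  split_ifs <;> simp [sub_eq_add_neg]

theorem ac_tor_apply (i : Fin m) (μ : F) (hμ : μ ≠ 0) (w : V m F) (a : Fin m ⊕ Fin m) :
    (tor i μ hμ ∙ w) a =
      (if a = Sum.inl i then μ else if a = Sum.inr i then μ⁻¹ else 1) * w a := by
  rw [ac_tor, B_fb_right, B_eb_right]
  simp only [Pi.add_apply, Pi.sub_apply, Pi.smul_apply, smul_eq_mul, eb, fb, Pi.single_apply]
  by_cases h1 : a = Sum.inl i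
  · subst h1
    simp
    ring
  · by_cases h2 : a = Sum.inr i
    · subst h2
      simp
      ring
    · simp [h1, h2]

/-- the Levi root element `e_j ↦ e_j + c e_i`, `f_i ↦ f_i - c f_j` -/
def xl (i j : Fin m) (c : F) : Sp m F := sg (eb i) ((-c) • fb j) 0

theorem ac_xl_apply {i j : Fin m} (hij : i ≠ j) (c : F) (w : V m F) (a : Fin m ⊕ Fin m) :
    (xl i j c ∙ w) a = w a + (if a = Sum.inl i then c * w (Sum.inl j) else 0) -
      (if a = Sum.inr j then c * w (Sum.inr i) else 0) := by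
  rw [xl, ac_sg (by rw [B_smul_left, B_fb_eb_ne hij.symm, mul_zero]), B_smul_right, B_fb_right,
    B_eb_right]
  simp only [Pi.add_apply, Pi.smul_apply, smul_eq_mul, eb, fb, Pi.single_apply]
  by_cases h1 : a = Sum.inl i
  · subst h1
    simp
  · by_cases h2 : a = Sum.inr j
    · subst h2
      simp
      ring
    · simp [h1, h2]

theorem tor_eq_prod (i : Fin m) (μ : F) (hμ : μ ≠ 0) :
    tor i μ hμ = tv (eb i) μ * tv (fb i) μ⁻¹ * tv (eb i) μ * tv (eb i) (-1) * tv (fb i) (-1) *
      tv (eb i) (-1) := by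
  apply sp_ext
  intro w
  funext a
  simp only [ac_mul, ac_tv_eb_apply, ac_tv_fb_apply, ac_tor_apply]
  by_cases h1 : a = Sum.inl i
  · subst h1
    simp
    field_simp
    ring
  · by_cases h2 : a = Sum.inr i
    · subst h2
      simp
      field_simp
      ring
    · simp [h1, h2]

theorem tor_mul_tor_eq_prod {i j : Fin m} (hij : i ≠ j) (μ : F) (hμ : μ ≠ 0) :
    tor i μ hμ * tor j μ⁻¹ (inv_ne_zero hμ) = xl i j μ * xl j i (-μ⁻¹) * xl i j μ * xl i j (-1) *
      xl j i 1 * xl i j (-1) := by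
  apply sp_ext
  intro w
  funext a
  simp only [ac_mul, ac_xl_apply hij, ac_xl_apply hij.symm, ac_tor_apply]
  by_cases h1 : a = Sum.inl i
  · subst h1
    simp [hij, hij.symm]
    field_simp
    ring
  · by_cases h2 : a = Sum.inr i
    · subst h2
      simp [hij, hij.symm]
      field_simp
      ring
    · by_cases h3 : a = Sum.inl j
      · subst h3
        simp [hij, hij.symm]
        field_simp
        ring
      · by_cases h4 : a = Sum.inr j
        · subst h4
          simp [hij, hij.symm]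
          field_simp
          ring
        · simp [h1, h2, h3, h4]

variable [Finite F]

/-- The normalizer of `U` consists of triangular matrices. -/
theorem tri_of_mem_normalizer {g : Sp m F}
    (hg : g ∈ Subgroup.normalizer (U m F : Set (Sp m F))) : Tri g := by
  have key : ∀ s : ℕ, ∀ a : Fin m ⊕ Fin m, lvl m a + s = 2 * m - 1 → ∀ c, lvl m a < lvl m c →
      (g : Mt) a c = 0 := by
    intro s
    induction s with
    | zero =>
      intro a ha c hc
      have := lvl_le c
      omega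
    | succ s ih =>
      intro a ha c hc
      obtain ⟨a₀, ha₀⟩ := exists_lvl_succ (a := a) (by omega)
      obtain ⟨t, ht, ε, hε, hw⟩ := exists_link (F := F) ha₀
      have hu' : g⁻¹ * t * g ∈ U m F := by
        have := (Subgroup.mem_normalizer_iff.1 (Subgroup.inv_mem _ hg) _).1 ht
        simpa using this
      have heq : g * (g⁻¹ * t * g) = t * g := by group
      have h1 : (g ∙ ((g⁻¹ * t * g) ∙ (Pi.single c 1 : V m F))) a₀ =
          (t ∙ (g ∙ (Pi.single c 1 : V m F))) a₀ := by rw [← ac_mul, ← ac_mul, heq]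
      have h2 : (g ∙ ((g⁻¹ * t * g) ∙ (Pi.single c 1 : V m F))) a₀ = (g : Mt) a₀ c := by
        rw [ac_apply, Finset.sum_eq_single c]
        · rw [ac_single, (mem_U_iff _).1 hu' c c le_rfl, Matrix.one_apply_eq, mul_one]
        · intro d _ hdc
          by_cases hd : lvl m a₀ < lvl m d
          · rw [ih a₀ (by omega) d hd, zero_mul]
          · rw [ac_single, (mem_U_iff _).1 hu' d c (by omega), Matrix.one_apply_ne hdc, mul_zero]
        · intro h
          exact absurd (Finset.mem_univ c) h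
      rw [h2, hw, ac_single, ac_single] at h1
      have h3 : ε * (g : Mt) a c = 0 := by linear_combination -h1
      exact (mul_eq_zero.1 h3).resolve_left hε
  intro a c hac
  exact key (2 * m - 1 - lvl m a) a (by have := lvl_le a; omega) c hac

theorem mem_normalizer_U_of_diag {h : Sp m F} {δ : Fin m ⊕ Fin m → F} (hδ : ∀ a, δ a ≠ 0)
    (hh : ∀ (w : V m F) a, (h ∙ w) a = δ a * w a) :
    h ∈ Subgroup.normalizer (U m F : Set (Sp m F)) := by
  have hfin : Finite (Sp m F) := finite_Sp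
  refine mem_normalizer_of_cj_le (cj_le_iff.2 (fun u hu => ?_))
  rw [mem_U_iff']
  intro a c hac
  have hsingle : h ∙ (Pi.single c 1 : V m F) = δ c • (Pi.single c 1 : V m F) := by
    funext b
    rw [hh, Pi.smul_apply, smul_eq_mul, Pi.single_apply]
    split_ifs with hb
    · rw [hb]
    · simp
  have heq : (h * u * h⁻¹) * h = h * u := by group
  have h1 := congrArg (fun M : Sp m F => (M ∙ (Pi.single c 1 : V m F)) a) heq
  simp only [ac_mul (h * u * h⁻¹) h, ac_mul h u, hsingle, ac_smul, hh, Pi.smul_apply,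
    smul_eq_mul] at h1
  rw [(mem_U_iff' u).1 hu a c hac] at h1
  have h2 : δ a * (Pi.single c 1 : V m F) a = δ c * (Pi.single c 1 : V m F) a := by
    rw [Pi.single_apply]
    split_ifs with hb
    · rw [hb]
    · simp
  rw [h2] at h1
  exact mul_left_cancel₀ (hδ c) h1

theorem tor_mem_normalizer_U (i : Fin m) (μ : F) (hμ : μ ≠ 0) :
    tor i μ hμ ∈ Subgroup.normalizer (U m F : Set (Sp m F)) := by
  refine mem_normalizer_U_of_diag (δ := fun a => if a = Sum.inl i then μ else
    if a = Sum.inr i then μ⁻¹ else 1) (fun a => ?_) (fun w a => ac_tor_apply i μ hμ w a)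
  show (if a = Sum.inl i then μ else if a = Sum.inr i then μ⁻¹ else 1) ≠ 0
  split_ifs
  · exact hμ
  · exact inv_ne_zero hμ
  · exact one_ne_zero

/-! ### the Siegel radical -/

theorem mem_normalizer_QS {g : Sp m F} (h : ∀ w, InE w → InE (g ∙ w)) :
    g ∈ Subgroup.normalizer (QS m F : Set (Sp m F)) := by
  have hfin : Finite (Sp m F) := finite_Sp
  have hpow : ∀ k : ℕ, ∀ w, InE w → InE ((g ^ k) ∙ w) := by
    intro k
    induction k with
    | zero => intro w hw; rwa [pow_zero, ac_one]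
    | succ k ih => intro w hw; rw [pow_succ, ac_mul]; exact ih _ (h w hw)
  have h1 : g⁻¹ = g ^ (orderOf g - 1) := by
    rw [inv_eq_iff_mul_eq_one, ← pow_succ', Nat.sub_add_cancel (orderOf_pos g), pow_orderOf_eq_one]
  refine mem_normalizer_of_cj_le (cj_le_iff.2 (fun s hs => ?_))
  intro w hw
  rw [ac_mul, ac_mul, hs _ (by rw [h1]; exact hpow _ w hw), ac_ac_inv]

theorem U_pres_E {u : Sp m F} (hu : u ∈ U m F) : ∀ w, InE w → InE (u ∙ w) := by
  intro w hw k
  rw [ac_apply]
  refine Finset.sum_eq_zero (fun b _ => ?_)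
  rcases b with j | j
  · rw [(mem_U_iff u).1 hu (Sum.inr k) (Sum.inl j) (by
      simp only [lvl_inl, lvl_inr]; have := k.2; have := j.2; omega),
      Matrix.one_apply_ne (by simp), zero_mul]
  · rw [hw j, mul_zero]

theorem xl_pres_E {i j : Fin m} (hij : i ≠ j) (c : F) : ∀ w, InE w → InE (xl i j c ∙ w) := by
  intro w hw k
  rw [ac_xl_apply hij, hw k, hw i]
  simp

theorem xl_pElement (p : ℕ) [CharP F p] {i j : Fin m} (hij : i ≠ j) (c : F) :
    ∃ k : ℕ, (xl i j c) ^ p ^ k = 1 :=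
  ⟨1, by rw [pow_one, xl, sg_pow_char p (by rw [B_smul_left, B_fb_eb_ne hij.symm, mul_zero])]⟩

theorem fix_of_fix_eb {x : Sp m F} (h : ∀ i : Fin m, x ∙ (eb i : V m F) = eb i) : x ∈ QS m F := by
  intro w hw
  funext a
  have hone : ∑ b, (1 : Mt) a b * w b = w a := congrFun (Matrix.one_mulVec w) a
  rw [ac_apply, ← hone]
  refine Finset.sum_congr rfl (fun b _ => ?_)
  rcases b with j | j
  · have := congrFun (h j) a
    rw [eb, ac_single] at this
    rw [this, Matrix.one_apply, Pi.single_apply]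
  · rw [hw j, mul_zero, mul_zero]

theorem centralizer_QS_le (hm : 2 ≤ m) :
    Subgroup.centralizer (QS m F : Set (Sp m F)) ≤ QS m F ⊔ Subgroup.center (Sp m F) := by
  intro x hx
  obtain ⟨i0, h0⟩ : ∃ i : Fin m, i.val = 0 := ⟨⟨0, by omega⟩, rfl⟩
  have hc : ∀ s ∈ QS m F, x * s * x⁻¹ = s := by
    intro s hs
    rw [← (Subgroup.mem_centralizer_iff.1 hx) s hs, mul_inv_cancel_right]
  have hl : ∀ i : Fin m, ∃ l : F, l ^ 2 = 1 ∧ x ∙ (eb i : V m F) = l • eb i := by
    intro i
    have h1 := hc _ (tv_mem_QS (inE_eb i) (1 : F))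
    rw [tv_conj] at h1
    obtain ⟨l, -, hl⟩ := parallel_of_tv_eq h1.symm (eb_ne_zero i) one_ne_zero
    refine ⟨l, ?_, hl⟩
    rw [hl, tv_smul, mul_one] at h1
    exact tv_inj_right (eb_ne_zero i) h1
  choose l hl2 hl using hl
  have hll : ∀ i : Fin m, l i = l i0 := by
    intro i
    by_cases hi : i = i0
    · rw [hi]
    have h1 := hc _ (sg_mem_QS (inE_eb i0) (inE_eb i) (0 : F))
    rw [sg_conj, hl, hl, sg_smul_left (by rw [B_smul_left, B_eb_eb, mul_zero]), mul_zero] at h1
    obtain ⟨c, hc'⟩ := sg_eq_imp (eb_ne_zero i0) (B_eb_eb i i0)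
      (by rw [B_smul_left, B_smul_left, B_eb_eb, mul_zero, mul_zero]) h1
    have h2 := congrFun hc' (Sum.inl i)
    simp only [Pi.add_apply, Pi.smul_apply, smul_eq_mul, eb, Pi.single_apply, if_true,
      Sum.inl.injEq, hi, if_false, mul_one, mul_zero, add_zero] at h2
    have h3 := hl2 i0
    have h4 : l i = l i0 * (l i0 * l i) := by rw [← mul_assoc, ← sq, h3, one_mul]
    rw [h4, h2, mul_one]
  have hq : scl (l i0) (hl2 i0) * x ∈ QS m F := by
    apply fix_of_fix_eb
    intro i
    rw [ac_mul, hl, ac_scl, hll i, smul_smul, ← sq, hl2 i0, one_smul]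
  have hz : (scl (l i0) (hl2 i0) : Sp m F) ∈ Subgroup.center (Sp m F) :=
    mem_center_of_scalar (ac_scl (l i0) (hl2 i0))
  have h5 : x = (scl (l i0) (hl2 i0) : Sp m F)⁻¹ * (scl (l i0) (hl2 i0) * x) := by
    rw [inv_mul_cancel_left]
  rw [h5, sup_comm]
  exact Subgroup.mul_mem_sup (Subgroup.inv_mem _ hz) hq

/-! ### the radical of a point stabilizer -/

/-- the group of Siegel elements with centre `e` -/
def R1 (e : V m F) : Subgroup (Sp m F) where
  carrier := {g | ∃ y, B y e = 0 ∧ ∃ b, g = sg e y b}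
  one_mem' := ⟨0, B_zero_left e, 0, (sg_zero_zero e).symm⟩
  mul_mem' := by
    rintro _ _ ⟨y, hy, b, rfl⟩ ⟨y', hy', b', rfl⟩
    exact ⟨y + y', by rw [B_add_left, hy, hy', add_zero], _, sg_mul hy hy' b b'⟩
  inv_mem' := by
    rintro _ ⟨y, hy, b, rfl⟩
    exact ⟨-y, by rw [B_neg_left, hy, neg_zero], _, sg_inv hy b⟩

theorem mem_normalizer_R1 {e : V m F} {s : Sp m F} (hs : s ∙ e = e) :
    s ∈ Subgroup.normalizer (R1 e : Set (Sp m F)) := by
  have hfin : Finite (Sp m F) := finite_Sp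
  refine mem_normalizer_of_cj_le (cj_le_iff.2 ?_)
  rintro _ ⟨y, hy, b, rfl⟩
  exact ⟨s ∙ y, by rw [B_ac_fix hs]; exact hy, b, by rw [sg_conj, hs]⟩

theorem centralizer_R1_le (p : ℕ) [Fact p.Prime] [CharP F p] (hm : 1 ≤ m) {e : V m F} (he : e ≠ 0) :
    Subgroup.centralizer (R1 e : Set (Sp m F)) ≤ R1 e ⊔ Subgroup.center (Sp m F) := by
  intro x hx
  have hQ : ∀ y ∈ Q e, y * pm x = pm x * y := by
    rintro _ ⟨y, hy, b, rfl⟩
    rw [← pm_mul, ← pm_mul, (Subgroup.mem_centralizer_iff.1 hx) _ ⟨y, hy, b, rfl⟩]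
  obtain ⟨y₀, b₀, hy₀, hz0, -⟩ := central_form p hm he (pm x) hQ
  have h1 : (sg e y₀ b₀)⁻¹ * x ∈ Subgroup.center (Sp m F) := QuotientGroup.eq.1 hz0.symm
  have h2 : x = sg e y₀ b₀ * ((sg e y₀ b₀)⁻¹ * x) := by rw [mul_inv_cancel_left]
  rw [h2]
  exact Subgroup.mul_mem_sup ⟨y₀, hy₀, b₀, rfl⟩ h1

theorem R1_le_U {i0 : Fin m} (h0 : i0.val = 0) : R1 (eb i0 : V m F) ≤ U m F := by
  rintro _ ⟨y, hy, b, rfl⟩
  refine sg_mem_U i0 y (fun k hk => ?_) b
  have : k = i0 := Fin.ext (by have : k.val ≤ i0.val := hk; omega)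
  rw [this, ← B_eb_right y i0]
  exact hy

/-! ### triangular matrices -/

theorem tri_mul {g g' : Sp m F} (h : Tri g) (h' : Tri g') :
    Tri (g * g') ∧ ∀ a, ((g * g' : Sp m F) : Mt) a a = (g : Mt) a a * (g' : Mt) a a := by
  constructor
  · intro a c hac
    rw [Submonoid.coe_mul, Matrix.mul_apply]
    refine Finset.sum_eq_zero (fun d _ => ?_)
    by_cases hd : lvl m a < lvl m d
    · rw [h a d hd, zero_mul]
    · rw [h' d c (by omega), mul_zero]
  · intro a
    rw [Submonoid.coe_mul, Matrix.mul_apply, Finset.sum_eq_single a]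
    · intro d _ hda
      have hne : lvl m d ≠ lvl m a := fun hh => hda (lvl_injective hh)
      by_cases hd : lvl m a < lvl m d
      · rw [h a d hd, zero_mul]
      · rw [h' d a (by omega), mul_zero]
    · intro hh
      exact absurd (Finset.mem_univ a) hh

theorem tri_one : Tri (1 : Sp m F) := by
  intro a c hac
  rw [Submonoid.coe_one, Matrix.one_apply_ne]
  rintro rfl
  exact lt_irrefl _ hac

theorem tri_pow {g : Sp m F} (h : Tri g) (k : ℕ) :
    Tri (g ^ k) ∧ ∀ a, ((g ^ k : Sp m F) : Mt) a a = (g : Mt) a a ^ k := by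
  induction k with
  | zero =>
    refine ⟨by rw [pow_zero]; exact tri_one, fun a => ?_⟩
    rw [pow_zero, pow_zero, Submonoid.coe_one, Matrix.one_apply_eq]
  | succ k ih =>
    rw [pow_succ]
    refine ⟨(tri_mul ih.1 h).1, fun a => ?_⟩
    rw [(tri_mul ih.1 h).2, ih.2, pow_succ]

theorem mem_U_of_tri {g : Sp m F} (h : Tri g) (hd : ∀ a, (g : Mt) a a = 1) : g ∈ U m F := by
  rw [mem_U_iff]
  intro a b hab
  by_cases hab' : a = b
  · subst hab'
    rw [hd, Matrix.one_apply_eq]
  · have hne : lvl m a ≠ lvl m b := fun hh => hab' (lvl_injective hh)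
    rw [h a b (by omega), Matrix.one_apply_ne hab']

theorem tri_diag_mul {g : Sp m F} (h : Tri g) (i : Fin m) :
    (g : Mt) (Sum.inl i) (Sum.inl i) * (g : Mt) (Sum.inr i) (Sum.inr i) = 1 := by
  have h1 := B_ac g (eb i : V m F) (fb i)
  rw [B_eb_fb] at h1
  have h2 : B (g ∙ (eb i : V m F)) (g ∙ (fb i : V m F)) =
      - ((g : Mt) (Sum.inl i) (Sum.inl i) * (g : Mt) (Sum.inr i) (Sum.inr i)) := by
    show Cfsg.sympForm m F _ _ = _
    rw [sympForm_eq_sum, Finset.sum_eq_single i]
    · rw [eb, fb, ac_single, ac_single, ac_single, ac_single,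
        h (Sum.inr i) (Sum.inl i) (by simp only [lvl_inl, lvl_inr]; have := i.2; omega)]
      ring
    · intro k _ hki
      rw [eb, fb, ac_single, ac_single, ac_single, ac_single,
        h (Sum.inr k) (Sum.inl i) (by simp only [lvl_inl, lvl_inr]; have := i.2; have := k.2; omega)]
      have hne : k.val ≠ i.val := fun hh => hki (Fin.ext hh)
      by_cases hk : k.val < i.val
      · rw [h (Sum.inr k) (Sum.inr i) hk]
        ring
      · rw [h (Sum.inl k) (Sum.inl i) (by
          simp only [lvl_inl]; have := i.2; have := k.2; omega)]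
        ring
    · intro hh
      exact absurd (Finset.mem_univ i) hh
  rw [h2] at h1
  exact neg_injective h1

theorem pElement_normalizer_mem_U (p : ℕ) [Fact p.Prime] [CharP F p] {g : Sp m F}
    (hg : g ∈ Subgroup.normalizer (U m F : Set (Sp m F))) (hp : ∃ k : ℕ, g ^ p ^ k = 1) :
    g ∈ U m F := by
  obtain ⟨k, hk⟩ := hp
  have ht := tri_of_mem_normalizer hg
  refine mem_U_of_tri ht (fun a => ?_)
  have h1 := (tri_pow ht (p ^ k)).2 a
  rw [hk, Submonoid.coe_one, Matrix.one_apply_eq] at h1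
  have h2 : ((g : Mt) a a - 1) ^ p ^ k = 0 := by
    rw [sub_pow_char_pow, ← h1, one_pow, sub_self]
  exact sub_eq_zero.1 (pow_eq_zero_iff (pow_pos (Fact.out : p.Prime).pos k).ne' |>.1 h2)

end Cfsg.Agent.Lib.Helper89.SpF
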