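import Cfsg.Agent.Lib.Helper18.AutPSp.Torus
import Cfsg.Agent.Lib.Helper23.Deg

/-!
# The unitriangular subgroup of `Sp_{2m}(F)` (geometric API of Helper18)
-/

set_option autoImplicit false
set_option linter.unusedSimpArgs false
set_option linter.unusedSectionVars false

namespace Cfsg.Agent.Lib.Helper89.SpF

open Matrix Cfsg.Agent.Lib.Helper18.AutPSp Cfsg.Agent.Lib.Helper23

variable {F : Type*} [Field F] {m : ℕ}

/-- The level of a coordinate: `e_0 > e_1 > ⋯ > e_{m-1} > f_{m-1} > ⋯ > f_0`. -/
def lvl (m : ℕ) : Fin m ⊕ Fin m → ℕ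
  | Sum.inl i => 2 * m - 1 - i.val
  | Sum.inr i => i.val

@[simp] theorem lvl_inl (i : Fin m) : lvl m (Sum.inl i) = 2 * m - 1 - i.val := rfl
@[simp] theorem lvl_inr (i : Fin m) : lvl m (Sum.inr i) = i.val := rfl

theorem lvl_injective : Function.Injective (lvl m) := by
  rintro (a | a) (b | b) h
  · simp only [lvl_inl] at h
    have := a.2; have := b.2
    exact congrArg Sum.inl (Fin.ext (by omega))
  · simp only [lvl_inl, lvl_inr] at h
    have := a.2; have := b.2
    omega
  · simp only [lvl_inl, lvl_inr] at h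
    have := a.2; have := b.2
    omega
  · simp only [lvl_inr] at h
    exact congrArg Sum.inr (Fin.ext h)

theorem lvl_le (a : Fin m ⊕ Fin m) : lvl m a ≤ 2 * m - 1 := by
  rcases a with a | a
  · simp only [lvl_inl]; omega
  · simp only [lvl_inr]; have := a.2; omega

theorem ac_apply (g : Sp m F) (x : V m F) (a : Fin m ⊕ Fin m) :
    (g ∙ x) a = ∑ b, (g : Matrix (Fin m ⊕ Fin m) (Fin m ⊕ Fin m) F) a b * x b := rfl

theorem ac_single (g : Sp m F) (a b : Fin m ⊕ Fin m) :
    (g ∙ (Pi.single b 1 : V m F)) a = (g : Matrix (Fin m ⊕ Fin m) (Fin m ⊕ Fin m) F) a b := by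
  rw [ac_apply, Finset.sum_eq_single b]
  · simp
  · intro c _ hc
    simp [Pi.single_apply, hc]
  · simp

theorem finite_Sp [Finite F] : Finite (Sp m F) :=
  Finite.of_injective (fun z => (z : Matrix (Fin m ⊕ Fin m) (Fin m ⊕ Fin m) F)) Subtype.val_injective

theorem deg_mul_sub_one {A C : Matrix (Fin m ⊕ Fin m) (Fin m ⊕ Fin m) F}
    (hA : Deg (lvl m) 1 (A - 1)) (hC : Deg (lvl m) 1 (C - 1)) : Deg (lvl m) 1 (A * C - 1) := by
  have : A * C - 1 = (A - 1) * (C - 1) + (A - 1) + (C - 1) := by noncomm_ring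
  rw [this]
  exact (((hA.mul hC).mono (by omega)).add hA).add hC

/-- The unitriangular subgroup. -/
def U (m : ℕ) (F : Type*) [Field F] [Finite F] : Subgroup (Sp m F) where
  carrier := {g | Deg (lvl m) 1 ((g : Matrix (Fin m ⊕ Fin m) (Fin m ⊕ Fin m) F) - 1)}
  one_mem' := by
    show Deg (lvl m) 1 (((1 : Sp m F) : Matrix (Fin m ⊕ Fin m) (Fin m ⊕ Fin m) F) - 1)
    rw [Submonoid.coe_one, sub_self]
    exact Deg.zero 1
  mul_mem' := fun {A C} hA hC => deg_mul_sub_one hA hC
  inv_mem' := fun {A} hA => by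
    have hfin : Finite (Sp m F) := finite_Sp
    have hpow : ∀ k : ℕ, Deg (lvl m) 1
        (((A ^ k : Sp m F) : Matrix (Fin m ⊕ Fin m) (Fin m ⊕ Fin m) F) - 1) := by
      intro k
      induction k with
      | zero =>
        rw [pow_zero, Submonoid.coe_one, sub_self]
        exact Deg.zero 1
      | succ k ih =>
        rw [pow_succ]
        exact deg_mul_sub_one ih hA
    have h1 : A⁻¹ = A ^ (orderOf A - 1) := by
      rw [inv_eq_iff_mul_eq_one, ← pow_succ', Nat.sub_add_cancel (orderOf_pos A), pow_orderOf_eq_one]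
    show Deg (lvl m) 1 (((A⁻¹ : Sp m F) : Matrix (Fin m ⊕ Fin m) (Fin m ⊕ Fin m) F) - 1)
    rw [h1]
    exact hpow _

variable [Finite F]

theorem mem_U_iff (g : Sp m F) : g ∈ U m F ↔ ∀ a b, lvl m a ≤ lvl m b →
    (g : Matrix (Fin m ⊕ Fin m) (Fin m ⊕ Fin m) F) a b =
      (1 : Matrix (Fin m ⊕ Fin m) (Fin m ⊕ Fin m) F) a b := by
  constructor
  · intro h a b hab
    by_contra hne
    have := h a b (by rw [Matrix.sub_apply]; exact sub_ne_zero.2 hne)
    omega
  · intro h a b hab
    by_contra hlt
    apply hab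
    rw [Matrix.sub_apply, h a b (by omega), sub_self]

/-- membership in terms of the action on the basis vectors -/
theorem mem_U_iff' (g : Sp m F) : g ∈ U m F ↔ ∀ a b, lvl m a ≤ lvl m b →
    (g ∙ (Pi.single b 1 : V m F)) a = (Pi.single b 1 : V m F) a := by
  rw [mem_U_iff]
  refine forall_congr' (fun a => forall_congr' (fun b => imp_congr_right (fun _ => ?_)))
  rw [ac_single, Matrix.one_apply, Pi.single_apply]

theorem isPGroup_U (p : ℕ) [Fact p.Prime] [CharP F p] : IsPGroup p (U m F) := by
  rintro ⟨g, hg⟩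
  obtain ⟨k, hk⟩ : ∃ k : ℕ, 2 * m - 1 < p ^ k :=
    ⟨2 * m - 1, Nat.lt_pow_self (Fact.out : p.Prime).one_lt⟩
  refine ⟨k, Subtype.ext (Subtype.ext ?_)⟩
  show ((g ^ p ^ k : Sp m F) : Matrix (Fin m ⊕ Fin m) (Fin m ⊕ Fin m) F) = 1
  rw [SubmonoidClass.coe_pow]
  have h0 : ((g : Matrix (Fin m ⊕ Fin m) (Fin m ⊕ Fin m) F) - 1) ^ p ^ k = 0 :=
    Deg.eq_zero lvl_le hk (Deg.pow hg _)
  rcases isEmpty_or_nonempty (Fin m ⊕ Fin m) with he | hne
  · exact Subsingleton.elim _ _
  · have hc : Commute (g : Matrix (Fin m ⊕ Fin m) (Fin m ⊕ Fin m) F) 1 := Commute.one_right _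
    have := sub_pow_char_pow_of_commute (p := p) (n := k) hc
    rw [h0, one_pow] at this
    exact (sub_eq_zero.1 this.symm)

theorem B_single_inl_left (k : Fin m) (y : V m F) :
    B (Pi.single (Sum.inl k) 1 : V m F) y = - y (Sum.inr k) := by
  rw [B_swap]
  congr 1
  exact B_eb_right y k

theorem B_single_inr_left (k : Fin m) (y : V m F) :
    B (Pi.single (Sum.inr k) 1 : V m F) y = y (Sum.inl k) := by
  rw [B_swap]
  have := B_fb_right y k
  rw [fb] at this
  rw [this, neg_neg]

/-- The Siegel elements lying in `U`. -/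
theorem sg_mem_U (i : Fin m) (y : V m F) (hy : ∀ k : Fin m, k ≤ i → y (Sum.inr k) = 0) (b : F) :
    sg (eb i) y b ∈ U m F := by
  have hyi : B y (eb i) = 0 := by rw [B_eb_right]; exact hy i le_rfl
  rw [mem_U_iff']
  intro a c hac
  rw [ac_sg hyi]
  simp only [Pi.add_apply, Pi.smul_apply, smul_eq_mul]
  have h1 : B (Pi.single c 1 : V m F) (eb i) * (y a + b * (eb i : V m F) a) = 0 := by
    rw [B_eb_right]
    by_cases hc : c = Sum.inr i
    · subst hc
      rcases a with k | k
      · simp only [lvl_inl, lvl_inr] at hac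
        have := k.2; have := i.2
        omega
      · have hk : k ≤ i := hac
        rw [hy k hk]
        simp [eb]
    · rw [Pi.single_apply, if_neg (fun h => hc h.symm), zero_mul]
  have h2 : B (Pi.single c 1 : V m F) y * (eb i : V m F) a = 0 := by
    by_cases ha : a = Sum.inl i
    · subst ha
      rcases c with k | k
      · have hk : k ≤ i := by
          simp only [lvl_inl] at hac
          have := k.2; have := i.2
          rw [Fin.le_def]
          omega
        rw [B_single_inl_left, hy k hk]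
        simp
      · simp only [lvl_inl, lvl_inr] at hac
        have := k.2; have := i.2
        omega
    · rw [eb, Pi.single_apply, if_neg ha, mul_zero]
  rw [h1, h2, add_zero, add_zero]

theorem tv_eb_mem_U (i : Fin m) (b : F) : tv (eb i) b ∈ U m F := by
  rw [← sg_zero]
  exact sg_mem_U i 0 (fun _ _ => rfl) b

theorem U_fix_eb {i0 : Fin m} (h0 : i0.val = 0) {u : Sp m F} (hu : u ∈ U m F) :
    u ∙ (eb i0 : V m F) = eb i0 := by
  funext a
  refine (mem_U_iff' u).1 hu a (Sum.inl i0) ?_
  rw [lvl_inl, h0]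
  exact lvl_le a

/-- Consecutive coordinates are linked by an element of `U`. -/
theorem exists_link {a₀ a : Fin m ⊕ Fin m} (h : lvl m a₀ = lvl m a + 1) :
    ∃ t ∈ U m F, ∃ ε : F, ε ≠ 0 ∧ ∀ w : V m F, (t ∙ w) a₀ = w a₀ + ε * w a := by
  rcases a₀ with i | i <;> rcases a with j | j
  · simp only [lvl_inl] at h
    have hij : i < j := by
      have := i.2; have := j.2
      rw [Fin.lt_def]; omega
    have hy : ∀ k : Fin m, k ≤ i → (-(fb j) : V m F) (Sum.inr k) = 0 := by
      intro k hk
      have : k ≠ j := ne_of_lt (lt_of_le_of_lt hk hij)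
      simp [fb, Pi.single_apply, this]
    refine ⟨sg (eb i) (-(fb j)) 0, sg_mem_U i _ hy 0, 1, one_ne_zero, fun w => ?_⟩
    rw [ac_sg (by rw [B_eb_right]; exact hy i le_rfl)]
    simp only [Pi.add_apply, Pi.smul_apply, smul_eq_mul, B_neg_right, B_fb_right, Pi.neg_apply]
    simp [eb, fb]
  · simp only [lvl_inl, lvl_inr] at h
    have hij : i = j := by
      have := i.2; have := j.2
      exact Fin.ext (by omega)
    subst hij
    refine ⟨tv (eb i) 1, tv_eb_mem_U i 1, 1, one_ne_zero, fun w => ?_⟩
    rw [ac_tv]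
    simp only [Pi.add_apply, Pi.smul_apply, smul_eq_mul, B_eb_right]
    simp [eb]
  · simp only [lvl_inl, lvl_inr] at h
    have := i.2; have := j.2
    omega
  · simp only [lvl_inr] at h
    have hij : j < i := by
      rw [Fin.lt_def]; omega
    have hy : ∀ k : Fin m, k ≤ j → (-(fb i) : V m F) (Sum.inr k) = 0 := by
      intro k hk
      have : k ≠ i := ne_of_lt (lt_of_le_of_lt hk hij)
      simp [fb, Pi.single_apply, this]
    refine ⟨sg (eb j) (-(fb i)) 0, sg_mem_U j _ hy 0, -1, neg_ne_zero.2 one_ne_zero, fun w => ?_⟩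
    rw [ac_sg (by rw [B_eb_right]; exact hy j le_rfl)]
    simp only [Pi.add_apply, Pi.smul_apply, smul_eq_mul, B_neg_right, B_fb_right, B_eb_right,
      Pi.neg_apply]
    simp [eb, fb]

/-- `U` is generated by the Siegel elements it contains. -/
theorem U_le_of_sg_mem (T : Subgroup (Sp m F))
    (hT : ∀ (i : Fin m) (y : V m F), (∀ k : Fin m, k ≤ i → y (Sum.inr k) = 0) →
      ∀ b, sg (eb i) y b ∈ T) : U m F ≤ T := by
  have key : ∀ d i : ℕ, i + d = m → ∀ u ∈ U m F,
      (∀ k : Fin m, k.val < i → u ∙ (fb k : V m F) = fb k) → u ∈ T := by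
    intro d
    induction d with
    | zero =>
      intro i hi u hu hfix
      have h1 : u = 1 := by
        apply Subtype.ext
        ext a c
        rw [Submonoid.coe_one, ← ac_single, Matrix.one_apply]
        rcases c with j | j
        · rcases a with k | k
          · have h2 : (u ∙ (eb j : V m F)) (Sum.inl k) = (eb j : V m F) (Sum.inl k) := by
              have h3 := B_ac u (eb j : V m F) (fb k)
              rw [hfix k (by have := k.2; omega), B_fb_right, B_fb_right] at h3
              exact neg_injective h3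
            rw [eb] at h2
            rw [h2, Pi.single_apply]
          · have h2 := (mem_U_iff' u).1 hu (Sum.inr k) (Sum.inl j) (by
              simp only [lvl_inl, lvl_inr]
              have := k.2; have := j.2
              omega)
            rw [h2, Pi.single_apply]
        · have h2 := hfix j (by have := j.2; omega)
          rw [fb] at h2
          rw [h2, Pi.single_apply]
      rw [h1]
      exact T.one_mem
    | succ d ih =>
      intro i hi u hu hfix
      have him : i < m := by omega
      set ii : Fin m := ⟨i, him⟩ with hii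
      set dd : V m F := u ∙ (fb ii : V m F) - fb ii with hdd
      have hy : ∀ k : Fin m, k ≤ ii → dd (Sum.inr k) = 0 := by
        intro k hk
        have h2 := (mem_U_iff' u).1 hu (Sum.inr k) (Sum.inr ii) hk
        rw [hdd, Pi.sub_apply, fb, h2, sub_self]
      have hdi : B dd (eb ii) = 0 := by rw [B_eb_right]; exact hy ii le_rfl
      have hrT := hT ii dd hy (-B (fb ii) dd)
      have hrU := sg_mem_U ii dd hy (-B (fb ii) dd)
      set r := sg (eb ii) dd (-B (fb ii) dd) with hr
      have hr1 : r ∙ (fb ii : V m F) = u ∙ (fb ii : V m F) := by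
        rw [hr, ac_sg hdi, B_fb_eb]
        have : u ∙ (fb ii : V m F) = fb ii + dd := by rw [hdd]; abel
        rw [this]
        module
      have hr2 : ∀ k : Fin m, k.val < i → r ∙ (fb k : V m F) = fb k := by
        intro k hk
        have hne : k ≠ ii := by
          intro h
          rw [h] at hk
          exact lt_irrefl _ hk
        have h3 : B (fb k : V m F) dd = 0 := by
          rw [hdd, B_sub_right, B_fb_fb, sub_zero]
          conv_lhs => rw [← hfix k hk]
          rw [B_ac, B_fb_fb]
        rw [hr, ac_sg hdi, B_fb_eb_ne hne, h3]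
        module
      have hu' : r⁻¹ * u ∈ T := by
        refine ih (i + 1) (by omega) _ ((U m F).mul_mem ((U m F).inv_mem hrU) hu) ?_
        intro k hk
        rw [ac_mul]
        rcases Nat.lt_succ_iff_lt_or_eq.1 hk with h | h
        · rw [hfix k h]
          conv_lhs => rw [← hr2 k h]
          rw [ac_inv_ac]
        · have hk' : k = ii := Fin.ext h
          rw [hk', ← hr1, ac_inv_ac]
      have : u = r * (r⁻¹ * u) := by rw [mul_inv_cancel_left]
      rw [this]
      exact T.mul_mem hrT hu'
  intro u hu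
  exact key m 0 (by omega) u hu (fun k hk => absurd hk (Nat.not_lt_zero _))

end Cfsg.Agent.Lib.Helper89.SpF
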