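import Cfsg.Agent.Lib.Helper89.UniSLGen
import Cfsg.Agent.Lib.Helper89.SimpleGen

/-!
# Normalizer of the unitriangular group, radicals of maximal parabolics, and `GenHyp` for `SL_n(K)`
-/

set_option autoImplicit false
set_option linter.unusedSimpArgs false

namespace Cfsg.Agent.Lib.Helper89.UT

open Matrix Matrix.SpecialLinearGroup Cfsg.Agent.Lib.Helper47 Cfsg.Agent.Lib.Helper87

variable {n : ℕ} {K : Type*} [Field K]

theorem smul_apply' (A : SpecialLinearGroup (Fin n) K) (w : Fin n → K) (a : Fin n) :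
    (A • w) a = ∑ b, A.1 a b * w b := rfl

/-- The span of the first `k` basis vectors. -/
def Vk (n : ℕ) (K : Type*) [Field K] (k : ℕ) : Submodule K (Fin n → K) where
  carrier := {w | ∀ a : Fin n, k ≤ a.val → w a = 0}
  add_mem' := by
    intro x y hx hy a ha
    simp [hx a ha, hy a ha]
  zero_mem' := fun _ _ => rfl
  smul_mem' := by
    intro c x hx a ha
    simp [hx a ha]

theorem mem_Vk_iff (k : ℕ) (w : Fin n → K) : w ∈ Vk n K k ↔ ∀ a : Fin n, k ≤ a.val → w a = 0 :=
  Iff.rfl

/-- The unipotent radical of the stabilizer of `Vk`. -/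
def Qk (n : ℕ) (K : Type*) [Field K] (k : ℕ) : Subgroup (SpecialLinearGroup (Fin n) K) :=
  lineStab (Vk n K k) ⊓ fixingSubgroup (SpecialLinearGroup (Fin n) K) (Vk n K k : Set (Fin n → K))

theorem mem_Qk_iff (k : ℕ) (A : SpecialLinearGroup (Fin n) K) :
    A ∈ Qk n K k ↔ (∀ w : Fin n → K, A • w - w ∈ Vk n K k) ∧ ∀ w ∈ Vk n K k, A • w = w := by
  rw [Qk, Subgroup.mem_inf, mem_lineStab_iff, mem_fixingSubgroup_iff]
  rfl

theorem mem_Qk_of_entries {k : ℕ} {A : SpecialLinearGroup (Fin n) K}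
    (h : ∀ a b : Fin n, ¬ (a.val < k ∧ k ≤ b.val) → A.1 a b = (1 : Matrix (Fin n) (Fin n) K) a b) :
    A ∈ Qk n K k := by
  have hone : ∀ (w : Fin n → K) (a : Fin n), ∑ b, (1 : Matrix (Fin n) (Fin n) K) a b * w b = w a := by
    intro w a
    have := congrFun (Matrix.one_mulVec w) a
    exact this
  rw [mem_Qk_iff]
  refine ⟨fun w a ha => ?_, fun w hw => ?_⟩
  · rw [Pi.sub_apply, smul_apply', sub_eq_zero, ← hone w a]
    refine Finset.sum_congr rfl (fun b _ => ?_)
    rw [h a b (fun h' => by omega)]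
  · funext a
    rw [smul_apply', ← hone w a]
    refine Finset.sum_congr rfl (fun b _ => ?_)
    by_cases hb : k ≤ b.val
    · rw [hw b hb, mul_zero, mul_zero]
    · rw [h a b (fun h' => hb h'.2)]

theorem smul_single (A : SpecialLinearGroup (Fin n) K) (a b : Fin n) :
    (A • (Pi.single b 1 : Fin n → K)) a = A.1 a b := by
  rw [smul_apply', Finset.sum_eq_single b]
  · simp
  · intro c _ hc
    simp [Pi.single_apply, hc]
  · simp

theorem entries_of_mem_Qk {k : ℕ} {A : SpecialLinearGroup (Fin n) K} (hA : A ∈ Qk n K k)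
    (a b : Fin n) (h : ¬ (a.val < k ∧ k ≤ b.val)) :
    A.1 a b = (1 : Matrix (Fin n) (Fin n) K) a b := by
  rw [mem_Qk_iff] at hA
  have hs : (Pi.single b 1 : Fin n → K) a = (1 : Matrix (Fin n) (Fin n) K) a b := by
    rw [Matrix.one_apply, Pi.single_apply]
  by_cases ha : k ≤ a.val
  · have h1 := hA.1 (Pi.single b 1) a ha
    rw [Pi.sub_apply, smul_single, sub_eq_zero] at h1
    rw [h1, hs]
  · have hb : b.val < k := by
      by_contra hb
      exact h ⟨by omega, by omega⟩
    have hmem : (Pi.single b 1 : Fin n → K) ∈ Vk n K k := by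
      intro c hc
      rw [Pi.single_apply, if_neg]
      rintro rfl
      omega
    have h1 := congrFun (hA.2 _ hmem) a
    rw [smul_single] at h1
    rw [h1, hs]

theorem conj_mem_Qk {k : ℕ} {g : SpecialLinearGroup (Fin n) K}
    (h1 : ∀ w ∈ Vk n K k, g • w ∈ Vk n K k) (h2 : ∀ w ∈ Vk n K k, g⁻¹ • w ∈ Vk n K k)
    {A : SpecialLinearGroup (Fin n) K} (hA : A ∈ Qk n K k) : g * A * g⁻¹ ∈ Qk n K k := by
  rw [mem_Qk_iff] at hA ⊢
  refine ⟨fun w => ?_, fun w hw => ?_⟩
  · have h3 := h1 _ (hA.1 (g⁻¹ • w))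
    rw [smul_sub, smul_inv_smul] at h3
    rw [mul_smul, mul_smul]
    exact h3
  · rw [mul_smul, mul_smul, hA.2 _ (h2 w hw), smul_inv_smul]

theorem mem_normalizer_Qk {k : ℕ} {g : SpecialLinearGroup (Fin n) K}
    (h1 : ∀ w ∈ Vk n K k, g • w ∈ Vk n K k) (h2 : ∀ w ∈ Vk n K k, g⁻¹ • w ∈ Vk n K k) :
    g ∈ Subgroup.normalizer (Qk n K k : Set (SpecialLinearGroup (Fin n) K)) := by
  rw [Subgroup.mem_normalizer_iff]
  intro A
  refine ⟨fun hA => conj_mem_Qk h1 h2 hA, fun hA => ?_⟩
  have := conj_mem_Qk (g := g⁻¹) h2 (by rwa [inv_inv]) hA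
  simpa [mul_assoc] using this

theorem tv_pres {k : ℕ} {i j : Fin n} (hij : i ≠ j) (c : K) (h : j.val < k → i.val < k) :
    ∀ w ∈ Vk n K k, transvection hij c • w ∈ Vk n K k := by
  intro w hw a ha
  rw [transvection_smul_apply, hw a ha, zero_add]
  split_ifs with hai
  · subst hai
    rw [hw j (by by_contra hj; have := h (by omega); omega), mul_zero]
  · rfl

theorem tv_mem_normalizer_Qk {k : ℕ} {i j : Fin n} (hij : i ≠ j) (c : K)
    (h : j.val < k → i.val < k) :
    transvection hij c ∈ Subgroup.normalizer (Qk n K k : Set (SpecialLinearGroup (Fin n) K)) :=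
  mem_normalizer_Qk (tv_pres hij c h) (by rw [transvection_inv]; exact tv_pres hij (-c) h)

theorem tv_mem_Qk {k : ℕ} {i j : Fin n} (hij : i ≠ j) (c : K) (hi : i.val < k) (hj : k ≤ j.val) :
    transvection hij c ∈ Qk n K k := by
  apply mem_Qk_of_entries
  intro a b hab
  rw [transvection_coe, Matrix.add_apply, Matrix.single_apply, if_neg, add_zero]
  rintro ⟨rfl, rfl⟩
  exact hab ⟨hi, hj⟩

theorem tv_pow {i j : Fin n} (hij : i ≠ j) (c : K) (m : ℕ) :
    (transvection hij c) ^ m = transvection hij ((m : K) * c) := by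
  induction m with
  | zero => simp [transvection_coeff_zero]
  | succ m ih =>
    rw [pow_succ, ih, ← transvection_add]
    congr 1
    push_cast
    ring

theorem tv_pElement (p : ℕ) [CharP K p] {i j : Fin n} (hij : i ≠ j) (c : K) :
    ∃ k : ℕ, (transvection hij c) ^ p ^ k = 1 :=
  ⟨1, by rw [pow_one, tv_pow, CharP.cast_eq_zero, zero_mul, transvection_coeff_zero]⟩

/-- The centralizer of `Qk` is `Qk` times the scalars. -/
theorem centralizer_Qk_le {k : ℕ} (hk0 : 0 < k) (hkn : k < n) :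
    Subgroup.centralizer (Qk n K k : Set (SpecialLinearGroup (Fin n) K)) ≤
      Qk n K k ⊔ Subgroup.center (SpecialLinearGroup (Fin n) K) := by
  intro x hx
  obtain ⟨i0, h0⟩ : ∃ i : Fin n, i.val = 0 := ⟨⟨0, by omega⟩, rfl⟩
  obtain ⟨iL, hL⟩ : ∃ i : Fin n, i.val = n - 1 := ⟨⟨n - 1, by omega⟩, rfl⟩
  have hcomm : ∀ (a b : Fin n) (hab : a ≠ b), a.val < k → k ≤ b.val →
      x * transvection hab 1 = transvection hab 1 * x := by
    intro a b hab ha hb
    exact ((Subgroup.mem_centralizer_iff.1 hx) _ (tv_mem_Qk hab 1 ha hb)).symm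
  have hne : ∀ {a b : Fin n}, a.val < k → k ≤ b.val → a ≠ b := by
    rintro a b ha hb rfl
    omega
  have hdiag : ∀ a : Fin n, x.1 a a = x.1 i0 i0 := by
    intro a
    have h1 := (comm_entries _ (hcomm i0 iL (hne (by omega) (by omega)) (by omega) (by omega))).2.2
    by_cases ha : a.val < k
    · have h2 := (comm_entries _ (hcomm a iL (hne ha (by omega)) ha (by omega))).2.2
      rw [h2, h1]
    · have h2 := (comm_entries _ (hcomm i0 a (hne (by omega) (by omega)) (by omega) (by omega))).2.2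
      exact h2.symm
  have hoff : ∀ a b : Fin n, a ≠ b → ¬ (a.val < k ∧ k ≤ b.val) → x.1 a b = 0 := by
    intro a b hab h
    by_cases hb : b.val < k
    · exact (comm_entries _ (hcomm b iL (hne hb (by omega)) hb (by omega))).1 a hab
    · have ha : k ≤ a.val := by
        by_contra ha
        exact h ⟨by omega, by omega⟩
      exact (comm_entries _ (hcomm i0 a (hne (by omega) ha) (by omega) ha)).2.1 b hab.symm
  have hdet : x.1 i0 i0 ^ n = 1 := by
    have h1 : x.1.det = ∏ a : Fin n, x.1 a a := by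
      apply Matrix.det_of_isUpperTriangular
      intro a b hab
      have hab' : b.val < a.val := hab
      exact hoff a b (ne_of_gt hab) (fun h => by omega)
    rw [x.2, Finset.prod_congr rfl (fun a _ => hdiag a), Finset.prod_const, Finset.card_univ,
      Fintype.card_fin] at h1
    exact h1.symm
  have hz0 : x.1 i0 i0 ≠ 0 := by
    intro h
    rw [h, zero_pow (by omega)] at hdet
    exact zero_ne_one hdet
  -- the scalar matrix
  let z : SpecialLinearGroup (Fin n) K := ⟨Matrix.scalar (Fin n) (x.1 i0 i0)⁻¹, by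
    rw [Matrix.scalar_apply, Matrix.det_diagonal, Finset.prod_const, Finset.card_univ,
      Fintype.card_fin, inv_pow, hdet, inv_one]⟩
  have hzc : z ∈ Subgroup.center (SpecialLinearGroup (Fin n) K) := by
    rw [Matrix.SpecialLinearGroup.mem_center_iff]
    exact ⟨(x.1 i0 i0)⁻¹, by rw [Fintype.card_fin, inv_pow, hdet, inv_one], rfl⟩
  have hq : z * x ∈ Qk n K k := by
    apply mem_Qk_of_entries
    intro a b hab
    have h1 : (z * x).1 a b = (x.1 i0 i0)⁻¹ * x.1 a b := by
      show (Matrix.scalar (Fin n) (x.1 i0 i0)⁻¹ * x.1) a b = _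
      rw [Matrix.scalar_apply, Matrix.diagonal_mul]
    rw [h1]
    by_cases hab' : a = b
    · subst hab'
      rw [hdiag a, inv_mul_cancel₀ hz0, Matrix.one_apply_eq]
    · rw [hoff a b hab' hab, mul_zero, Matrix.one_apply_ne hab']
  have h2 : x = z⁻¹ * (z * x) := by rw [inv_mul_cancel_left]
  rw [h2, sup_comm]
  exact Subgroup.mul_mem_sup (Subgroup.inv_mem _ hzc) hq

variable [Finite K]

theorem Qk_le_U (k : ℕ) : Qk n K k ≤ U n K := by
  intro A hA a b hab
  have hab' : b.val ≤ a.val := hab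
  exact entries_of_mem_Qk hA a b (fun h => by omega)

theorem U_pres {k : ℕ} {u : SpecialLinearGroup (Fin n) K} (hu : u ∈ U n K) :
    ∀ w ∈ Vk n K k, u • w ∈ Vk n K k := by
  intro w hw a ha
  rw [smul_apply']
  refine Finset.sum_eq_zero (fun b _ => ?_)
  rcases lt_or_ge b a with h | h
  · rw [U_apply_lt hu h, zero_mul]
  · have h' : a.val ≤ b.val := h
    rw [hw b (by omega), mul_zero]

theorem U_le_normalizer_Qk (k : ℕ) :
    U n K ≤ Subgroup.normalizer (Qk n K k : Set (SpecialLinearGroup (Fin n) K)) :=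
  fun _ hu => mem_normalizer_Qk (U_pres hu) (U_pres ((U n K).inv_mem hu))

/-- The normalizer of `U` consists of upper triangular matrices. -/
theorem upper_of_mem_normalizer {g : SpecialLinearGroup (Fin n) K}
    (hg : g ∈ Subgroup.normalizer (U n K : Set (SpecialLinearGroup (Fin n) K))) :
    ∀ a b : Fin n, b < a → g.1 a b = 0 := by
  have key : ∀ a : ℕ, ∀ (ha : a < n) (c : Fin n), c.val < a → g.1 ⟨a, ha⟩ c = 0 := by
    intro a
    induction a with
    | zero => intro _ c hc; omega
    | succ a ih =>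
      intro ha c hc
      have ha' : a < n := by omega
      have hlt : (⟨a, ha'⟩ : Fin n) < ⟨a + 1, ha⟩ := by
        show a < a + 1
        omega
      have hu' : g⁻¹ * transvection (ne_of_lt hlt) (1 : K) * g ∈ U n K := by
        have := (Subgroup.mem_normalizer_iff.1 (Subgroup.inv_mem _ hg) _).1
          (transvection_mem_U hlt (1 : K))
        simpa using this
      have heq : g * (g⁻¹ * transvection (ne_of_lt hlt) (1 : K) * g) =
          transvection (ne_of_lt hlt) (1 : K) * g := by group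
      have h1 := congrArg (fun M : SpecialLinearGroup (Fin n) K => M.1 ⟨a, ha'⟩ c) heq
      simp only [tv_mul_same] at h1
      have h2 : (g * (g⁻¹ * transvection (ne_of_lt hlt) (1 : K) * g)).1 ⟨a, ha'⟩ c =
          g.1 ⟨a, ha'⟩ c := by
        rw [coe_mul, Matrix.mul_apply, Finset.sum_eq_single c]
        · rw [U_apply_self hu', mul_one]
        · intro d _ hdc
          rcases lt_or_gt_of_ne hdc with h | h
          · have h' : d.val < c.val := h
            rw [ih ha' d (by omega), zero_mul]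
          · rw [U_apply_lt hu' h, mul_zero]
        · intro h
          exact absurd (Finset.mem_univ c) h
      rw [h2] at h1
      simpa using h1
  intro a b hab
  exact key a.val a.2 b hab

theorem diag_mem_normalizer {h : SpecialLinearGroup (Fin n) K} {D : Fin n → K}
    (hD : h.1 = Matrix.diagonal D) :
    h ∈ Subgroup.normalizer (U n K : Set (SpecialLinearGroup (Fin n) K)) := by
  have hdet : (Matrix.diagonal D).det = 1 := by rw [← hD]; exact h.2
  refine mem_normalizer_of_cj_le (cj_le_iff.2 (fun u hu => ?_))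
  intro a b hab
  have heq : (h * u * h⁻¹) * h = h * u := by group
  have h1 := congrArg (fun M : SpecialLinearGroup (Fin n) K => M.1 a b) heq
  simp only [coe_mul (h * u * h⁻¹) h, coe_mul h u, hD, Matrix.mul_diagonal, Matrix.diagonal_mul] at h1
  have hb := diagonal_neZero D hdet b
  rw [hu a b hab] at h1
  by_cases hab' : a = b
  · subst hab'
    rw [Matrix.one_apply_eq, mul_one] at h1
    rw [Matrix.one_apply_eq]
    exact mul_right_cancel₀ hb (by rw [h1, one_mul])
  · rw [Matrix.one_apply_ne hab', mul_zero] at h1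
    rw [Matrix.one_apply_ne hab']
    exact (mul_eq_zero.1 h1).resolve_right hb

theorem gen_U (p : ℕ) [Fact p.Prime] [CharP K p] (hn : 3 ≤ n) :
    Subgroup.normalizer (U n K : Set (SpecialLinearGroup (Fin n) K)) ≤
      Subgroup.closure (pGenSet p (Subgroup.center (SpecialLinearGroup (Fin n) K)) (U n K)) := by
  obtain ⟨i0, h0⟩ : ∃ i : Fin n, i.val = 0 := ⟨⟨0, by omega⟩, rfl⟩
  obtain ⟨i1, h1'⟩ : ∃ i : Fin n, i.val = 1 := ⟨⟨1, by omega⟩, rfl⟩
  set C := Subgroup.closure (pGenSet p (Subgroup.center (SpecialLinearGroup (Fin n) K)) (U n K))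
    with hC
  have hU : U n K ≤ C := by
    intro u hu
    refine Subgroup.subset_closure ⟨Subgroup.le_normalizer hu, Qk n K 1, Qk_le_U 1,
      U_le_normalizer_Qk 1, centralizer_Qk_le (by omega) (by omega), ?_⟩
    exact Subgroup.subset_closure ⟨U_le_normalizer_Qk 1 hu,
      exists_pow_of_isPGroup (isPGroup_U p) hu⟩
  have hd : ∀ (i : Fin n) (hi : i ≠ i1) (a : K) (ha : a ≠ 0), diag2n hi a ha ∈ C := by
    intro i hi a ha
    obtain ⟨k, hk0, hkn, hk⟩ : ∃ k : ℕ, 0 < k ∧ k < n ∧ (i.val < k ↔ i1.val < k) := by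
      by_cases hi0 : i = i0
      · exact ⟨n - 1, by omega, by omega, by rw [hi0, h0, h1']; omega⟩
      · refine ⟨1, by omega, by omega, ?_⟩
        have : i.val ≠ 0 := fun h => hi0 (Fin.ext (by omega))
        omega
    refine Subgroup.subset_closure ⟨diag_mem_normalizer (diag2n_coe hi a ha), Qk n K k, Qk_le_U k,
      U_le_normalizer_Qk k, centralizer_Qk_le hk0 hkn, ?_⟩
    have ht1 : ∀ c : K, transvection hi c ∈ Subgroup.closure
        {x : SpecialLinearGroup (Fin n) K | x ∈ Subgroup.normalizer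
          (Qk n K k : Set (SpecialLinearGroup (Fin n) K)) ∧ ∃ k : ℕ, x ^ p ^ k = 1} := fun c =>
      Subgroup.subset_closure ⟨tv_mem_normalizer_Qk hi c hk.2, tv_pElement p hi c⟩
    have ht2 : ∀ c : K, transvection hi.symm c ∈ Subgroup.closure
        {x : SpecialLinearGroup (Fin n) K | x ∈ Subgroup.normalizer
          (Qk n K k : Set (SpecialLinearGroup (Fin n) K)) ∧ ∃ k : ℕ, x ^ p ^ k = 1} := fun c =>
      Subgroup.subset_closure ⟨tv_mem_normalizer_Qk hi.symm c hk.1, tv_pElement p hi.symm c⟩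
    rw [diag2n_decompose hi a ha]
    exact Subgroup.mul_mem _ (Subgroup.mul_mem _ (Subgroup.mul_mem _ (Subgroup.mul_mem _
      (Subgroup.mul_mem _ (ht1 _) (ht2 _)) (ht1 _)) (ht1 _)) (ht2 _)) (ht1 _)
  have hdiag : ∀ (D : Fin n → K) (hD : (Matrix.diagonal D).det = 1),
      (⟨Matrix.diagonal D, hD⟩ : SpecialLinearGroup (Fin n) K) ∈ C := by
    intro D hD
    rw [diag_eq_diag2n_prod i1 D hD]
    refine Finset.noncommProd_induction _ _ _ (fun x => x ∈ C) (fun _ _ => C.mul_mem) C.one_mem
      (fun i hi => ?_)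
    simp only [(Finset.mem_filter.1 hi).2, ne_eq, not_false_eq_true, dite_true]
    exact hd i _ _ _
  intro g hg
  have hup := upper_of_mem_normalizer hg
  have hdet : ∏ a : Fin n, g.1 a a = 1 := by
    rw [← Matrix.det_of_isUpperTriangular (M := g.1) (fun a b hab => hup a b hab)]
    exact g.2
  have hD : (Matrix.diagonal (fun a => (g.1 a a)⁻¹)).det = 1 := by
    rw [Matrix.det_diagonal, Finset.prod_inv_distrib, hdet, inv_one]
  have hne : ∀ a : Fin n, g.1 a a ≠ 0 := by
    intro a h
    have h3 : ∏ a : Fin n, g.1 a a = 0 := Finset.prod_eq_zero (Finset.mem_univ a) h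
    rw [h3] at hdet
    exact zero_ne_one hdet
  obtain ⟨d, hd'⟩ : ∃ d : SpecialLinearGroup (Fin n) K, d = ⟨Matrix.diagonal (fun a => (g.1 a a)⁻¹), hD⟩ :=
    ⟨_, rfl⟩
  have hdC : d ∈ C := by rw [hd']; exact hdiag _ hD
  have hdv : d.1 = Matrix.diagonal (fun a => (g.1 a a)⁻¹) := by rw [hd']
  have hu : d * g ∈ U n K := by
    intro a b hab
    rw [coe_mul, hdv, Matrix.diagonal_mul]
    rcases eq_or_lt_of_le hab with h | h
    · subst h
      rw [inv_mul_cancel₀ (hne b), Matrix.one_apply_eq]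
    · rw [hup a b h, mul_zero, Matrix.one_apply_ne (ne_of_gt h)]
  have h2 : g = d⁻¹ * (d * g) := by
    rw [inv_mul_cancel_left]
  rw [h2]
  exact C.mul_mem (C.inv_mem hdC) (hU hu)

/-- The hypothesis of the simplicity criterion for `U ≤ SL_n(K)`, `n ≥ 3`. -/
theorem genHyp_U (p : ℕ) [Fact p.Prime] [CharP K p] (hn : 3 ≤ n) :
    GenHyp p (Subgroup.center (SpecialLinearGroup (Fin n) K)) (U n K) := by
  refine ⟨?_, fun T hT hne hcl => closed_U p hn T hT hne hcl, gen_U p hn⟩
  intro h
  have hlt : (⟨0, by omega⟩ : Fin n) < ⟨1, by omega⟩ := by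
    show (0 : ℕ) < 1
    omega
  have h1 := transvection_mem_U hlt (1 : K)
  rw [h, Subgroup.mem_bot] at h1
  have h2 := (transvection_mem_center_iff (ne_of_lt hlt) (1 : K)).1 (by rw [h1]; exact Subgroup.one_mem _)
  exact one_ne_zero h2

end Cfsg.Agent.Lib.Helper89.UT
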